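import Cfsg.Agent.H8.LFT.Fuse

/-!
# A vector of the first orbit in each commutator space
-/

set_option autoImplicit false
set_option linter.unusedSectionVars false

namespace Cfsg.Agent.H8.LFT

open Matrix Cfsg.Agent.H8.U62 Cfsg.Agent.H8.U62.Setup

/-- Each commutator space of the list meets the first orbit. -/
def clsOK : Bool :=
  force (maskL (orbL 0)) fun m => (List.range 16).all fun i => force (e16.getD i 0) fun A =>
    Nat.beq A oneC || (List.range 17).any fun e => m.testBit (Nat.xor (mvC A e) e)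

theorem cls_ok : clsOK = true := by decide +kernel

variable {G : Type*} [Group G] [Finite G] {z : G} {Q : Subgroup (Subgroup.centralizer ({z} : Set G))} [Q.Normal]
  {F : Type} [Setup F]

namespace Model

variable (D : Model z Q F)

/-- The commutators of an inner involution contain an element of the first class. -/
theorem exists_comm_cls (a : D.M) (haQ : (a : Subgroup.centralizer ({z} : Set G)) ∉ Q)
    (ha2 : (a : Subgroup.centralizer ({z} : Set G)) * (a : Subgroup.centralizer ({z} : Set G)) = 1) :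
    ∃ q : Q, D.Cls 0 (cj (a : Subgroup.centralizer ({z} : Set G)) q * q⁻¹) := by
  have hne1 : D.ρ a ≠ 1 := fun e => haQ ((D.ρ_ker a).1 e)
  obtain ⟨w, hw, i, hi, hm⟩ := conj_into_e16 (F := F) (D.ρ_range ▸ ⟨a, rfl⟩ : D.ρ a ∈ sub (F := F) 0)
    (by rw [← map_mul, show a * a = 1 from Subtype.ext ha2, map_one]) hne1
  have h := cls_ok
  simp only [clsOK, force_eq, Bool.and_eq_true, List.all_eq_true, List.mem_range, Bool.or_eq_true,
    List.any_eq_true, testBit_maskL] at h
  rcases h i hi with e | ⟨x, -, hx⟩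
  · exfalso
    rw [Nat.eq_of_beq_eq_true e, matF_oneC _ hom two] at hm
    have h1 : w * D.ρ a * w⁻¹ = 1 := ext_mat (hm.trans mat_one.symm)
    exact hne1 (conj_eq_one_iff.1 h1)
  obtain ⟨γ, hγ, hγe⟩ := exists_smul_eq (F := F) 0 hx
  rw [vecF_xor _ hom two, vecF_mvC _ hom two, ← hm] at hγe
  obtain ⟨q, hq⟩ := D.v_surj (w⁻¹ • vecF (om : F) x)
  refine ⟨q, w⁻¹ * γ, mul_mem (inv_mem hw) hγ, ?_⟩
  have hy : vecF (om : F) x = w • D.v q := by rw [hq, smul_inv_smul]
  have hlin : ∀ (g : SU6 F) (p r : Fin 6 → F), g • (p + r) = g • p + g • r := fun g p r => by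
    rw [smul_def, smul_def, smul_def, Matrix.mulVec_add]
  rw [mul_smul]
  show w⁻¹ • γ • (seedF 0 : Fin 6 → F) = _
  rw [show (γ • (seedF 0 : Fin 6 → F)) = (w * D.ρ a * w⁻¹) • vecF (om : F) x + vecF (om : F) x from hγe, hlin, hy,
    ← mul_smul, ← mul_smul, ← mul_smul, show w⁻¹ * (w * D.ρ a * w⁻¹) * w = D.ρ a by group, inv_mul_cancel, one_smul,
    D.v_mul, D.v_inv, D.v_conj, smul_def]

/-- The first class is not fused to `z`. -/
theorem not_conj_of_cls {q : Q} (hq : D.Cls 0 q) (hz : gv q ≠ z) : ¬ IsConj z (gv q) := by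
  intro h
  obtain ⟨g, hg⟩ := isConj_iff.1 h
  obtain ⟨⟨γ1, hγ1, e1⟩, -, -⟩ := D.local_structure g q hg hz
  obtain ⟨γ0, hγ0, e0⟩ := hq
  refine no_fusion (F := F) (mul_mem (inv_mem hγ1) hγ0) ?_
  rw [mul_smul]
  show γ1⁻¹ • γ0 • (seedF ((0 : Fin 2) : ℕ) : Fin 6 → F) = seedF ((1 : Fin 2) : ℕ)
  rw [e0, ← e1, inv_smul_smul]

end Model

end Cfsg.Agent.H8.LFT
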