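import Cfsg.Agent.H8.LFT.LocalData

/-!
# Elements outside the index two subgroup are semilinear
-/

set_option autoImplicit false
set_option linter.unusedSectionVars false
set_option maxRecDepth 20000

namespace Cfsg.Agent.H8.LFT

open Matrix Cfsg.Agent.H8.U62 Cfsg.Agent.H8.U62.Setup

variable {G : Type*} [Group G] [Finite G] {z : G} {Q : Subgroup (Subgroup.centralizer ({z} : Set G))} [Q.Normal]
  {F : Type} [Setup F]

theorem scalar_bits : ∀ r c : Fin 6,
    ((dC zIx).testBit (12 * c.1 + 2 * r.1), (dC zIx).testBit (12 * c.1 + 2 * r.1 + 1)) =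
      if r = c then (false, true) else (false, false) := by
  decide +kernel

theorem matF_scalar : matF (om : F) (dC zIx) = (om : F) • (1 : Matrix (Fin 6) (Fin 6) F) := by
  ext r c
  have h := scalar_bits r c
  simp only [Prod.ext_iff] at h
  simp only [matF, Matrix.of_apply, Matrix.smul_apply, Matrix.one_apply, smul_eq_mul]
  rw [h.1, h.2]
  by_cases hrc : r = c <;> simp [hrc, fe, bF]

namespace Model

variable (D : Model z Q F)

theorem L_add (h : Subgroup.centralizer ({z} : Set G)) (x y : Fin 6 → F) :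
    D.L h (x + y) = D.L h x + D.L h y := by
  conv_lhs => rw [← D.v_lift x, ← D.v_lift y, ← D.v_mul, L_v, cj_mul, D.v_mul]
  rfl

theorem L_zero (h : Subgroup.centralizer ({z} : Set G)) : D.L h 0 = 0 := by
  have := D.L_add h 0 0
  rwa [add_zero, left_eq_add] at this

theorem L_mul (h k : Subgroup.centralizer ({z} : Set G)) (x : Fin 6 → F) :
    D.L (h * k) x = D.L h (D.L k x) := by
  conv_lhs => rw [← D.v_lift x, L_v, ← cj_cj]
  rw [← L_v]
  rfl

theorem L_M (m : D.M) (x : Fin 6 → F) :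
    D.L (m : Subgroup.centralizer ({z} : Set G)) x = mat (D.ρ m) *ᵥ x := by
  conv_lhs => rw [← D.v_lift x, L_v, D.v_conj]
  rw [D.v_lift]

theorem L_herm_self (h : Subgroup.centralizer ({z} : Set G)) (x : Fin 6 → F) :
    hermForm 6 F 2 (D.L h x) (D.L h x) = hermForm 6 F 2 x x := by
  obtain ⟨a, rfl⟩ := D.v_surj x
  have e : gv (cj h a) * gv (cj h a) = (h : G) * (gv a * gv a) * (h : G)⁻¹ := by rw [gv_cj]; group
  rw [L_v, D.v_sq, D.v_sq, e]
  by_cases ha : gv a * gv a = 1
  · rw [if_pos ha, if_pos (by rw [ha]; group)]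
  · rw [if_neg ha, if_neg fun hh => ha (conj_eq_one_iff.1 hh)]

/-- Scalars commute up to a field automorphism with every element of the centralizer. -/
theorem exists_sclar (h : Subgroup.centralizer ({z} : Set G)) :
    ∃ l : F, (l = om ∨ l = om * om) ∧ ∀ x, D.L h ((om : F) • x) = l • D.L h x := by
  obtain ⟨γ, hγ, hγm⟩ := (Ext.real_dC (F := F) zIx).mono Ext.diagG_le_sub
  rw [matF_scalar] at hγm
  obtain ⟨mw, hmw⟩ := D.exists_rho hγ
  have hn := D.normal
  let m' : D.M := ⟨h * mw * h⁻¹, hn.conj_mem _ mw.2 h⟩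
  have hcomm : ∀ m : D.M, D.ρ m' * D.ρ m = D.ρ m * D.ρ m' := by
    intro m
    let m0 : D.M := ⟨h⁻¹ * m * h, by simpa using hn.conj_mem _ m.2 h⁻¹⟩
    have hk : D.ρ (mw * m0 * mw⁻¹ * m0⁻¹) = 1 := by
      rw [map_mul, map_mul, map_mul, map_inv, map_inv, hmw, mul_inv_eq_one, mul_inv_eq_iff_eq_mul]
      refine ext_mat ?_
      rw [mat_mul, mat_mul, hγm, smul_mul_assoc, mul_smul_comm, one_mul, mul_one]
    have hQ := (D.ρ_ker _).1 hk
    have hQ' := (inferInstance : Q.Normal).conj_mem _ hQ h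
    have e : ((m' * m * m'⁻¹ * m⁻¹ : D.M) : Subgroup.centralizer ({z} : Set G)) =
        h * ((mw * m0 * mw⁻¹ * m0⁻¹ : D.M) : Subgroup.centralizer ({z} : Set G)) * h⁻¹ := by
      simp only [m', m0, Subgroup.coe_mul, Subgroup.coe_inv]
      group
    have := (D.ρ_ker (m' * m * m'⁻¹ * m⁻¹)).2 (e ▸ hQ')
    rw [map_mul, map_mul, map_mul, map_inv, map_inv, mul_inv_eq_one, mul_inv_eq_iff_eq_mul] at this
    exact this
  have hsub : D.ρ m' ∈ sub (F := F) 0 := D.ρ_range ▸ ⟨m', rfl⟩
  have hcen : (⟨D.ρ m', hsub⟩ : sub (F := F) 0) ∈ Subgroup.center (sub (F := F) 0) := by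
    refine Subgroup.mem_center_iff.2 fun y => Subtype.ext ?_
    obtain ⟨m, hm⟩ := D.exists_rho y.2
    show y.1 * D.ρ m' = D.ρ m' * y.1
    rw [← hm]; exact (hcomm m).symm
  rw [center_le_center_sub] at hcen
  obtain ⟨l, hl⟩ := (mem_center_iff' _).1 (Subgroup.mem_subgroupOf.1 hcen)
  have hl' : ∀ x, mat (D.ρ m') *ᵥ x = l • x := hl
  have hLh : ∀ x, D.L h ((om : F) • x) = l • D.L h x := fun x => by
    have e : h * (mw : Subgroup.centralizer ({z} : Set G)) = (m' : Subgroup.centralizer ({z} : Set G)) * h := by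
      show h * (mw : Subgroup.centralizer ({z} : Set G)) = h * mw * h⁻¹ * h
      group
    have h1 := D.L_mul h (mw : Subgroup.centralizer ({z} : Set G)) x
    rw [e, D.L_mul, L_M, hl', L_M, hmw, hγm, Matrix.smul_mulVec, Matrix.one_mulVec] at h1
    exact h1.symm
  refine ⟨l, ?_, hLh⟩
  have hne0 : (Pi.single 0 1 : Fin 6 → F) ≠ 0 := by simp
  have h0 : l ≠ 0 := by
    rintro rfl
    refine hne0 ?_
    have := hLh (Pi.single 0 1)
    rw [zero_smul, ← D.L_zero h] at this
    exact (smul_eq_zero.1 (D.L_injective h this)).resolve_left om_ne_zero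
  have h1 : l ≠ 1 := by
    rintro rfl
    refine hne0 ?_
    have := hLh (Pi.single 0 1)
    rw [one_smul] at this
    have h' : ((om : F) - 1) • (Pi.single 0 1 : Fin 6 → F) = 0 := by
      rw [sub_smul, one_smul, D.L_injective h this, sub_self]
    exact (smul_eq_zero.1 h').resolve_left (sub_ne_zero.2 om_ne_one)
  exact (ne_zero_cases h0).resolve_left h1

theorem lin_of_mem (m : D.M) (x : Fin 6 → F) :
    D.L (m : Subgroup.centralizer ({z} : Set G)) ((om : F) • x) =
      (om : F) • D.L (m : Subgroup.centralizer ({z} : Set G)) x := by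
  rw [L_M, L_M, Matrix.mulVec_smul]

theorem L_smul_of_lin {h : Subgroup.centralizer ({z} : Set G)}
    (hl : ∀ x, D.L h ((om : F) • x) = (om : F) • D.L h x) (c : F) (x : Fin 6 → F) :
    D.L h (c • x) = c • D.L h x := by
  obtain ⟨a, b, rfl⟩ := exists_fe c
  cases a <;> cases b <;> simp [fe, bF, L_zero, L_add, hl, add_smul]

theorem L_herm_of_lin {h : Subgroup.centralizer ({z} : Set G)}
    (hl : ∀ x, D.L h ((om : F) • x) = (om : F) • D.L h x) (x y : Fin 6 → F) :
    hermForm 6 F 2 (D.L h x) (D.L h y) = hermForm 6 F 2 x y := by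
  have e1 : ∀ x y : Fin 6 → F, hermForm 6 F 2 (x + y) (x + y) =
      hermForm 6 F 2 x x + hermForm 6 F 2 y y + (hermForm 6 F 2 x y + hermForm 6 F 2 y x) := by
    intro x y
    have := charP_two (F := F)
    simp only [hermForm, Pi.add_apply, add_pow_char, ← Finset.sum_add_distrib]
    exact Finset.sum_congr rfl fun i _ => by ring
  have e2 : ∀ (c : F) (x y : Fin 6 → F), hermForm 6 F 2 (c • x) y = c * hermForm 6 F 2 x y := fun c x y => by
    simp only [hermForm, Pi.smul_apply, smul_eq_mul, Finset.mul_sum, mul_assoc]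
  have e3 : ∀ (c : F) (x y : Fin 6 → F), hermForm 6 F 2 x (c • y) = c ^ 2 * hermForm 6 F 2 x y := fun c x y => by
    simp only [hermForm, Pi.smul_apply, smul_eq_mul, Finset.mul_sum, mul_pow]
    exact Finset.sum_congr rfl fun i _ => by ring
  have k1 := D.L_herm_self h (x + y)
  rw [D.L_add, e1, e1, D.L_herm_self h x, D.L_herm_self h y] at k1
  have k2 := D.L_herm_self h ((om : F) • x + y)
  rw [D.L_add, e1, e1, D.L_herm_self h y, D.L_herm_self h ((om : F) • x), hl] at k2
  simp only [e2, e3] at k2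
  have hω : (om : F) ^ 2 = om + 1 := by rw [pow_two, hom]
  linear_combination -k2 + (om + 1) * k1 +
    (hermForm 6 F 2 (D.L h y) (D.L h x) - hermForm 6 F 2 y x) * hω

theorem eq_of_L {h : Subgroup.centralizer ({z} : Set G)} (hh : ∀ x, D.L h x = x) : h ∈ Q := by
  have hd : (h : G) ∈ Q.map (Subgroup.centralizer ({z} : Set G)).subtype := by
    refine D.sing.mem_of_disp (Subgroup.mem_centralizer_singleton_iff.1 h.2) fun g hg => ?_
    obtain ⟨a, ha, rfl⟩ := hg
    have e : D.v (cj h ⟨a, ha⟩) = D.v ⟨a, ha⟩ := by rw [← D.L_v, hh]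
    obtain ⟨c, hc, e'⟩ := (D.v_eq_iff _ _).1 e.symm
    have e'' : gv (cj h ⟨a, ha⟩) = (a : G) * gv c := congrArg gv e'
    rw [gv_cj] at e''
    rw [H18.mem_zpowers_iff_pair D.sing.xx, Subgroup.coe_subtype]
    rw [show (a : G)⁻¹ * ((h : G) * (a : G) * (h : G)⁻¹) = gv c by rw [e'', inv_mul_cancel_left]]
    exact hc
  obtain ⟨y, hy, e⟩ := hd
  rwa [Subtype.ext (e : (y : G) = h)] at hy

theorem L_mk {a b : Subgroup.centralizer ({z} : Set G)}
    (e : (QuotientGroup.mk' Q) a = (QuotientGroup.mk' Q) b) (x : Fin 6 → F) : D.L a x = D.L b x := by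
  have hq : a⁻¹ * b ∈ Q := QuotientGroup.eq.1 e
  obtain ⟨r, rfl⟩ := D.v_surj x
  rw [L_v, L_v, show b = a * (a⁻¹ * b) by group, ← cj_cj]
  exact (D.v_cj_congr a (D.Q_le_St r hq)).symm

/-- A subgroup with the elements of two commuting involutions. -/
def fourSub {a b : G} (ha : a * a = 1) (hb : b * b = 1) (hab : a * b = b * a) : Subgroup G where
  carrier := {x | x = 1 ∨ x = a ∨ x = b ∨ x = a * b}
  one_mem' := Or.inl rfl
  mul_mem' := by
    have k1 : ∀ x, a * (a * x) = x := fun x => by rw [← mul_assoc, ha, one_mul]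
    have k2 : ∀ x, b * (b * x) = x := fun x => by rw [← mul_assoc, hb, one_mul]
    have k3 : ∀ x, b * (a * x) = a * (b * x) := fun x => by rw [← mul_assoc, ← hab, mul_assoc]
    rintro x y (rfl | rfl | rfl | rfl) (rfl | rfl | rfl | rfl) <;>
      simp [mul_assoc, k1, k2, k3, ha, hb, hab.symm]
  inv_mem' := by
    have ha' : a⁻¹ = a := inv_eq_of_mul_eq_one_right ha
    have hb' : b⁻¹ = b := inv_eq_of_mul_eq_one_right hb
    rintro x (rfl | rfl | rfl | rfl) <;> simp [ha', hb', ← hab]

/-- Not every element commutes with the scalars. -/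
theorem exists_semilinear (g : G) (s : Q) (hgs : g * z * g⁻¹ = gv s) (hne : gv s ≠ z) :
    ∃ h : Subgroup.centralizer ({z} : Set G), ∀ x, D.L h ((om : F) • x) = ((om : F) * om) • D.L h x := by
  classical
  by_contra hno
  push Not at hno
  have hlin : ∀ h : Subgroup.centralizer ({z} : Set G), ∀ x, D.L h ((om : F) • x) = (om : F) • D.L h x := by
    intro h x
    obtain ⟨l, hl, hl'⟩ := D.exists_sclar h
    rcases hl with rfl | rfl
    · exact hl' x
    · obtain ⟨y, hy⟩ := hno h
      exact absurd (hl' y) hy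
  obtain ⟨-, hloc, -⟩ := D.local_structure g s hgs hne
  have hE := D.sing.conj g
  have hsne : gv s ≠ 1 := fun e => hE.xne (hgs.trans e)
  set E' := (EE Q).map (MulAut.conj g).toMonoidHom with hE'
  have hzE : z ∈ E' := (D.inter_facts g ⟨_, s.2, hgs.symm⟩ (hgs ▸ hne)).2.1
  -- the subgroup of `Q` inside `E'`
  let gvh : Q →* G := (Subgroup.centralizer ({z} : Set G)).subtype.comp Q.subtype
  let Rq : Subgroup Q := E'.comap gvh
  have hRc : Nat.card Rq = 2 ^ 7 := by
    rw [← hloc.card_inter]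
    refine Nat.card_congr
      { toFun := fun r => ⟨gv r.1, Subgroup.mem_inf.2 ⟨⟨_, r.1.2, rfl⟩, r.2⟩⟩
        invFun := fun a => ⟨⟨⟨a.1, ?_⟩, ?_⟩, ?_⟩
        left_inv := fun _ => rfl
        right_inv := fun _ => rfl }
    · obtain ⟨c, -, e⟩ := (Subgroup.mem_inf.1 a.2).1
      exact e ▸ c.2
    · obtain ⟨c, hc, e⟩ := (Subgroup.mem_inf.1 a.2).1
      rwa [show (⟨a.1, _⟩ : Subgroup.centralizer ({z} : Set G)) = c from Subtype.ext e.symm]
    · exact (Subgroup.mem_inf.1 a.2).2
  let φ : Q →* Multiplicative (Fin 6 → F) :=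
    MonoidHom.mk' (fun a => Multiplicative.ofAdd (D.v a)) fun a b => by rw [D.v_mul]; rfl
  let U : Subgroup (Multiplicative (Fin 6 → F)) := Rq.map φ
  have hUc : 64 ≤ Nat.card U := by
    have h := (φ.comp Rq.subtype).ker.card_mul_index
    rw [Subgroup.index_ker, MonoidHom.range_comp, Subgroup.range_subtype, hRc] at h
    obtain ⟨zQ, hzQ⟩ := D.exists_zQ
    have hk : Nat.card (φ.comp Rq.subtype).ker ≤ 2 := by
      refine le_trans (Nat.card_le_card_of_injective
        (fun r : (φ.comp Rq.subtype).ker => decide (gv r.1.1 = 1)) fun r r' e => ?_) (by simp)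
      have hr : ∀ r : (φ.comp Rq.subtype).ker, gv r.1.1 = 1 ∨ gv r.1.1 = z := fun r =>
        (D.v_eq_zero _).1 (congrArg Multiplicative.toAdd (MonoidHom.mem_ker.1 r.2))
      refine Subtype.ext (Subtype.ext (gv_injective ?_))
      rcases hr r with e1 | e1 <;> rcases hr r' with e2 | e2 <;>
        simp [e1, e2, D.sing.xne] at e ⊢
    have h' := Nat.mul_le_mul hk (le_refl (Nat.card (Rq.map φ)))
    rw [h] at h'
    show 64 ≤ Nat.card (Rq.map φ)
    omega
  have hs0 : D.v s ≠ 0 := fun e => by rcases (D.v_eq_zero s).1 e with e' | e' <;> [exact hsne e'; exact hne e']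
  -- elements of the two-local subgroup fix `U` modulo the class of `s`
  have hfix : ∀ r ∈ Rq, ∀ d ∈ DG Q g, D.L d (D.v r) = D.v r ∨ D.L d (D.v r) = D.v r + D.v s := by
    intro r hr d hd
    have hd' := (Subgroup.mem_inf.1 (Subgroup.mem_subgroupOf.1 hd)).1
    rcases hE.pair (hE.comm hd' hr) with e | e
    · left
      rw [L_v]
      refine congrArg D.v (gv_injective ?_)
      rw [gv_cj]
      exact mul_inv_eq_one.1 e
    · right
      rw [L_v, add_comm, ← D.v_mul]
      refine congrArg D.v (gv_injective ?_)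
      rw [gv_cj]
      show _ = gv s * gv r
      rw [← hgs]
      exact mul_inv_eq_iff_eq_mul.1 e
  have hsmul : (om : F) • D.v s ≠ 0 ∧ (om : F) • D.v s ≠ D.v s := by
    refine ⟨fun e => hs0 ((smul_eq_zero.1 e).resolve_left om_ne_zero), fun e => hs0 ?_⟩
    have h' : ((om : F) - 1) • D.v s = 0 := by rw [sub_smul, one_smul, e, sub_self]
    exact (smul_eq_zero.1 h').resolve_left (sub_ne_zero.2 om_ne_one)
  -- `U` meets its multiple trivially
  have hzero : ∀ r ∈ Rq, ∀ r' ∈ Rq, (om : F) • D.v r = D.v r' → D.v r = 0 := by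
    intro r hr r' hr' e
    have key : ∀ q ∈ Rq, (∀ d ∈ DG Q g, D.L d (D.v q) = D.v q) → D.v q = 0 ∨ D.v q = D.v s := by
      intro q hq hfq
      have hH : gv q ∈ fourSub D.sing.xx (show gv s * gv s = 1 by rw [← hgs]; exact hE.xx)
          (D.sing.comm_x _ ⟨_, s.2, rfl⟩).symm := by
        set H := fourSub D.sing.xx (show gv s * gv s = 1 by rw [← hgs]; exact hE.xx)
          (D.sing.comm_x _ ⟨_, s.2, rfl⟩).symm with hH
        have hHle : H ≤ E' := by
          rintro x (rfl | rfl | rfl | rfl)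
          · exact one_mem _
          · exact hzE
          · rw [← hgs]; exact hE.mem
          · exact mul_mem hzE (hgs ▸ hE.mem)
        rw [← hE.double H hHle (Or.inr (Or.inr (Or.inl hgs)))]
        refine Subgroup.mem_inf.2 ⟨hq, Subgroup.mem_centralizer_iff.2 fun d hd => ?_⟩
        have hdE := (Subgroup.mem_inf.1 hd).1
        have hdz : d * z = z * d :=
          ((Subgroup.mem_centralizer_iff.1 (Subgroup.mem_inf.1 hd).2) z (Or.inr (Or.inl rfl))).symm
        have hdC : d ∈ Subgroup.centralizer ({z} : Set G) := Subgroup.mem_centralizer_singleton_iff.2 hdz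
        have hdD : (⟨d, hdC⟩ : Subgroup.centralizer ({z} : Set G)) ∈ DG Q g :=
          Subgroup.mem_subgroupOf.2 (Subgroup.mem_inf.2 ⟨hdE, hdC⟩)
        have e1 := hfq _ hdD
        rw [L_v] at e1
        obtain ⟨c, hc, ec⟩ := (D.v_eq_iff _ _).1 e1.symm
        have ec' : d * gv q * d⁻¹ = gv q * gv c := congrArg gv ec
        rcases hE.pair (hE.comm hdE hq) with e2 | e2
        · exact mul_inv_eq_iff_eq_mul.1 (mul_inv_eq_one.1 e2)
        · exfalso
          replace e2 : d * gv q * d⁻¹ * (gv q)⁻¹ = g * z * g⁻¹ := e2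
          rw [ec'] at e2
          rcases hc with e3 | e3
          · rw [e3, mul_one, mul_inv_cancel] at e2
            exact hE.xne e2.symm
          · have hqz : gv q * z = z * gv q := D.sing.comm_x _ ⟨_, q.2, rfl⟩
            rw [e3, hqz, mul_inv_cancel_right, hgs] at e2
            exact hne e2.symm
      rcases hH with e1 | e1 | e1 | e1
      · exact Or.inl ((D.v_eq_zero q).2 (Or.inl e1))
      · exact Or.inl ((D.v_eq_zero q).2 (Or.inr e1))
      · exact Or.inr (by rw [gv_injective e1])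
      · right
        obtain ⟨zQ, hzQ⟩ := D.exists_zQ
        rw [show q = zQ * s from gv_injective (by rw [show gv (zQ * s) = gv zQ * gv s from rfl, hzQ]; exact e1),
          D.v_mul, (D.v_eq_zero zQ).2 (Or.inr hzQ), zero_add]
    have hboth : ∀ d ∈ DG Q g, D.L d (D.v r) = D.v r ∧ D.L d (D.v r') = D.v r' := by
      intro d hd
      have hl := hlin d (D.v r)
      rw [e] at hl
      rcases hfix r hr d hd with e1 | e1 <;> rcases hfix r' hr' d hd with e2 | e2
      · exact ⟨e1, e2⟩
      · exfalso; rw [e1, e2, e, add_eq_left] at hl; exact hs0 hl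
      · exfalso
        rw [e1, e2, smul_add, e, left_eq_add] at hl
        exact hsmul.1 hl
      · exfalso
        rw [e1, e2, smul_add, e] at hl
        exact hsmul.2 (add_left_cancel hl).symm
    rcases key r hr (fun d hd => (hboth d hd).1) with e1 | e1
    · exact e1
    rcases key r' hr' (fun d hd => (hboth d hd).2) with e2 | e2 <;> rw [e1, e2] at e
    · exact absurd e hsmul.1
    · exact absurd e hsmul.2
  -- so they span
  let Φ : U × U → (Fin 6 → F) := fun p => Multiplicative.toAdd p.1.1 + (om : F) • Multiplicative.toAdd p.2.1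
  have hmemU : ∀ u : U, ∃ r ∈ Rq, D.v r = Multiplicative.toAdd u.1 := fun u => by
    obtain ⟨r, hr, e⟩ := u.2
    exact ⟨r, hr, congrArg Multiplicative.toAdd e⟩
  have hΦ : Function.Bijective Φ := by
    have hinj : Function.Injective Φ := by
      rintro ⟨a, b⟩ ⟨a', b'⟩ e
      obtain ⟨r1, h1, e1⟩ := hmemU a
      obtain ⟨r2, h2, e2⟩ := hmemU b
      obtain ⟨r3, h3, e3⟩ := hmemU a'
      obtain ⟨r4, h4, e4⟩ := hmemU b'
      have e' : D.v r1 + (om : F) • D.v r2 = D.v r3 + (om : F) • D.v r4 := by rw [e1, e2, e3, e4]; exact e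
      have h24 : D.v (r2 * r4) = 0 := by
        refine hzero (r2 * r4) (mul_mem h2 h4) (r1 * r3) (mul_mem h1 h3) ?_
        rw [D.v_mul, D.v_mul, smul_add]
        calc (om : F) • D.v r2 + (om : F) • D.v r4
            = (D.v r1 + (om : F) • D.v r2) + (D.v r1 + (om : F) • D.v r4) := by
              rw [show D.v r1 + (om : F) • D.v r2 + (D.v r1 + (om : F) • D.v r4) =
                (D.v r1 + D.v r1) + ((om : F) • D.v r2 + (om : F) • D.v r4) by abel, add_self, zero_add]
          _ = (D.v r3 + (om : F) • D.v r4) + (D.v r1 + (om : F) • D.v r4) := by rw [e']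
          _ = D.v r1 + D.v r3 := by
              rw [show D.v r3 + (om : F) • D.v r4 + (D.v r1 + (om : F) • D.v r4) =
                (D.v r1 + D.v r3) + ((om : F) • D.v r4 + (om : F) • D.v r4) by abel, add_self, add_zero]
      have hb : D.v r2 = D.v r4 := by
        rw [D.v_mul] at h24
        calc D.v r2 = D.v r2 + (D.v r4 + D.v r4) := by rw [add_self, add_zero]
          _ = D.v r4 := by rw [← add_assoc, h24, zero_add]
      have ha : D.v r1 = D.v r3 := by rw [hb] at e'; exact add_right_cancel e'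
      refine Prod.ext (Subtype.ext ?_) (Subtype.ext ?_)
      · exact (Multiplicative.toAdd.injective (e1.symm.trans (ha.trans e3)))
      · exact (Multiplicative.toAdd.injective (e2.symm.trans (hb.trans e4)))
    refine (Nat.bijective_iff_injective_and_card Φ).2 ⟨hinj, le_antisymm (Nat.card_le_card_of_injective Φ hinj) ?_⟩
    rw [Nat.card_fun, Nat.card_fin, Nat.card_eq_fintype_card (α := F), Setup.card, Nat.card_prod]
    exact le_trans (by norm_num) (Nat.mul_le_mul hUc hUc)
  -- each element is then determined by one scalar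
  have e2 : ∀ (c : F) (x y : Fin 6 → F), hermForm 6 F 2 (c • x) y = c * hermForm 6 F 2 x y := fun c x y => by
    simp only [hermForm, Pi.smul_apply, smul_eq_mul, Finset.mul_sum, mul_assoc]
  have e3 : ∀ (c : F) (x y : Fin 6 → F), hermForm 6 F 2 x (c • y) = c ^ 2 * hermForm 6 F 2 x y := fun c x y => by
    simp only [hermForm, Pi.smul_apply, smul_eq_mul, Finset.mul_sum, mul_pow]
    exact Finset.sum_congr rfl fun i _ => by ring
  have e4 : ∀ x y y' : Fin 6 → F, hermForm 6 F 2 (x + y) y' = hermForm 6 F 2 x y' + hermForm 6 F 2 y y' :=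
    fun x y y' => by simp only [hermForm, Pi.add_apply, add_mul, Finset.sum_add_distrib]
  have e5 : ∀ x y y' : Fin 6 → F, hermForm 6 F 2 x (y + y') = hermForm 6 F 2 x y + hermForm 6 F 2 x y' := by
    intro x y y'
    have := charP_two (F := F)
    simp only [hermForm, Pi.add_apply, add_pow_char, mul_add, Finset.sum_add_distrib]
  have hss : hermForm 6 F 2 (D.v s) (D.v s) = 0 := by
    rw [D.v_sq, if_pos (by rw [← hgs]; exact hE.xx)]
  obtain ⟨i, hi⟩ : ∃ i, D.v s i ≠ 0 := Function.ne_iff.1 hs0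
  set y0 : Fin 6 → F := Pi.single i (D.v s i)
  have hy0 : hermForm 6 F 2 (D.v s) y0 = 1 := by
    simp only [hermForm, y0]
    rw [Finset.sum_eq_single i]
    · rw [Pi.single_eq_same]
      linear_combination cube_eq_one hi
    · intro j _ hj; rw [Pi.single_eq_of_ne hj]; simp
    · exact fun h => absurd (Finset.mem_univ _) h
  have hform : ∀ d ∈ DG Q g, ∀ x, ∃ c : F, D.L d x = x + c • D.v s := by
    intro d hd x
    obtain ⟨⟨a, b⟩, rfl⟩ := hΦ.2 x
    obtain ⟨r1, h1, f1⟩ := hmemU a
    obtain ⟨r2, h2, f2⟩ := hmemU b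
    show ∃ c : F, D.L d (Multiplicative.toAdd a.1 + (om : F) • Multiplicative.toAdd b.1) = _ + c • D.v s
    rw [← f1, ← f2, D.L_add, hlin d (D.v r2)]
    show ∃ c : F, _ = Multiplicative.toAdd a.1 + (om : F) • Multiplicative.toAdd b.1 + c • D.v s
    rw [← f1, ← f2]
    rcases hfix r1 h1 d hd with g1 | g1 <;> rcases hfix r2 h2 d hd with g2 | g2 <;> rw [g1, g2]
    · exact ⟨0, by simp⟩
    · exact ⟨om, by rw [smul_add]; abel⟩
    · exact ⟨1, by rw [one_smul]; abel⟩
    · exact ⟨1 + om, by rw [smul_add, add_smul, one_smul]; abel⟩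
  choose cc hcc using hform
  have hdet : ∀ d (hd : d ∈ DG Q g) x, cc d hd x = cc d hd y0 ^ 2 * hermForm 6 F 2 x (D.v s) := by
    intro d hd x
    have h := D.L_herm_of_lin (hlin d) x y0
    rw [hcc d hd x, hcc d hd y0] at h
    simp only [e4, e5, e2, e3, hss, hy0] at h
    linear_combination h - (cc d hd y0 ^ 2 * hermForm 6 F 2 x (D.v s)) * two (F := F)
  have hsmall : Nat.card ((DG Q g).map (QuotientGroup.mk' Q)) ≤ 4 := by
    choose rep hrep hrepe using fun e : (DG Q g).map (QuotientGroup.mk' Q) => e.2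
    refine le_trans (Nat.card_le_card_of_injective (fun e => cc (rep e) (hrep e) y0) fun e e' he => ?_) (by
      rw [Nat.card_eq_fintype_card, Setup.card])
    have hL : ∀ x, D.L (rep e) x = D.L (rep e') x := fun x => by
      rw [hcc _ (hrep e) x, hcc _ (hrep e') x, hdet _ (hrep e) x, hdet _ (hrep e') x]
      simp only at he
      rw [he]
    have hq : (rep e)⁻¹ * rep e' ∈ Q := D.eq_of_L fun x => D.L_injective (rep e) (by
      rw [← D.L_mul, mul_inv_cancel_left, hL])
    exact Subtype.ext ((hrepe e).symm.trans ((QuotientGroup.eq.2 hq : QuotientGroup.mk' Q (rep e) =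
      QuotientGroup.mk' Q (rep e')).trans (hrepe e')))
  rw [hloc.card_E] at hsmall
  omega

theorem mem_M_iff_lin (g : G) (s : Q) (hgs : g * z * g⁻¹ = gv s) (hne : gv s ≠ z)
    (h : Subgroup.centralizer ({z} : Set G)) :
    h ∈ D.M ↔ ∀ x, D.L h ((om : F) • x) = (om : F) • D.L h x := by
  refine ⟨fun hm x => D.lin_of_mem ⟨h, hm⟩ x, fun hl => ?_⟩
  by_contra hm
  obtain ⟨h0, h0s⟩ := D.exists_semilinear g s hgs hne
  have hnot : ∀ k, (∀ x, D.L k ((om : F) • x) = ((om : F) * om) • D.L k x) →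
      ¬ ∀ x, D.L k ((om : F) • x) = (om : F) • D.L k x := fun k k1 k2 => by
    have hne0 : (Pi.single 0 1 : Fin 6 → F) ≠ 0 := by simp
    have e := (k1 (Pi.single 0 1)).symm.trans (k2 _)
    have e' : ((om : F) * om - om) • D.L k (Pi.single 0 1) = 0 := by rw [sub_smul, e, sub_self]
    rcases smul_eq_zero.1 e' with e' | e'
    · exact one_ne_zero (by linear_combination e' - hom (F := F) : (1 : F) = 0)
    · exact hne0 (D.L_injective k (e'.trans (D.L_zero k).symm))
  have h0m : h0 ∉ D.M := fun hh => hnot h0 h0s fun x => D.lin_of_mem ⟨h0, hh⟩ x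
  have hmem : h0 * h⁻¹ ∈ D.M := (Subgroup.mul_mem_iff_of_index_two D.index).2 (by simp [h0m, hm])
  refine hnot h0 h0s fun x => ?_
  obtain ⟨m, e⟩ : ∃ m : D.M, h0 = (m : Subgroup.centralizer ({z} : Set G)) * h :=
    ⟨⟨h0 * h⁻¹, hmem⟩, (inv_mul_cancel_right h0 h).symm⟩
  rw [e, D.L_mul, D.L_mul, hl, D.lin_of_mem]

end Model

end Cfsg.Agent.H8.LFT
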