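import Cfsg.Agent.H8.LFT.FuseTop

/-!
# The large elementary abelian subgroup is self centralizing
-/

set_option autoImplicit false
set_option linter.unusedSectionVars false
set_option maxRecDepth 20000

namespace Cfsg.Agent.H8.LFT

open Matrix Cfsg.Agent.H8.U62 Cfsg.Agent.H8.U62.Setup

/-- The involutions of the large Sylow subgroup commuting with many others are few. -/
def rankOK : Bool :=
  forceL ((sylL 2).map nrmC) fun ks =>
    forceL (ks.filter fun k => Nat.beq (nrmC (mmC k k)) oneC && !(Nat.beq k oneC)) fun iv =>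
      Nat.blt (iv.filter fun p =>
        Nat.ble 31 (iv.filter fun q => Nat.beq (nrmC (mmC p q)) (nrmC (mmC q p))).length).length 31

theorem rank_ok : rankOK = true := by decide +kernel

variable {G : Type*} [Group G] [Finite G] {F : Type} [Setup F]

/-- An elementary abelian subgroup of the first subgroup has order at most sixteen. -/
theorem card_elementary_le {E : Subgroup (SU6 F)} (hE : E ≤ sub 0) (hel : Cfsg.IsElementaryAbelian 2 E) :
    Nat.card E ≤ 16 := by
  classical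
  haveI : Fact (Nat.Prime 2) := ⟨Nat.prime_two⟩
  by_contra hlt
  obtain ⟨n, hn⟩ := IsPGroup.iff_card.1 (show IsPGroup 2 E from fun x => ⟨1, Subtype.ext (by
    rw [pow_one]; exact hel.2 x.1 x.2)⟩)
  have hn5 : 5 ≤ n := by
    by_contra h
    have : 2 ^ n ≤ 2 ^ 4 := Nat.pow_le_pow_right (by norm_num) (by omega)
    omega
  have hE32 : 32 ≤ Nat.card E := by
    rw [hn]; exact le_trans (by norm_num) (Nat.pow_le_pow_right (by norm_num) hn5)
  obtain ⟨P, hP, hPc, hPm⟩ := exists_syl (F := F) 2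
  have hPs : P ≤ sub (F := F) 0 := fun p hp => (mem_vst.1 (hP hp)).1
  let P' : Subgroup (sub (F := F) 0) := P.subgroupOf (sub 0)
  have hc' : Nat.card P' = 2 ^ 7 := by
    rw [Nat.card_congr (Subgroup.subgroupOfEquivOfLe hPs).toEquiv, show Nat.card P = 128 from hPc]
    norm_num
  have hndvd : ¬ 2 ∣ P'.index := by
    have h := P'.card_mul_index
    rw [hc', card_sub] at h
    rw [show P'.index = 76545 by norm_num at h; omega]
    norm_num
  let S' : Sylow 2 (sub (F := F) 0) := (IsPGroup.of_card hc').toSylow hndvd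
  obtain ⟨T, hT⟩ := (IsPGroup.of_card (show Nat.card (E.subgroupOf (sub (F := F) 0)) = 2 ^ n by
    rw [Nat.card_congr (Subgroup.subgroupOfEquivOfLe hE).toEquiv, hn])).exists_le_sylow
  obtain ⟨c, hc2⟩ := MulAction.exists_smul_eq (sub (F := F) 0) T S'
  have hmem : ∀ x : E, c.1 * x.1 * c.1⁻¹ ∈ P := fun x => by
    have h : c * ⟨x.1, hE x.2⟩ * c⁻¹ ∈ (S' : Subgroup (sub (F := F) 0)) := by
      rw [← hc2, Sylow.coe_subgroup_smul]
      exact Subgroup.smul_mem_pointwise_smul _ (MulAut.conj c) _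
        (hT (show (⟨x.1, hE x.2⟩ : sub (F := F) 0) ∈ E.subgroupOf (sub 0) from x.2))
    exact h
  choose a ha hea using fun x : E => hPm _ (hmem x)
  let k : E → ℕ := fun x => nrmC (a x)
  have hk : ∀ x : E, matF (om : F) (k x) = mat (c.1 * x.1 * c.1⁻¹) := fun x => by
    rw [hea, matF_nrmC]
  have hinj : Function.Injective k := fun x y e => by
    have e' : mat (c.1 * x.1 * c.1⁻¹) = mat (c.1 * y.1 * c.1⁻¹) := by rw [← hk, ← hk, e]
    exact Subtype.ext (mul_left_cancel (mul_right_cancel (ext_mat e')))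
  have hcode : ∀ A B : ℕ, matF (om : F) A = matF om B → Nat.beq (nrmC A) (nrmC B) = true := fun A B e => by
    rw [code_col_eq (F := F) e]; exact Nat.beq_refl _
  have hcomm : ∀ x y : E, Nat.beq (nrmC (mmC (k x) (k y))) (nrmC (mmC (k y) (k x))) = true := fun x y => by
    refine hcode _ _ ?_
    rw [matF_mmC _ hom two, matF_mmC _ hom two, hk, hk, ← mat_mul, ← mat_mul,
      show c.1 * x.1 * c.1⁻¹ * (c.1 * y.1 * c.1⁻¹) = c.1 * (x.1 * y.1) * c.1⁻¹ by group,
      show x.1 * y.1 = y.1 * x.1 from congrArg Subtype.val (hel.1.1.1 x y)]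
    group
  set iv := ((sylL 2).map nrmC).filter fun k => Nat.beq (nrmC (mmC k k)) oneC && !(Nat.beq k oneC) with hiv
  let S : Finset ℕ := (Finset.univ.filter fun x : E => x ≠ 1).image k
  have hS : 31 ≤ S.card := by
    rw [Finset.card_image_of_injective _ hinj, Finset.filter_ne', Finset.card_erase_of_mem (Finset.mem_univ _),
      Finset.card_univ, ← Nat.card_eq_fintype_card]
    omega
  have hSiv : ∀ q ∈ S, q ∈ iv := by
    intro q hq
    obtain ⟨x, hx, rfl⟩ := Finset.mem_image.1 hq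
    refine List.mem_filter.2 ⟨List.mem_map_of_mem (ha x), ?_⟩
    rw [Bool.and_eq_true, Bool.not_eq_true']
    constructor
    · rw [← nrmC_oneC]
      refine hcode _ _ ?_
      rw [matF_mmC _ hom two, hk, ← mat_mul,
        show c.1 * x.1 * c.1⁻¹ * (c.1 * x.1 * c.1⁻¹) = c.1 * (x.1 ^ 2) * c.1⁻¹ by rw [pow_two]; group,
        hel.2 x.1 x.2, matF_oneC _ hom two, mul_one, mul_inv_cancel, mat_one]
    · by_contra e
      rw [Bool.not_eq_false] at e
      refine (Finset.mem_filter.1 hx).2 (Subtype.ext ?_)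
      have e1 : c.1 * x.1 * c.1⁻¹ = 1 := ext_mat (by
        rw [← hk, Nat.eq_of_beq_eq_true e, matF_oneC _ hom two, mat_one])
      exact conj_eq_one_iff.1 e1
  have hdeg : ∀ p ∈ S, Nat.ble 31 (iv.filter fun q => Nat.beq (nrmC (mmC p q)) (nrmC (mmC q p))).length = true := by
    intro p hp
    obtain ⟨x, -, rfl⟩ := Finset.mem_image.1 hp
    refine Nat.ble_eq_true_of_le (le_trans hS (le_trans (Finset.card_le_card ?_) (List.toFinset_card_le _)))
    intro q hq
    obtain ⟨y, -, rfl⟩ := Finset.mem_image.1 hq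
    exact List.mem_toFinset.2 (List.mem_filter.2 ⟨hSiv _ hq, hcomm x y⟩)
  have h := rank_ok
  simp only [rankOK, forceL_eq, ← hiv] at h
  have h31 : S.card ≤ (iv.filter fun p =>
      Nat.ble 31 (iv.filter fun q => Nat.beq (nrmC (mmC p q)) (nrmC (mmC q p))).length).length := by
    refine le_trans (Finset.card_le_card ?_) (List.toFinset_card_le _)
    intro p hp
    exact List.mem_toFinset.2 (List.mem_filter.2 ⟨hSiv p hp, hdeg p hp⟩)
  have h30 := Nat.le_of_ble_eq_true h
  omega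

/-- The large elementary abelian subgroup contains its centralizer. -/
theorem top_centralizer (z : G) (Q : Subgroup (Subgroup.centralizer ({z} : Set G))) [Q.Normal]
    (hF : Cfsg.IsOfLargeFischerTypeAt z Q)
    (h44 : ∀ T : Sylow 2 ↥(Subgroup.centralizer ({z} : Set G)),
      ∃ A : Subgroup ↥(T : Subgroup (Subgroup.centralizer ({z} : Set G))),
        Cfsg.maxElementaryAbelianSubgroups 2 ↥(T : Subgroup (Subgroup.centralizer ({z} : Set G))) = {A} ∧
        Nat.card A = 2 ^ 11 ∧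
        Nat.card ↥(A.map (T : Subgroup (Subgroup.centralizer ({z} : Set G))).subtype ⊓ Q) = 2 ^ 7 ∧
        Nat.card ↥((A.map (T : Subgroup (Subgroup.centralizer ({z} : Set G))).subtype).map (QuotientGroup.mk' Q)) = 16)
    (T : Sylow 2 ↥(Subgroup.centralizer ({z} : Set G))) (A : Subgroup G)
    (hA : IsTop ((T : Subgroup (Subgroup.centralizer ({z} : Set G))).map
      (Subgroup.centralizer ({z} : Set G)).subtype) A) :
    Subgroup.centralizer (A : Set G) ≤ A := by
  classical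
  obtain ⟨D⟩ := exists_model hF
  obtain ⟨g0, ⟨hq, hmem⟩, hne0⟩ := hF.1.2.2.2.2
  let s0 : Q := ⟨⟨g0 * z * g0⁻¹, hq⟩, hmem⟩
  have hgs : g0 * z * g0⁻¹ = gv s0 := rfl
  have hne1 : gv s0 ≠ z := hne0
  obtain ⟨hQT, -⟩ := D.sylow_le_centralizer T
  obtain ⟨A1, hmax, h11, h7, h16⟩ := h44 T
  have hA1 : A1 ∈ Cfsg.maxElementaryAbelianSubgroups 2 ↥(T : Subgroup (Subgroup.centralizer ({z} : Set G))) := by
    rw [hmax]; rfl
  let AH : Subgroup (Subgroup.centralizer ({z} : Set G)) :=
    A1.map (T : Subgroup (Subgroup.centralizer ({z} : Set G))).subtype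
  have hAHe : Cfsg.IsElementaryAbelian 2 AH := elem_map hA1.1 _
  have hAG : AH.map (Subgroup.centralizer ({z} : Set G)).subtype = A := hA.2.2.2 _
    (Subgroup.map_mono (Subgroup.map_subtype_le A1)) (elem_map hAHe _) (by
      rw [Subgroup.card_map_of_injective (Subgroup.subtype_injective _),
        Subgroup.card_map_of_injective (Subgroup.subtype_injective _), h11])
  have hcommH : ∀ a ∈ AH, ∀ b ∈ AH, a * b = b * a := fun a ha b hb =>
    congrArg Subtype.val (hAHe.1.1.1 ⟨a, ha⟩ ⟨b, hb⟩)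
  have hAM : AH ≤ D.M := D.le_M g0 s0 hgs hne1 hcommH h7 (lt_of_lt_of_eq (by norm_num) h16.symm)
  have hzA : z ∈ A := mem_of_top hA (Subgroup.map_mono hQT D.sing.mem) D.sing.xx (by
    intro a ha
    rw [← hAG] at ha
    obtain ⟨b, -, rfl⟩ := ha
    exact Subgroup.mem_centralizer_singleton_iff.1 b.2)
  -- the part in `Q` is its own centralizer in `Q`
  let R : Subgroup G := A ⊓ EE Q
  have hR : Nat.card R = 2 ^ 7 := by
    rw [show R = (AH ⊓ Q).map (Subgroup.centralizer ({z} : Set G)).subtype by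
      show A ⊓ EE Q = _
      rw [← hAG]
      exact (Subgroup.map_inf_eq AH Q _ (Subgroup.subtype_injective _)).symm,
      Subgroup.card_map_of_injective (Subgroup.subtype_injective _)]
    exact h7
  have hself : ∀ q : Q, (∀ b ∈ R, b * gv q = gv q * b) → gv q ∈ R := by
    have h := D.sing.card_mul R inf_le_right ⟨hzA, D.sing.mem⟩
    rw [Subgroup.card_map_of_injective (Subgroup.subtype_injective _), D.card_Q, hR] at h
    have hle : R ≤ EE Q ⊓ Subgroup.centralizer (R : Set G) := fun b hb => ⟨hb.2,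
      Subgroup.mem_centralizer_iff.2 fun b' hb' =>
        congrArg Subtype.val (hA.2.1.1.1.1 ⟨b', hb'.1⟩ ⟨b, hb.1⟩)⟩
    have hCR : R = EE Q ⊓ Subgroup.centralizer (R : Set G) :=
      Subgroup.eq_of_le_of_card_ge hle (by rw [hR]; norm_num at h ⊢; omega)
    intro q hq
    rw [hCR]
    exact ⟨⟨q.1, q.2, rfl⟩, Subgroup.mem_centralizer_iff.2 hq⟩
  intro c0 hc0
  have hc0' : ∀ b ∈ A, b * c0 = c0 * b := fun b hb => Subgroup.mem_centralizer_iff.1 hc0 b hb
  let c : Subgroup.centralizer ({z} : Set G) :=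
    ⟨c0, Subgroup.mem_centralizer_singleton_iff.2 (hc0' z hzA).symm⟩
  have hcA : ∀ a ∈ AH, c * a = a * c := fun a ha =>
    Subtype.ext (hc0' (a : G) (hAG ▸ ⟨a, ha, rfl⟩)).symm
  -- the element is inner
  have hcM : c ∈ D.M := by
    let B : Subgroup (Subgroup.centralizer ({z} : Set G)) := Subgroup.closure ((AH : Set _) ∪ {c})
    have hX : ∀ a ∈ (AH : Set _) ∪ {c}, ∀ b ∈ (AH : Set _) ∪ {c}, a * b = b * a := by
      rintro a (ha | rfl) b (hb | rfl)
      · exact hcommH a ha b hb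
      · exact (hcA a ha).symm
      · exact hcA b hb
      · rfl
    have hB1 : B ≤ Subgroup.centralizer ((AH : Set _) ∪ {c}) :=
      (Subgroup.closure_le _).2 fun a ha => Subgroup.mem_centralizer_iff.2 fun b hb => hX b hb a ha
    have hB2 : B ≤ Subgroup.centralizer (B : Set _) := (Subgroup.closure_le _).2 fun a ha =>
      Subgroup.mem_centralizer_iff.2 fun b hb => (Subgroup.mem_centralizer_iff.1 (hB1 hb) a ha).symm
    have hBc : ∀ a ∈ B, ∀ b ∈ B, a * b = b * a := fun a ha b hb =>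
      (Subgroup.mem_centralizer_iff.1 (hB2 ha) b hb).symm
    have hAB : AH ≤ B := fun a ha => Subgroup.subset_closure (Or.inl ha)
    refine D.le_M g0 s0 hgs hne1 hBc ?_ ?_ (Subgroup.subset_closure (Or.inr rfl))
    · refine le_antisymm ?_ (h7.ge.trans (Subgroup.card_le_of_le (inf_le_inf_right Q hAB)))
      rw [← hR, ← Subgroup.card_map_of_injective (Subgroup.subtype_injective _) (K := B ⊓ Q)]
      refine Subgroup.card_le_of_le ?_
      rintro _ ⟨b, hb, rfl⟩
      refine hself ⟨b, hb.2⟩ fun r hr => ?_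
      have hr1 : r ∈ AH.map (Subgroup.centralizer ({z} : Set G)).subtype := hAG.symm ▸ hr.1
      obtain ⟨r', hr', rfl⟩ := hr1
      exact congrArg Subtype.val (hBc r' (hAB hr') b hb.1)
    · exact lt_of_lt_of_le (lt_of_lt_of_eq (by norm_num) h16.symm) (Subgroup.card_le_of_le (Subgroup.map_mono hAB))
  -- its image is an involution on the vectors
  let c' : D.M := ⟨c, hcM⟩
  have hdiff : ∀ q : Q, gv (cj c q * q⁻¹) ∈ R := by
    intro q
    refine hself _ fun b hb => ?_
    have hbA : b ∈ AH.map (Subgroup.centralizer ({z} : Set G)).subtype := hAG.symm ▸ hb.1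
    obtain ⟨b1, hb1, rfl⟩ := hbA
    obtain ⟨b2, hb2, e2⟩ := hb.2
    have hbQ : b1 ∈ Q := by rw [show b1 = b2 from Subtype.ext e2.symm]; exact hb2
    obtain ⟨ζ, hζ, hζe⟩ := (D.v_eq_iff q (cj b1 q)).1 (D.Q_le_St q hbQ).symm
    have e1 : cj b1 (cj c q * q⁻¹) = cj c q * q⁻¹ := by
      rw [cj_mul, show cj b1 q⁻¹ = (cj b1 q)⁻¹ from Subtype.ext (by
        show b1 * q.1⁻¹ * b1⁻¹ = (b1 * q.1 * b1⁻¹)⁻¹
        group), hζe, cj_cj, ← hcA b1 hb1, ← cj_cj, hζe, cj_mul, cj_central' hζ c]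
      group
    have e3 := congrArg gv e1
    rw [gv_cj] at e3
    exact mul_inv_eq_iff_eq_mul.1 e3
  have hfix : ∀ q : Q, gv q ∈ R → cj c q = q := fun q hq => gv_injective (by
    rw [gv_cj]
    show c0 * gv q * c0⁻¹ = gv q
    rw [← hc0' _ hq.1, mul_inv_cancel_right])
  have hx2 : D.ρ c' * D.ρ c' = 1 := by
    rw [← map_mul]
    refine (D.ρ_ker _).2 (D.eq_of_L fun x => ?_)
    show D.L (c * c) x = x
    obtain ⟨q, rfl⟩ := D.v_surj x
    have e : cj c q = cj c q * q⁻¹ * q := by group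
    rw [D.L_mul, D.L_v, D.L_v, e, cj_mul, hfix _ (hdiff q), D.v_mul, D.v_mul, D.v_inv]
    calc D.v (cj c q) + D.v q + D.v (cj c q) = D.v q + (D.v (cj c q) + D.v (cj c q)) := by abel
      _ = D.v q := by rw [Model.add_self, add_zero]
  -- so it lies over the image
  let AM : Subgroup D.M := AH.subgroupOf D.M
  let P : Subgroup (SU6 (GaloisField 2 2)) := AM.map D.ρ
  have hP16 : 16 ≤ Nat.card P := by
    have key : ∀ x : ↥(AH.map (QuotientGroup.mk' Q)), ∃ a : D.M, a ∈ AM ∧
        QuotientGroup.mk' Q (a : Subgroup.centralizer ({z} : Set G)) = x.1 := by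
      rintro ⟨_, a, ha, rfl⟩
      exact ⟨⟨a, hAM ha⟩, ha, rfl⟩
    choose f hf1 hf2 using key
    rw [← h16]
    refine Nat.card_le_card_of_injective (fun x => (⟨D.ρ (f x), f x, hf1 x, rfl⟩ : P)) fun x y e => ?_
    have e' : D.ρ (f x) = D.ρ (f y) := congrArg Subtype.val e
    refine Subtype.ext ?_
    rw [← hf2 x, ← hf2 y]
    refine QuotientGroup.eq.2 ((D.ρ_ker ((f x)⁻¹ * f y)).1 ?_)
    rw [map_mul, map_inv, e', inv_mul_cancel]
  let E : Subgroup (SU6 (GaloisField 2 2)) := Subgroup.closure ((P : Set _) ∪ {D.ρ c'})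
  have hPc : ∀ a ∈ (P : Set _) ∪ {D.ρ c'}, ∀ b ∈ (P : Set _) ∪ {D.ρ c'}, a * b = b * a := by
    rintro a (⟨a', ha', rfl⟩ | rfl) b (⟨b', hb', rfl⟩ | rfl)
    · rw [← map_mul, ← map_mul]; exact congrArg D.ρ (Subtype.ext (hcommH a' ha' b' hb'))
    · rw [← map_mul, ← map_mul]; exact congrArg D.ρ (Subtype.ext (hcA a' ha').symm)
    · rw [← map_mul, ← map_mul]; exact congrArg D.ρ (Subtype.ext (hcA b' hb'))
    · rfl
  have hEe : Cfsg.IsElementaryAbelian 2 E := by
    have hB1 : E ≤ Subgroup.centralizer ((P : Set _) ∪ {D.ρ c'}) :=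
      (Subgroup.closure_le _).2 fun a ha => Subgroup.mem_centralizer_iff.2 fun b hb => hPc b hb a ha
    have hB2 : E ≤ Subgroup.centralizer (E : Set _) := (Subgroup.closure_le _).2 fun a ha =>
      Subgroup.mem_centralizer_iff.2 fun b hb => (Subgroup.mem_centralizer_iff.1 (hB1 hb) a ha).symm
    have hBc : ∀ a ∈ E, ∀ b ∈ E, a * b = b * a := fun a ha b hb =>
      (Subgroup.mem_centralizer_iff.1 (hB2 ha) b hb).symm
    refine ⟨⟨⟨fun a b => Subtype.ext (hBc _ a.2 _ b.2)⟩⟩, fun a ha => ?_⟩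
    induction ha using Subgroup.closure_induction with
    | mem y hy =>
      rcases hy with ⟨a', ha', rfl⟩ | rfl
      · rw [← map_pow, show a' ^ 2 = 1 from Subtype.ext (hAHe.2 _ ha'), map_one]
      · rw [pow_two]; exact hx2
    | one => exact one_pow 2
    | mul y w hy hw e1 e2 => rw [(show Commute y w from hBc y hy w hw).mul_pow, e1, e2, one_mul]
    | inv y hy e => rw [inv_pow, e, inv_one]
  have hEs : E ≤ sub 0 := (Subgroup.closure_le _).2 (by
    rintro a (⟨a', -, rfl⟩ | rfl) <;> exact D.ρ_range ▸ ⟨_, rfl⟩)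
  have hPE : P ≤ E := fun a ha => Subgroup.subset_closure (Or.inl ha)
  have hEP : P = E := Subgroup.eq_of_le_of_card_ge hPE ((card_elementary_le hEs hEe).trans hP16)
  obtain ⟨a, ha, hae⟩ : D.ρ c' ∈ P := by rw [hEP]; exact Subgroup.subset_closure (Or.inr rfl)
  have haQ : ((a⁻¹ * c' : D.M) : Subgroup.centralizer ({z} : Set G)) ∈ Q :=
    (D.ρ_ker _).1 (by rw [map_mul, map_inv, hae, inv_mul_cancel])
  have haA : (((a : Subgroup.centralizer ({z} : Set G))) : G) ∈ A := hAG ▸ ⟨_, ha, rfl⟩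
  have hqR : gv (⟨_, haQ⟩ : Q) ∈ R := hself _ fun b hb => by
    show b * (((a : Subgroup.centralizer ({z} : Set G)) : G)⁻¹ * c0) =
      ((a : Subgroup.centralizer ({z} : Set G)) : G)⁻¹ * c0 * b
    have hab : b * ((a : Subgroup.centralizer ({z} : Set G)) : G)⁻¹ = ((a : Subgroup.centralizer ({z} : Set G)) : G)⁻¹ * b :=
      congrArg Subtype.val (hA.2.1.1.1.1 ⟨b, hb.1⟩ ⟨_, inv_mem haA⟩)
    rw [← mul_assoc, hab, mul_assoc, hc0' b hb.1, ← mul_assoc]
  have e : c0 = ((a : Subgroup.centralizer ({z} : Set G)) : G) * gv (⟨_, haQ⟩ : Q) := by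
    show c0 = _ * (((a : Subgroup.centralizer ({z} : Set G)) : G)⁻¹ * c0)
    group
  rw [e]
  exact mul_mem haA hqR.1

end Cfsg.Agent.H8.LFT
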