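import Cfsg.Agent.H8.LFT.FuseCls
import Cfsg.Agent.H8.U62.Final

/-!
# The fusion in the Thompson subgroup
-/

set_option autoImplicit false
set_option linter.unusedSectionVars false
set_option maxRecDepth 20000

namespace Cfsg.Agent.H8.LFT

open Matrix Cfsg.Agent.H8.U62 Cfsg.Agent.H8.U62.Setup

variable {G : Type*} [Group G] [Finite G]

/-- Unique large elementary abelian subgroup of a subgroup. -/
def IsTop (S A : Subgroup G) : Prop :=
  A ≤ S ∧ Cfsg.IsElementaryAbelian 2 A ∧ Nat.card A = 2 ^ 11 ∧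
    ∀ B : Subgroup G, B ≤ S → Cfsg.IsElementaryAbelian 2 B → 2 ^ 11 ≤ Nat.card B → B = A

theorem elem_map {A : Subgroup G} (h : Cfsg.IsElementaryAbelian 2 A) {H : Type*} [Group H] (f : G →* H) :
    Cfsg.IsElementaryAbelian 2 (A.map f) := by
  refine ⟨⟨⟨?_⟩⟩, ?_⟩
  · rintro ⟨_, a, ha, rfl⟩ ⟨_, b, hb, rfl⟩
    refine Subtype.ext ?_
    show f a * f b = f b * f a
    rw [← map_mul, ← map_mul, show a * b = b * a from congrArg Subtype.val (h.1.1.1 ⟨a, ha⟩ ⟨b, hb⟩)]
  · rintro _ ⟨a, ha, rfl⟩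
    rw [← map_pow, h.2 a ha, map_one]

theorem elem_comap {A : Subgroup G} (h : Cfsg.IsElementaryAbelian 2 A) {H : Type*} [Group H] (f : H →* G)
    (hf : Function.Injective f) : Cfsg.IsElementaryAbelian 2 (A.comap f) := by
  refine ⟨⟨⟨fun a b => Subtype.ext (hf ?_)⟩⟩, fun a ha => hf (by rw [map_pow, h.2 _ ha, map_one])⟩
  show f (a.1 * b.1) = f (b.1 * a.1)
  rw [map_mul, map_mul]
  exact congrArg Subtype.val (h.1.1.1 ⟨f a, a.2⟩ ⟨f b, b.2⟩)

theorem card_conj (A : Subgroup G) (y : G) :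
    Nat.card (A.map (MulAut.conj y).toMonoidHom) = Nat.card A :=
  Subgroup.card_map_of_injective (MulAut.conj y).injective

theorem IsTop.conj {S A : Subgroup G} (h : IsTop S A) (y : G) :
    IsTop (S.map (MulAut.conj y).toMonoidHom) (A.map (MulAut.conj y).toMonoidHom) := by
  obtain ⟨h1, h2, h3, h4⟩ := h
  refine ⟨Subgroup.map_mono h1, elem_map h2 _, by rw [card_conj, h3], fun B hB hBe hBc => ?_⟩
  have e := h4 (B.map (MulAut.conj y⁻¹).toMonoidHom) ?_ (elem_map hBe _) (by rw [card_conj]; exact hBc)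
  · rw [← e, Subgroup.map_map]
    ext x
    constructor
    · intro hx
      exact ⟨x, hx, by simp [mul_assoc]⟩
    · rintro ⟨b, hb, rfl⟩
      simpa [mul_assoc] using hb
  · rintro _ ⟨b, hb, rfl⟩
    obtain ⟨s, hs, rfl⟩ := hB hb
    simpa [mul_assoc] using hs

theorem IsTop.thompson {S A : Subgroup G} (h : IsTop S A) : Cfsg.thompsonSubgroupOf 2 S = A := by
  obtain ⟨h1, h2, h3, h4⟩ := h
  have hmax : Cfsg.maxElementaryAbelianSubgroups 2 ↥S = {A.subgroupOf S} := by
    refine Set.eq_singleton_iff_unique_mem.2 ⟨⟨elem_comap h2 _ (Subgroup.subtype_injective S), fun B hB => ?_⟩,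
      fun B hB => ?_⟩
    · rw [Nat.card_congr (Subgroup.subgroupOfEquivOfLe h1).toEquiv, h3]
      by_contra hlt
      have hc : Nat.card (B.map S.subtype) = Nat.card B := Subgroup.card_map_of_injective (Subgroup.subtype_injective S)
      have := h4 _ (Subgroup.map_subtype_le B) (elem_map hB _) (by rw [hc]; omega)
      rw [this, h3] at hc
      omega
    · have hle := hB.2 (A.subgroupOf S) (elem_comap h2 _ (Subgroup.subtype_injective S))
      rw [Nat.card_congr (Subgroup.subgroupOfEquivOfLe h1).toEquiv, h3] at hle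
      have := h4 _ (Subgroup.map_subtype_le B) (elem_map hB.1 _)
        (by rw [Subgroup.card_map_of_injective (Subgroup.subtype_injective S)]; exact hle)
      rw [← this, Subgroup.subgroupOf, Subgroup.comap_map_eq_self_of_injective (Subgroup.subtype_injective S)]
  rw [Cfsg.thompsonSubgroupOf, Cfsg.thompsonSubgroup, hmax, sSup_singleton,
    Subgroup.map_subgroupOf_eq_of_le h1]

/-- Fusion in a subgroup that is the largest elementary abelian subgroup of every Sylow subgroup containing it. -/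
theorem burnside (htop : ∀ S : Sylow 2 G, ∃ A, IsTop (S : Subgroup G) A)
    {A : Subgroup G} (hA : Cfsg.IsElementaryAbelian 2 A) (hc : Nat.card A = 2 ^ 11)
    {a g : G} (ha : a ∈ A) (hb : g * a * g⁻¹ ∈ A) :
    ∃ m ∈ Subgroup.normalizer (A : Set G), m * a * m⁻¹ = g * a * g⁻¹ := by
  haveI : Fact (Nat.Prime 2) := ⟨Nat.prime_two⟩
  set b := g * a * g⁻¹ with hbdef
  let C := Subgroup.centralizer ({b} : Set G)
  have hcomm : ∀ x ∈ A, ∀ y ∈ A, x * y = y * x := fun x hx y hy =>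
    congrArg Subtype.val (hA.1.1.1 ⟨x, hx⟩ ⟨y, hy⟩)
  let A2 := A.map (MulAut.conj g).toMonoidHom
  have h1 : A ≤ C := fun x hx => Subgroup.mem_centralizer_singleton_iff.2 (hcomm x hx b hb)
  have h2 : A2 ≤ C := by
    rintro _ ⟨x, hx, rfl⟩
    refine Subgroup.mem_centralizer_singleton_iff.2 ?_
    show g * x * g⁻¹ * (g * a * g⁻¹) = g * a * g⁻¹ * (g * x * g⁻¹)
    rw [show g * x * g⁻¹ * (g * a * g⁻¹) = g * (x * a) * g⁻¹ by group, hcomm x hx a ha]
    group
  have hp : ∀ {B : Subgroup G}, B ≤ C → Nat.card B = 2 ^ 11 → ∃ S : Sylow 2 C, B.subgroupOf C ≤ S := fun hB hBc =>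
    (IsPGroup.of_card (by rw [Nat.card_congr (Subgroup.subgroupOfEquivOfLe hB).toEquiv, hBc] :
      Nat.card (_ : Subgroup C) = 2 ^ 11)).exists_le_sylow
  obtain ⟨S1, hS1⟩ := hp h1 hc
  obtain ⟨S2, hS2⟩ := hp h2 (by rw [card_conj, hc])
  obtain ⟨c, hc12⟩ := MulAction.exists_smul_eq C S2 S1
  have hS1p : IsPGroup 2 ((S1 : Subgroup C).map C.subtype) := S1.2.map _
  obtain ⟨Tb, hTb⟩ := hS1p.exists_le_sylow
  obtain ⟨A0, hA0⟩ := htop Tb
  have hAle : A ≤ Tb := fun x hx => hTb ⟨⟨x, h1 hx⟩, hS1 (show (⟨x, h1 hx⟩ : C) ∈ A.subgroupOf C from hx), rfl⟩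
  have hA2le : A.map (MulAut.conj ((c : G) * g)).toMonoidHom ≤ Tb := by
    rintro _ ⟨x, hx, rfl⟩
    refine hTb ⟨c * ⟨g * x * g⁻¹, h2 ⟨x, hx, rfl⟩⟩ * c⁻¹, ?_, ?_⟩
    · show _ ∈ (S1 : Subgroup C)
      rw [← hc12, Sylow.coe_subgroup_smul]
      exact Subgroup.smul_mem_pointwise_smul _ (MulAut.conj c) _
        (hS2 (show (⟨g * x * g⁻¹, h2 ⟨x, hx, rfl⟩⟩ : C) ∈ A2.subgroupOf C from ⟨x, hx, rfl⟩))
    · show (c : G) * (g * x * g⁻¹) * (c : G)⁻¹ = (c : G) * g * x * ((c : G) * g)⁻¹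
      group
  have e1 := hA0.2.2.2 A hAle hA hc.ge
  have e2 := hA0.2.2.2 _ hA2le (elem_map hA _) (by rw [card_conj, hc])
  have hcb : (c : G) * b = b * (c : G) := Subgroup.mem_centralizer_singleton_iff.1 c.2
  refine ⟨(c : G) * g, ?_, ?_⟩
  · refine Subgroup.mem_normalizer_iff.2 fun x => ?_
    have e : A.map (MulAut.conj ((c : G) * g)).toMonoidHom = A := e2.trans e1.symm
    constructor
    · intro hx
      rw [← e]; exact ⟨x, hx, rfl⟩
    · intro hx
      have hx' : (c : G) * g * x * ((c : G) * g)⁻¹ ∈ A.map (MulAut.conj ((c : G) * g)).toMonoidHom := e.symm ▸ hx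
      obtain ⟨y, hy, ey⟩ := hx'
      rwa [← (MulAut.conj ((c : G) * g)).injective ey]
  · rw [show (c : G) * g * a * ((c : G) * g)⁻¹ = (c : G) * b * (c : G)⁻¹ by rw [hbdef]; group, hcb,
      mul_inv_cancel_right]

variable {z : G} {Q : Subgroup (Subgroup.centralizer ({z} : Set G))} [Q.Normal] {F : Type} [Setup F]

namespace Model

variable (D : Model z Q F)

include D in
/-- The centre of a two-group containing `Q` reduces to `z`. -/
theorem sylow_le_centralizer (T : Sylow 2 (Subgroup.centralizer ({z} : Set G))) :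
    Q ≤ (T : Subgroup (Subgroup.centralizer ({z} : Set G))) ∧
    ∃ S : Sylow 2 G, (S : Subgroup G) =
      (T : Subgroup (Subgroup.centralizer ({z} : Set G))).map (Subgroup.centralizer ({z} : Set G)).subtype := by
  haveI : Fact (Nat.Prime 2) := ⟨Nat.prime_two⟩
  have hQT : Q ≤ (T : Subgroup (Subgroup.centralizer ({z} : Set G))) :=
    IsPGroup.le_sylow_of_normal (IsPGroup.of_card D.card_Q) T
  refine ⟨hQT, ?_⟩
  obtain ⟨S, hS⟩ := (T.2.map (Subgroup.centralizer ({z} : Set G)).subtype).exists_le_sylow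
  refine ⟨S, le_antisymm ?_ hS⟩
  have hEE : EE Q ≤ S := (Subgroup.map_mono hQT).trans hS
  haveI : Nontrivial S := ⟨⟨⟨z, hEE D.sing.mem⟩, 1, fun e => D.sing.xne (congrArg Subtype.val e)⟩⟩
  haveI := S.2.center_nontrivial
  obtain ⟨c, hc⟩ := exists_ne (1 : Subgroup.center S)
  have hcz : ((c : S) : G) = z := by
    rcases D.sing.cent ((c : S) : G) (fun w hw =>
        congrArg Subtype.val (Subgroup.mem_center_iff.1 c.2 ⟨w, hEE hw⟩)) with e | e
    · exact absurd (Subtype.ext (Subtype.ext e)) hc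
    · exact e
  have hSH : (S : Subgroup G) ≤ Subgroup.centralizer ({z} : Set G) := fun x hx => by
    refine Subgroup.mem_centralizer_singleton_iff.2 ?_
    rw [← hcz]
    exact congrArg Subtype.val (Subgroup.mem_center_iff.1 c.2 ⟨x, hx⟩)
  have hT2 := T.3 (Q := (S : Subgroup G).subgroupOf (Subgroup.centralizer ({z} : Set G)))
    (S.2.comap_of_injective _ (Subgroup.subtype_injective _))
    (fun x hx => show (x : G) ∈ (S : Subgroup G) from hS ⟨x, hx, rfl⟩)
  rw [← hT2, Subgroup.map_subgroupOf_eq_of_le hSH]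

/-- The elements of a large elementary abelian subgroup act linearly. -/
theorem le_M {A : Subgroup (Subgroup.centralizer ({z} : Set G))}
    (g : G) (s : Q) (hgs : g * z * g⁻¹ = gv s) (hne : gv s ≠ z)
    (hcomm : ∀ a ∈ A, ∀ b ∈ A, a * b = b * a) (h7 : Nat.card ↥(A ⊓ Q) = 2 ^ 7)
    (h16 : 2 < Nat.card (A.map (QuotientGroup.mk' Q))) : A ≤ D.M := by
  classical
  intro x hx
  by_contra hxM
  let W : Set (Fin 6 → F) := D.v '' {q : Q | q.1 ∈ A}
  have hW : 64 ≤ W.ncard := by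
    have hinj : Function.Injective (fun a : {q : Q | q.1 ∈ A} => ((⟨D.v a.1, a.1, a.2, rfl⟩ : W),
        decide (gv ((D.lift (D.v a.1))⁻¹ * a.1) = z))) := by
      rintro ⟨a, ha⟩ ⟨b, hb⟩ e
      obtain ⟨e1, e2⟩ := Prod.ext_iff.1 e
      have e1' : D.v a = D.v b := congrArg Subtype.val e1
      simp only [e1'] at e2
      refine Subtype.ext ?_
      have hz : ∀ c : Q, D.v c = D.v b → gv ((D.lift (D.v b))⁻¹ * c) = 1 ∨ gv ((D.lift (D.v b))⁻¹ * c) = z :=
        fun c hc => (D.v_eq_zero _).1 (by rw [D.v_mul, D.v_inv, D.v_lift, hc, add_self])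
      refine mul_left_cancel (a := (D.lift (D.v b))⁻¹) (gv_injective ?_)
      by_cases hh : gv ((D.lift (D.v b))⁻¹ * b) = z
      · simp only [hh, decide_true] at e2
        rw [hh]
        exact of_decide_eq_true e2
      · simp only [hh, decide_false] at e2
        rw [(hz a e1').resolve_right (of_decide_eq_false e2), (hz b rfl).resolve_right hh]
    have h := Nat.card_le_card_of_injective _ hinj
    have hc : Nat.card {q : Q | q.1 ∈ A} = 2 ^ 7 := by
      rw [← h7]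
      exact Nat.card_congr
        { toFun := fun q => ⟨q.1.1, q.2, q.1.2⟩
          invFun := fun x => ⟨⟨x.1, x.2.2⟩, x.2.1⟩
          left_inv := fun _ => rfl
          right_inv := fun _ => rfl }
    rw [hc, Nat.card_prod, Nat.card_coe_set_eq, show Nat.card Bool = 2 by simp] at h
    omega
  have hfix : ∀ a ∈ A, ∀ w ∈ W, D.L a w = w := by
    rintro a ha _ ⟨q, hq, rfl⟩
    rw [D.L_v]
    refine congrArg D.v (Subtype.ext ?_)
    show a * q.1 * a⁻¹ = q.1
    rw [hcomm a ha q.1 hq, mul_inv_cancel_right]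
  have hsemi : ∀ w, D.L x ((om : F) • w) = ((om : F) * om) • D.L x w := by
    obtain ⟨l, hl, hl'⟩ := D.exists_sclar x
    rcases hl with rfl | rfl
    · exact absurd ((D.mem_M_iff_lin g s hgs hne x).2 hl') hxM
    · exact hl'
  have hinj : Function.Injective (fun p : W × W => (p.1.1 + (om : F) • p.2.1 : Fin 6 → F)) := by
    rintro ⟨⟨u, hu⟩, ⟨w, hw⟩⟩ ⟨⟨u', hu'⟩, ⟨w', hw'⟩⟩ e
    have e' : u + (om : F) • w = u' + (om : F) • w' := e
    have e2 := congrArg (D.L x) e'
    rw [D.L_add, D.L_add, hsemi, hsemi, hfix x hx u hu, hfix x hx w hw, hfix x hx u' hu', hfix x hx w' hw'] at e2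
    have hw' : w = w' := by
      funext j
      have a1 := congrFun e' j
      have a2 := congrFun e2 j
      simp only [Pi.add_apply, Pi.smul_apply, smul_eq_mul] at a1 a2
      linear_combination a2 - a1 - (w j - w' j) * hom (F := F)
    subst hw'
    have hu'' : u = u' := add_right_cancel e'
    subst hu''
    rfl
  have hcardV : Nat.card (Fin 6 → F) = 4096 := by
    rw [Nat.card_eq_fintype_card, Fintype.card_fun, Fintype.card_fin, show Fintype.card F = 4 from Setup.card]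
    norm_num
  have hsurj : Function.Surjective (fun p : W × W => (p.1.1 + (om : F) • p.2.1 : Fin 6 → F)) := by
    refine ((Nat.bijective_iff_injective_and_card _).2 ⟨hinj, ?_⟩).2
    have h1 := Nat.card_le_card_of_injective _ hinj
    rw [hcardV, Nat.card_prod, Nat.card_coe_set_eq] at h1
    rw [hcardV, Nat.card_prod, Nat.card_coe_set_eq]
    have := Nat.mul_le_mul hW hW
    omega
  have hQ : ∀ a ∈ A, a ∈ D.M → a ∈ Q := by
    intro a ha haM
    refine D.eq_of_L fun y => ?_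
    obtain ⟨⟨⟨u, hu⟩, ⟨w, hw⟩⟩, rfl⟩ := hsurj y
    show D.L a (u + (om : F) • w) = u + (om : F) • w
    rw [D.L_add, (D.mem_M_iff_lin g s hgs hne a).1 haM, hfix a ha u hu, hfix a ha w hw]
  have h2 : Nat.card (A.map (QuotientGroup.mk' Q)) ≤ 2 * Nat.card (⊥ : Subgroup (Subgroup.centralizer ({z} : Set G) ⧸ Q)) := by
    refine H18.card_le_two_mul fun a ha b hb ha1 hb1 => ?_
    obtain ⟨a', ha', rfl⟩ := ha
    obtain ⟨b', hb', rfl⟩ := hb
    have ha'' : a' ∉ D.M := fun h => ha1 (Subgroup.mem_bot.2 ((QuotientGroup.eq_one_iff _).2 (hQ a' ha' h)))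
    have hb'' : b' ∉ D.M := fun h => hb1 (Subgroup.mem_bot.2 ((QuotientGroup.eq_one_iff _).2 (hQ b' hb' h)))
    rw [Subgroup.mem_bot, ← map_inv, ← map_mul]
    refine (QuotientGroup.eq_one_iff _).2 (hQ _ (A.mul_mem (A.inv_mem ha') hb') ?_)
    refine (Subgroup.mul_mem_iff_of_index_two D.index).2 ?_
    simp [ha'', hb'']
  rw [Subgroup.card_bot] at h2
  omega

end Model

/-- Adjoining a central involution. -/
theorem mem_of_top {S A : Subgroup G} (h : IsTop S A) {x : G} (hx : x ∈ S) (hx2 : x * x = 1)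
    (hc : ∀ a ∈ A, a * x = x * a) : x ∈ A := by
  obtain ⟨h1, h2, h3, h4⟩ := h
  have hA : ∀ a ∈ A, ∀ b ∈ A, a * b = b * a := fun a ha b hb =>
    congrArg Subtype.val (h2.1.1.1 ⟨a, ha⟩ ⟨b, hb⟩)
  let X : Set G := (A : Set G) ∪ {x}
  have hX : ∀ a ∈ X, ∀ b ∈ X, a * b = b * a := by
    rintro a (ha | rfl) b (hb | rfl)
    · exact hA a ha b hb
    · exact hc a ha
    · exact (hc b hb).symm
    · rfl
  let B := Subgroup.closure X
  have hB1 : B ≤ Subgroup.centralizer X :=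
    (Subgroup.closure_le _).2 fun a ha => Subgroup.mem_centralizer_iff.2 fun b hb => hX b hb a ha
  have hB2 : B ≤ Subgroup.centralizer (B : Set G) := (Subgroup.closure_le _).2 fun a ha =>
    Subgroup.mem_centralizer_iff.2 fun b hb => (Subgroup.mem_centralizer_iff.1 (hB1 hb) a ha).symm
  have hBc : ∀ a ∈ B, ∀ b ∈ B, a * b = b * a := fun a ha b hb =>
    (Subgroup.mem_centralizer_iff.1 (hB2 ha) b hb).symm
  have hBe : Cfsg.IsElementaryAbelian 2 B := by
    refine ⟨⟨⟨fun a b => Subtype.ext (hBc _ a.2 _ b.2)⟩⟩, fun a ha => ?_⟩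
    induction ha using Subgroup.closure_induction with
    | mem y hy =>
      rcases hy with hy | rfl
      · exact h2.2 y hy
      · rw [pow_two]; exact hx2
    | one => exact one_pow 2
    | mul y w hy hw e1 e2 => rw [(show Commute y w from hBc y hy w hw).mul_pow, e1, e2, one_mul]
    | inv y hy e => rw [inv_pow, e, inv_one]
  have hAB : A ≤ B := fun a ha => Subgroup.subset_closure (Or.inl ha)
  have hBS : B ≤ S := (Subgroup.closure_le _).2 (by rintro a (ha | rfl) <;> [exact h1 ha; exact hx])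
  have := h4 B hBS hBe (h3.ge.trans (Subgroup.card_le_of_le hAB))
  exact this ▸ Subgroup.subset_closure (Or.inr rfl)

/-- The fusion statement. -/
theorem thompson_fusion (z : G) (Q : Subgroup (Subgroup.centralizer ({z} : Set G))) [Q.Normal]
    (hF : Cfsg.IsOfLargeFischerTypeAt z Q)
    (h44 : ∀ T : Sylow 2 ↥(Subgroup.centralizer ({z} : Set G)),
      ∃ A : Subgroup ↥(T : Subgroup (Subgroup.centralizer ({z} : Set G))),
        Cfsg.maxElementaryAbelianSubgroups 2 ↥(T : Subgroup (Subgroup.centralizer ({z} : Set G))) = {A} ∧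
        Nat.card A = 2 ^ 11 ∧
        Nat.card ↥(A.map (T : Subgroup (Subgroup.centralizer ({z} : Set G))).subtype ⊓ Q) = 2 ^ 7 ∧
        Nat.card ↥((A.map (T : Subgroup (Subgroup.centralizer ({z} : Set G))).subtype).map (QuotientGroup.mk' Q)) = 16)
    (T : Sylow 2 G) :
    ∃ A : Subgroup G, IsTop (T : Subgroup G) A ∧
      (∀ a ∈ A, ∀ g : G, g * a * g⁻¹ ∈ A → ∃ m ∈ Subgroup.normalizer (A : Set G), m * a * m⁻¹ = g * a * g⁻¹) ∧
      (∃ a ∈ A, a ≠ 1 ∧ IsConj z a) ∧ (∃ a ∈ A, a ≠ 1 ∧ ¬ IsConj z a) ∧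
      ∀ a ∈ A, ∀ b ∈ A, a ≠ 1 → b ≠ 1 → (IsConj z a ↔ IsConj z b) →
        ∃ m ∈ Subgroup.normalizer (A : Set G), m * a * m⁻¹ = b := by
  classical
  haveI : Fact (Nat.Prime 2) := ⟨Nat.prime_two⟩
  obtain ⟨D⟩ := exists_model hF
  obtain ⟨g0, ⟨hq, hmem⟩, hne0⟩ := hF.1.2.2.2.2
  let s0 : Q := ⟨⟨g0 * z * g0⁻¹, hq⟩, hmem⟩
  have hgs : g0 * z * g0⁻¹ = gv s0 := rfl
  have hne1 : gv s0 ≠ z := hne0
  obtain ⟨T1⟩ : Nonempty (Sylow 2 (Subgroup.centralizer ({z} : Set G))) := inferInstance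
  obtain ⟨hQT, S1, hS1⟩ := D.sylow_le_centralizer T1
  obtain ⟨A1, hmax, h11, h7, h16⟩ := h44 T1
  have hA1 : A1 ∈ Cfsg.maxElementaryAbelianSubgroups 2 ↥(T1 : Subgroup (Subgroup.centralizer ({z} : Set G))) := by
    rw [hmax]; rfl
  let AH : Subgroup (Subgroup.centralizer ({z} : Set G)) :=
    A1.map (T1 : Subgroup (Subgroup.centralizer ({z} : Set G))).subtype
  let AG : Subgroup G := AH.map (Subgroup.centralizer ({z} : Set G)).subtype
  have hAHe : Cfsg.IsElementaryAbelian 2 AH := elem_map hA1.1 _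
  have hAGc : Nat.card AG = 2 ^ 11 := by
    rw [Subgroup.card_map_of_injective (Subgroup.subtype_injective _),
      Subgroup.card_map_of_injective (Subgroup.subtype_injective _), h11]
  have htop1 : IsTop (S1 : Subgroup G) AG := by
    refine ⟨?_, elem_map hAHe _, hAGc, fun B hB hBe hBc => ?_⟩
    · rw [hS1]; exact Subgroup.map_mono (Subgroup.map_subtype_le A1)
    rw [hS1] at hB
    let f : ↥(T1 : Subgroup (Subgroup.centralizer ({z} : Set G))) →* G :=
      (Subgroup.centralizer ({z} : Set G)).subtype.comp (T1 : Subgroup (Subgroup.centralizer ({z} : Set G))).subtype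
    have hf : Function.Injective f := (Subgroup.subtype_injective _).comp (Subgroup.subtype_injective _)
    have hBf : B ≤ f.range := fun x hx => by
      obtain ⟨y, hy, e⟩ := hB hx
      exact ⟨⟨y, hy⟩, e⟩
    have hmapB : (B.comap f).map f = B := Subgroup.map_comap_eq_self hBf
    have hBc' : 2 ^ 11 ≤ Nat.card (B.comap f) := by
      rw [← hmapB, Subgroup.card_map_of_injective hf] at hBc; exact hBc
    have hin : B.comap f ∈ Cfsg.maxElementaryAbelianSubgroups 2
        ↥(T1 : Subgroup (Subgroup.centralizer ({z} : Set G))) :=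
      ⟨elem_comap hBe f hf, fun B' hB' => (hA1.2 B' hB').trans (h11.le.trans hBc')⟩
    rw [hmax] at hin
    rw [← hmapB, show B.comap f = A1 from hin]
    exact (Subgroup.map_map _ _ _).symm
  have htop : ∀ S : Sylow 2 G, ∃ A, IsTop (S : Subgroup G) A := fun S => by
    obtain ⟨y, rfl⟩ := MulAction.exists_smul_eq G S1 S
    exact ⟨_, by rw [Sylow.coe_subgroup_smul]; exact htop1.conj y⟩
  have hcommH : ∀ a ∈ AH, ∀ b ∈ AH, a * b = b * a := fun a ha b hb =>
    congrArg Subtype.val (hAHe.1.1.1 ⟨a, ha⟩ ⟨b, hb⟩)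
  have hAM : AH ≤ D.M := D.le_M g0 s0 hgs hne1 hcommH h7 (lt_of_lt_of_eq (by norm_num) h16.symm)
  have hEES : EE Q ≤ (S1 : Subgroup G) := hS1 ▸ Subgroup.map_mono hQT
  have hzA : z ∈ AG := mem_of_top htop1 (hEES D.sing.mem) D.sing.xx (by
    rintro _ ⟨a, -, rfl⟩
    exact Subgroup.mem_centralizer_singleton_iff.1 a.2)
  -- an element of the first class
  obtain ⟨t0, ht0A, ht01, ht0z, ht0⟩ : ∃ t : Q, gv t ∈ AG ∧ gv t ≠ 1 ∧ gv t ≠ z ∧ D.Cls 0 t := by
    obtain ⟨a, ha, haQ⟩ : ∃ a ∈ AH, a ∉ Q := by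
      by_contra hno
      push Not at hno
      have e : AH ⊓ Q = AH := inf_eq_left.2 hno
      have h7' : Nat.card ↥(AH ⊓ Q) = 2 ^ 7 := h7
      rw [e, Subgroup.card_map_of_injective (Subgroup.subtype_injective _), h11] at h7'
      norm_num at h7'
    obtain ⟨q, hcl⟩ := D.exists_comm_cls ⟨a, hAM ha⟩ haQ (by rw [← pow_two]; exact hAHe.2 a ha)
    set t : Q := cj a q * q⁻¹ with ht
    have hnz : gv t ≠ 1 ∧ gv t ≠ z := by
      obtain ⟨γ, -, e⟩ := hcl
      refine ⟨fun h => ?_, fun h => ?_⟩ <;>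
      · refine seedF_ne_zero (F := GaloisField 2 2) 0 (smul_left_cancel γ (e.trans ?_))
        rw [smul_def, Matrix.mulVec_zero]
        exact (D.v_eq_zero t).2 (by tauto)
    refine ⟨t, ?_, hnz.1, hnz.2, hcl⟩
    -- `t` centralises the part of `AH` in `Q`
    let R : Subgroup G := AG ⊓ EE Q
    have hR : Nat.card R = 2 ^ 7 := by
      rw [show R = (AH ⊓ Q).map (Subgroup.centralizer ({z} : Set G)).subtype from
        (Subgroup.map_inf_eq AH Q _ (Subgroup.subtype_injective _)).symm,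
        Subgroup.card_map_of_injective (Subgroup.subtype_injective _)]
      exact h7
    have hRc : ∀ b ∈ R, ∀ b' ∈ R, b * b' = b' * b := fun b hb b' hb' =>
      congrArg Subtype.val ((elem_map hAHe _).1.1.1 ⟨b, hb.1⟩ ⟨b', hb'.1⟩)
    have hzR : z ∈ R := ⟨hzA, D.sing.mem⟩
    have h := D.sing.card_mul R inf_le_right hzR
    rw [Subgroup.card_map_of_injective (Subgroup.subtype_injective _), D.card_Q, hR] at h
    have hCR : R = EE Q ⊓ Subgroup.centralizer (R : Set G) :=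
      Subgroup.eq_of_le_of_card_ge (fun b hb => ⟨hb.2, Subgroup.mem_centralizer_iff.2 fun b' hb' => hRc b' hb' b hb⟩)
        (by rw [hR]; norm_num at h ⊢; omega)
    suffices gv t ∈ R from this.1
    rw [hCR]
    refine ⟨⟨t.1, t.2, rfl⟩, Subgroup.mem_centralizer_iff.2 ?_⟩
    rintro _ ⟨⟨b, hb, rfl⟩, b', hb', e⟩
    have hbQ : b ∈ Q := by rw [show b = b' from Subtype.ext e.symm]; exact hb'
    let bq : Q := ⟨b, hbQ⟩
    obtain ⟨ζ, hζ, hζe⟩ := (D.v_eq_iff q (cj b q)).1 (D.Q_le_St q hbQ).symm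
    have hab : a * b = b * a := hcommH a ha b hb
    have e1 : cj b t = t := by
      rw [ht, cj_mul, show cj b q⁻¹ = (cj b q)⁻¹ from Subtype.ext (by
        show b * q.1⁻¹ * b⁻¹ = (b * q.1 * b⁻¹)⁻¹
        group), hζe, cj_cj, ← hab, ← cj_cj, hζe, cj_mul, cj_central' hζ a]
      group
    have e2 := congrArg gv e1
    rw [gv_cj] at e2
    exact mul_inv_eq_iff_eq_mul.1 e2
  -- classification of the standard one
  have hclass : ∀ a ∈ AG, a ≠ 1 → IsConj z a ∨ IsConj (gv t0) a := by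
    rintro _ ⟨a, ha, rfl⟩ ha1
    have ha2 : a * a = 1 := by rw [← pow_two]; exact hAHe.2 a ha
    obtain ⟨x, ⟨q, hqQ, hx⟩⟩ := D.fused_inner g0 s0 hgs hne1 a (hAM ha) ha2
    have hcj : IsConj ((a : Subgroup.centralizer ({z} : Set G)) : G) (gv (⟨q, hqQ⟩ : Q)) :=
      isConj_iff.2 ⟨x, hx.symm⟩
    let q' : Q := ⟨q, hqQ⟩
    have hq2 : gv q' * gv q' = 1 := by
      show (q : G) * (q : G) = 1
      rw [show (q : G) = x * (a : G) * x⁻¹ from hx,
        show x * (a : G) * x⁻¹ * (x * (a : G) * x⁻¹) = x * ((a : G) * (a : G)) * x⁻¹ by group,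
        show (a : G) * (a : G) = 1 from congrArg Subtype.val ha2]
      group
    have hq1 : gv q' ≠ 1 := fun e => ha1 (conj_eq_one_iff.1 (hx.symm.trans e))
    by_cases hqz : gv q' = z
    · exact Or.inl ((congrArg (fun w => IsConj w (a : G)) hqz).mp hcj.symm)
    obtain ⟨o, ho⟩ := D.exists_cls hq2 hq1 hqz
    fin_cases o
    · obtain ⟨h, e⟩ := D.conj_of_cls ht0 ho hq1 hqz
      refine Or.inr (IsConj.trans ?_ hcj.symm)
      exact isConj_iff.2 ⟨(h : G), by rw [← gv_cj, e]⟩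
    · have hs1 : gv s0 ≠ 1 := fun e => D.sing.xne (conj_eq_one_iff.1 (hgs.trans e))
      obtain ⟨h, e⟩ := D.conj_of_cls (D.local_structure g0 s0 hgs hne1).1 ho hq1 hqz
      refine Or.inl (IsConj.trans ?_ hcj.symm)
      exact isConj_iff.2 ⟨(h : G) * g0, by show _ = gv q'; rw [← e, gv_cj, ← hgs]; group⟩
  obtain ⟨y, hy⟩ := MulAction.exists_smul_eq G S1 T
  let A : Subgroup G := AG.map (MulAut.conj y).toMonoidHom
  have hAT : IsTop (T : Subgroup G) A := by rw [← hy, Sylow.coe_subgroup_smul]; exact htop1.conj y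
  have hcy : ∀ b : G, IsConj b (y * b * y⁻¹) := fun b => isConj_iff.2 ⟨y, rfl⟩
  have hne : ∀ b : G, b ≠ 1 → y * b * y⁻¹ ≠ 1 := fun b hb e => hb (conj_eq_one_iff.1 e)
  have hnc : ¬ IsConj z (gv t0) := D.not_conj_of_cls ht0 ht0z
  have hcl : ∀ a ∈ A, a ≠ 1 → IsConj z a ∨ IsConj (gv t0) a := by
    rintro _ ⟨b, hb, rfl⟩ h1
    rcases hclass b hb (fun e => h1 (by rw [e, map_one])) with h | h
    · exact Or.inl (h.trans (hcy b))
    · exact Or.inr (h.trans (hcy b))
  refine ⟨A, hAT, fun a ha g hg => burnside htop hAT.2.1 hAT.2.2.1 ha hg,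
    ⟨y * z * y⁻¹, ⟨z, hzA, rfl⟩, hne z D.sing.xne, hcy z⟩,
    ⟨y * gv t0 * y⁻¹, ⟨gv t0, ht0A, rfl⟩, hne _ ht01, fun h => hnc (h.trans (hcy _).symm)⟩, ?_⟩
  intro a ha b hb ha1 hb1 hiff
  have hab : IsConj a b := by
    rcases hcl a ha ha1 with h | h
    · exact h.symm.trans (hiff.1 h)
    · rcases hcl b hb hb1 with h' | h'
      · exact absurd ((hiff.2 h').trans h.symm) hnc
      · exact h.symm.trans h'
  obtain ⟨g, hg⟩ := isConj_iff.1 hab
  obtain ⟨m, hm, e⟩ := burnside htop hAT.2.1 hAT.2.2.1 ha (g := g) (by rw [hg]; exact hb)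
  exact ⟨m, hm, e.trans hg⟩


/-- The statement about the normaliser of the Thompson subgroup, given the structure of the centralizer. -/
theorem thompson_fusion_of (z : G) (Q : Subgroup (Subgroup.centralizer ({z} : Set G))) [Q.Normal]
    (hF : Cfsg.IsOfLargeFischerTypeAt z Q)
    (h44 : ∀ T : Sylow 2 ↥(Subgroup.centralizer ({z} : Set G)),
      ∃ A : Subgroup ↥(T : Subgroup (Subgroup.centralizer ({z} : Set G))),
        Cfsg.maxElementaryAbelianSubgroups 2 ↥(T : Subgroup (Subgroup.centralizer ({z} : Set G))) = {A} ∧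
        Nat.card A = 2 ^ 11 ∧
        Nat.card ↥(A.map (T : Subgroup (Subgroup.centralizer ({z} : Set G))).subtype ⊓ Q) = 2 ^ 7 ∧
        Nat.card ↥((A.map (T : Subgroup (Subgroup.centralizer ({z} : Set G))).subtype).map (QuotientGroup.mk' Q)) = 16)
    (T : Sylow 2 G) (A M : Subgroup G) (hA : A = Cfsg.thompsonSubgroupOf 2 (T : Subgroup G))
    (hM : M = Subgroup.normalizer (A : Set G)) :
    (∀ a ∈ A, ∀ g : G, g * a * g⁻¹ ∈ A → ∃ m ∈ M, m * a * m⁻¹ = g * a * g⁻¹) ∧
      (∃ a ∈ A, a ≠ 1 ∧ IsConj z a) ∧ (∃ a ∈ A, a ≠ 1 ∧ ¬ IsConj z a) ∧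
      ∀ a ∈ A, ∀ b ∈ A, a ≠ 1 → b ≠ 1 → (IsConj z a ↔ IsConj z b) → ∃ m ∈ M, m * a * m⁻¹ = b := by
  obtain ⟨A0, hT, h⟩ := thompson_fusion z Q hF h44 T
  rw [hT.thompson] at hA
  subst hA hM
  exact h

end Cfsg.Agent.H8.LFT
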