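import Cfsg.Agent.H8.U62.Check

/-!
# Checks on the diagonal group and its characters
-/

set_option autoImplicit false

namespace Cfsg.Agent.H8.LFT

open Cfsg.Agent.H8.U62

/-- A diagonal element by its index. -/
def dC (a : ℕ) : ℕ := dTab.getD a oneC

/-- A pure permutation by its index. -/
def pC (b : ℕ) : ℕ := pTab.getD b oneC

/-- A generating element of the scalars. -/
def zIx : ℕ := 158

/-- The distinguished diagonal element. -/
def eIx : ℕ := 20

/-- Three diagonal elements and permutations inverting them. -/
def invIx : List (ℕ × ℕ) := [(6, 150), (11, 163), (15, 150)]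

/-- Four diagonal elements independent modulo scalars. -/
def uIx : List ℕ := [242, 236, 191, 95]

/-- Five generators from the radical argument. -/
def radGen : List ℕ := [zIx, eIx, 6, 11, 15]

/-- Five generators from the characters. -/
def uGen : List ℕ := uIx ++ [zIx]

/-- Powers of a code. -/
def powC (A : ℕ) : ℕ → ℕ
  | 0 => oneC
  | n + 1 => force (powC A n) fun B => mmC A B

/-- A product of powers with the given exponents. -/
def prodC : List ℕ → List ℕ → ℕ
  | g :: gs, m :: ms => force (prodC gs ms) fun B => mmC (powC (dC g) m) B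
  | _, _ => oneC

/-- The digits of a number below 243. -/
def dig5 (n : ℕ) : List ℕ := [n % 3, n / 3 % 3, n / 9 % 3, n / 27 % 3, n / 81 % 3]

/-- The five elements span the diagonal group. -/
def spanOK (gs : List ℕ) : Bool :=
  (List.range 243).all fun a => force (dC a) fun x => (List.range 243).any fun n => Nat.beq x (prodC gs (dig5 n))

/-- The facts for the radical argument. -/
def radOK : Bool :=
  Nat.blt eIx 243 && invIx.all fun q =>
    Nat.beq (mmC (pC q.2) (dC eIx)) (mmC (dC eIx) (pC q.2)) &&
      Nat.beq (mmC (pC q.2) (dC q.1)) (mmC (mmC (dC q.1) (dC q.1)) (pC q.2))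

/-- Exponents of the conjugates of the four elements by the three generators. -/
def actE : List (List (List ℕ)) :=
  [[[1,0,0,0,0],[0,1,0,0,0],[0,0,1,0,0],[0,0,0,1,0]],
   [[0,1,0,0,0],[0,0,1,0,0],[1,0,0,0,0],[0,0,0,1,0]],
   [[1,2,0,0,0],[0,2,1,0,0],[0,2,0,1,0],[2,1,2,2,1]]]

/-- The table of conjugates is correct. -/
def actEOK : Bool :=
  (List.range 3).all fun g => (List.range 4).all fun i =>
    Nat.beq (mmC (genC.getD g oneC) (dC (uIx.getD i 0)))
      (mmC (prodC uGen ((actE.getD g []).getD i [])) (genC.getD g oneC))

/-- A digit of a character. -/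
def cDig (c i : ℕ) : ℕ := c / 3 ^ i % 3

/-- A digit of a moved character. -/
def nxtDig (g c i : ℕ) : ℕ :=
  let m := (actE.getD g []).getD i []
  (m.getD 0 0 * cDig c 0 + m.getD 1 0 * cDig c 1 + m.getD 2 0 * cDig c 2 + m.getD 3 0 * cDig c 3) % 3

/-- The action on characters. -/
def nxt (g c : ℕ) : ℕ := nxtDig g c 0 + 3 * nxtDig g c 1 + 9 * nxtDig g c 2 + 27 * nxtDig g c 3

/-- Sum of two characters. -/
def addK (a b : ℕ) : ℕ :=
  (cDig a 0 + cDig b 0) % 3 + 3 * ((cDig a 1 + cDig b 1) % 3) + 9 * ((cDig a 2 + cDig b 2) % 3) +
    27 * ((cDig a 3 + cDig b 3) % 3)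

/-- Adding a number to a list without repetition. -/
def addNew (l : List ℕ) (y : ℕ) : List ℕ := bif l.any fun x => Nat.beq x y then l else l ++ [y]

/-- One step of the closure. -/
def grow (l : List ℕ) : List ℕ := ((l.map (nxt 1)) ++ (l.map (nxt 2))).foldl addNew l

/-- A part of the orbit of a character. -/
def chOrb : ℕ → ℕ → List ℕ
  | 0, c => [c]
  | n + 1, c => grow (chOrb n c)

/-- Each non-trivial orbit is long, or of length twenty and sum free. -/
def chOK : Bool :=
  (List.range 80).all fun c => let O := chOrb 10 (c + 1)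
    Nat.ble 20 O.length && keysOK O 0 &&
      (Nat.ble 21 O.length || O.all fun a => O.all fun b => Nat.beq a b || !(O.any fun d => Nat.beq d (addK a b)))

theorem span_rad : spanOK radGen = true := by decide +kernel

theorem span_u : spanOK uGen = true := by decide +kernel

theorem rad_ok : radOK = true := by decide +kernel

theorem act_e_ok : actEOK = true := by decide +kernel

theorem ch_ok : chOK = true := by decide +kernel

end Cfsg.Agent.H8.LFT
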