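import Cfsg.Agent.H8.LFT.Eigen

/-!
# The generator of the kernel has no fixed vectors
-/

set_option autoImplicit false
set_option linter.unusedSectionVars false
set_option maxRecDepth 20000

namespace Cfsg.Agent.H8.LFT

open Matrix Cfsg.Agent.H8.U62 Cfsg.Agent.H8.U62.Setup

variable {F : Type} [Setup F]

open Classical in
/-- The exponent of a cube root of unity. -/
noncomputable def cval (x : F) : ℕ := if x = om then 1 else if x = om * om then 2 else 0

theorem cval_spec {x : F} (h : x * x * x = 1) : cval x < 3 ∧ x = (om : F) ^ cval x := by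
  have hx : x ≠ 0 := by rintro rfl; simp at h
  have h1 := om_ne_one (F := F)
  have h0 := om_ne_zero (F := F)
  have h2 : (om : F) * om ≠ 1 := fun e => h0 (by linear_combination e - hom (F := F))
  have h3 : (om : F) * om ≠ om := fun e => one_ne_zero (by linear_combination e - hom (F := F) : (1 : F) = 0)
  rcases ne_zero_cases hx with rfl | rfl | rfl
  · simp [cval, h1.symm, h2.symm]
  · simp [cval]
  · simp [cval, h3, pow_two]

theorem cval_pow (n : ℕ) : cval ((om : F) ^ n) = n % 3 := by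
  have h : (om : F) ^ n = om ^ (n % 3) := by
    conv_lhs => rw [← Nat.mod_add_div n 3, pow_add, pow_mul,
      show (om : F) ^ 3 = om * om * om by ring, cube_eq_one om_ne_zero, one_pow, mul_one]
  have hc : (om : F) ^ (n % 3) * om ^ (n % 3) * om ^ (n % 3) = 1 := cube_eq_one (pow_ne_zero _ om_ne_zero)
  rw [h]
  obtain ⟨h1, h2⟩ := cval_spec hc
  exact (om_pow_inj (Nat.mod_lt _ (by norm_num)) h1 h2).symm

theorem mem_addNew {l : List ℕ} {x y : ℕ} (h : x ∈ addNew l y) : x ∈ l ∨ x = y := by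
  unfold addNew at h
  cases hb : l.any fun x => Nat.beq x y <;> rw [hb] at h
  · simpa using h
  · exact Or.inl h

theorem mem_foldl_addNew : ∀ (ys l : List ℕ) {x : ℕ}, x ∈ ys.foldl addNew l → x ∈ l ∨ x ∈ ys
  | [], l, x, h => Or.inl h
  | y :: ys, l, x, h => by
    rcases mem_foldl_addNew ys _ h with h | h
    · rcases mem_addNew h with h | rfl
      · exact Or.inl h
      · exact Or.inr List.mem_cons_self
    · exact Or.inr (List.mem_cons_of_mem _ h)

theorem chOrb_subset {S : Set ℕ} (hS : ∀ x ∈ S, nxt 1 x ∈ S ∧ nxt 2 x ∈ S) {c : ℕ} (hc : c ∈ S) :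
    ∀ n, ∀ x ∈ chOrb n c, x ∈ S
  | 0, x, h => by rw [chOrb, List.mem_singleton] at h; rwa [h]
  | n + 1, x, h => by
    rcases mem_foldl_addNew _ _ h with h | h
    · exact chOrb_subset hS hc n x h
    · rcases List.mem_append.1 h with h | h
      · obtain ⟨y, hy, rfl⟩ := List.mem_map.1 h; exact (hS y (chOrb_subset hS hc n y hy)).1
      · obtain ⟨y, hy, rfl⟩ := List.mem_map.1 h; exact (hS y (chOrb_subset hS hc n y hy)).2

/-- An invariant set of non-trivial characters is large, or is of size twenty and sum free. -/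
theorem invariant_large (S : Finset ℕ) (hS : ∀ x ∈ S, nxt 1 x ∈ S ∧ nxt 2 x ∈ S) {c : ℕ} (hc : c ∈ S)
    (hc0 : c ≠ 0) (hlt : c < 81) :
    20 ≤ S.card ∧ (S.card ≤ 20 → ∀ a ∈ S, ∀ b ∈ S, a ≠ b → addK a b ∉ S) := by
  classical
  have h := ch_ok
  simp only [chOK, Bool.and_eq_true, List.all_eq_true, List.mem_range, Bool.or_eq_true, Bool.not_eq_true',
    List.any_eq_false] at h
  obtain ⟨⟨hlen, hnd⟩, hfree⟩ := h (c - 1) (by omega)
  rw [show c - 1 + 1 = c by omega] at hlen hnd hfree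
  have hnd' : (chOrb 10 c).Nodup := (keysOK_sound _ _ hnd).1
  have hsub : (chOrb 10 c).toFinset ⊆ S := fun x hx =>
    chOrb_subset (S := (S : Set ℕ)) hS hc 10 x (List.mem_toFinset.1 hx)
  have hlen' := Nat.le_of_ble_eq_true hlen
  have hcard := Finset.card_le_card hsub
  rw [List.toFinset_card_of_nodup hnd'] at hcard
  refine ⟨le_trans hlen' hcard, fun hle a ha b hb hab => ?_⟩
  have heq : (chOrb 10 c).toFinset = S :=
    Finset.eq_of_subset_of_card_le hsub (by rw [List.toFinset_card_of_nodup hnd']; omega)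
  rw [← heq, List.mem_toFinset] at ha hb ⊢
  rcases hfree with e | e
  · have := Nat.le_of_ble_eq_true e
    omega
  · rcases e a ha b hb with e' | e'
    · exact absurd (Nat.eq_of_beq_eq_true e') hab
    · exact fun hd => e' _ hd (Nat.beq_refl _)

namespace Ext

variable {A : Type*} [Group A] [Finite A] (R : Ext F A) (τ : A →* Matrix (Fin 12) (Fin 12) (ZMod 2))

/-- A character that is trivial on the kernel. -/
structure Red (ρ : R.Ed → F) : Prop where
  mul : ∀ a b, ρ (a * b) = ρ a * ρ b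
  cube : ∀ a, ρ a * ρ a * ρ a = 1
  ker : ∀ a : R.Ed, R.π a = 1 → ρ a = 1

/-- The element of the lifted diagonal group. -/
noncomputable def de (a : ℕ) : R.Ed := ⟨R.dl a, R.dl_mem a⟩

/-- The number of a character. -/
noncomputable def cix (ρ : R.Ed → F) : ℕ :=
  cval (ρ (R.de 242)) + 3 * cval (ρ (R.de 236)) + 9 * cval (ρ (R.de 191)) + 27 * cval (ρ (R.de 95))

variable {R τ}

theorem Red.dig {ρ : R.Ed → F} (h : R.Red ρ) :
    R.cix ρ < 81 ∧ ∀ i < 4, cDig (R.cix ρ) i = cval (ρ (R.de (uIx.getD i 0))) := by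
  obtain ⟨h0, -⟩ := cval_spec (h.cube (R.de 242))
  obtain ⟨h1, -⟩ := cval_spec (h.cube (R.de 236))
  obtain ⟨h2, -⟩ := cval_spec (h.cube (R.de 191))
  obtain ⟨h3, -⟩ := cval_spec (h.cube (R.de 95))
  refine ⟨by unfold Ext.cix; omega, fun i hi => ?_⟩
  interval_cases i <;> simp [Ext.cix, cDig, uIx] <;> omega

theorem Red.one {ρ : R.Ed → F} (h : R.Red ρ) : ρ 1 = 1 := h.ker 1 (by rw [Subgroup.coe_one, map_one])

/-- The kernel of a character in the group. -/
def Red.kerSub {ρ : R.Ed → F} (h : R.Red ρ) : Subgroup A where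
  carrier := {a | ∃ ha : a ∈ R.Ed, ρ ⟨a, ha⟩ = 1}
  one_mem' := ⟨one_mem _, h.one⟩
  mul_mem' := fun {a b} ⟨ha, ea⟩ ⟨hb, eb⟩ => ⟨mul_mem ha hb, by
    rw [show (⟨a * b, mul_mem ha hb⟩ : R.Ed) = ⟨a, ha⟩ * ⟨b, hb⟩ from rfl, h.mul, ea, eb, one_mul]⟩
  inv_mem' := fun {a} ⟨ha, ea⟩ => ⟨inv_mem ha, by
    have := h.mul ⟨a, ha⟩ (⟨a, ha⟩ : R.Ed)⁻¹
    rw [mul_inv_cancel, h.one, ea, one_mul] at this
    exact this.symm⟩

theorem zIx_ker : R.π (R.dl zIx) = 1 := by
  obtain ⟨g, hg, e⟩ := R.dl_cls zIx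
  rw [← e]
  refine (QuotientGroup.eq_one_iff _).2 (Subgroup.mem_subgroupOf.2 ?_)
  have hd : ∀ a, a = zIx → dC a = dTab.getD a 0 ∧ isZ (dTab.getD a 0) = true := by
    intro a ha; subst ha; decide +kernel
  obtain ⟨h1, h2⟩ := hd zIx rfl
  rw [h1] at hg
  exact (isZ_iff (by decide) hg).2 h2

theorem Red.eq_one {ρ : R.Ed → F} (h : R.Red ρ) (h0 : R.cix ρ = 0) : ρ = fun _ => 1 := by
  have hu : ∀ g ∈ uGen, R.dl g ∈ h.kerSub := by
    intro g hg
    refine ⟨R.dl_mem g, ?_⟩
    simp only [uGen, uIx, List.cons_append, List.nil_append, List.mem_cons, List.not_mem_nil, or_false] at hg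
    have hz : ∀ a, cval (ρ (R.de a)) = 0 → ρ (R.de a) = 1 := fun a ha => by
      rw [(cval_spec (h.cube _)).2, ha, pow_zero]
    simp only [Ext.cix] at h0
    rcases hg with rfl | rfl | rfl | rfl | rfl
    · exact hz 242 (by omega)
    · exact hz 236 (by omega)
    · exact hz 191 (by omega)
    · exact hz 95 (by omega)
    · exact h.ker _ zIx_ker
  have hle := R.Ed_le span_u h.kerSub (fun a ha => ⟨R.ker_le_Ed ha, h.ker _ ha⟩) hu
  funext a
  obtain ⟨ha, e⟩ := hle a.2
  exact e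

theorem Red.pow {ρ : R.Ed → F} (h : R.Red ρ) (a : R.Ed) : ∀ n : ℕ, ρ (a ^ n) = ρ a ^ n
  | 0 => by rw [pow_zero, pow_zero, h.one]
  | n + 1 => by rw [pow_succ, pow_succ, h.mul, h.pow a n]

theorem Red.prodA {ρ : R.Ed → F} (h : R.Red ρ) (ms : List ℕ) (m0 m1 m2 m3 m4 : ℕ)
    (hms : ms = [m0, m1, m2, m3, m4]) (hp : R.prodA uGen ms ∈ R.Ed) :
    ρ ⟨R.prodA uGen ms, hp⟩ = (om : F) ^ (m0 * cDig (R.cix ρ) 0 + m1 * cDig (R.cix ρ) 1 + m2 * cDig (R.cix ρ) 2 +
      m3 * cDig (R.cix ρ) 3) := by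
  subst hms
  have e : (⟨R.prodA uGen [m0, m1, m2, m3, m4], hp⟩ : R.Ed) =
      R.de 242 ^ m0 * (R.de 236 ^ m1 * (R.de 191 ^ m2 * (R.de 95 ^ m3 * (R.de zIx ^ m4 * 1)))) :=
    Subtype.ext (by simp [Ext.prodA, uGen, uIx, Ext.de])
  obtain ⟨-, hd⟩ := h.dig
  rw [e, h.mul, h.mul, h.mul, h.mul, h.mul, h.pow, h.pow, h.pow, h.pow, h.pow, h.one,
    h.ker (R.de zIx) zIx_ker, one_pow, mul_one, mul_one,
    show (242 : ℕ) = uIx.getD 0 0 from rfl, show (236 : ℕ) = uIx.getD 1 0 from rfl,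
    show (191 : ℕ) = uIx.getD 2 0 from rfl, show (95 : ℕ) = uIx.getD 3 0 from rfl,
    (cval_spec (h.cube (R.de (uIx.getD 0 0)))).2, (cval_spec (h.cube (R.de (uIx.getD 1 0)))).2,
    (cval_spec (h.cube (R.de (uIx.getD 2 0)))).2, (cval_spec (h.cube (R.de (uIx.getD 3 0)))).2,
    ← hd 0 (by norm_num), ← hd 1 (by norm_num), ← hd 2 (by norm_num), ← hd 3 (by norm_num)]
  rw [← pow_mul, ← pow_mul, ← pow_mul, ← pow_mul, ← pow_add, ← pow_add, ← pow_add]
  congr 1
  ring

theorem exists_gen_lift (R : Ext F A) (g : Fin 3) :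
    ∃ n ∈ R.Nm, IsCls (R.π n) (genC.getD g.1 oneC) :=
  R.exists_lift_cls (monoE_le_sub 0) (Real.getD real_genC g.1)

theorem Red.move {ρ : R.Ed → F} (h : R.Red ρ) (g : Fin 3) {n : A} (hn : n ∈ R.Nm)
    (hc : IsCls (R.π n) (genC.getD g.1 oneC)) :
    R.cix (fun a : R.Ed => ρ ⟨n * a * n⁻¹, R.Nm_conj hn a.2⟩) = nxt g.1 (R.cix ρ) := by
  have hlist : ∀ (g : Fin 3) (i : Fin 4), (actE.getD g.1 []).getD i.1 [] =
      [((actE.getD g.1 []).getD i.1 []).getD 0 0, ((actE.getD g.1 []).getD i.1 []).getD 1 0,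
       ((actE.getD g.1 []).getD i.1 []).getD 2 0, ((actE.getD g.1 []).getD i.1 []).getD 3 0,
       ((actE.getD g.1 []).getD i.1 []).getD 4 0] := by decide
  have key : ∀ i : Fin 4, cval (ρ ⟨n * R.dl (uIx.getD i.1 0) * n⁻¹, R.Nm_conj hn (R.dl_mem _)⟩) =
      nxtDig g.1 (R.cix ρ) i.1 := by
    intro i
    have hok := act_e_ok
    simp only [actEOK, List.all_eq_true, List.mem_range] at hok
    have hmc := Nat.eq_of_beq_eq_true (hok g.1 g.2 i.1 i.2)
    have h1 := hc.mul (R.dl_cls (uIx.getD i.1 0))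
    rw [hmc] at h1
    set ms := (actE.getD g.1 []).getD i.1 []
    have h2 := (R.prodA_cls uGen ms).mul hc
    have hp : R.prodA uGen ms ∈ R.Ed := R.prodA_mem uGen ms fun a _ => R.dl_mem a
    have hk : R.π ((R.prodA uGen ms)⁻¹ * (n * R.dl (uIx.getD i.1 0) * n⁻¹)) = 1 := by
      rw [map_mul, map_inv, map_mul, map_mul, map_inv, h1.eq h2]
      group
    have e : (⟨n * R.dl (uIx.getD i.1 0) * n⁻¹, R.Nm_conj hn (R.dl_mem _)⟩ : R.Ed) =
        ⟨R.prodA uGen ms, hp⟩ * ⟨(R.prodA uGen ms)⁻¹ * (n * R.dl (uIx.getD i.1 0) * n⁻¹), R.ker_le_Ed hk⟩ :=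
      Subtype.ext (mul_inv_cancel_left _ _).symm
    rw [e, h.mul, h.ker ⟨_, R.ker_le_Ed hk⟩ hk, mul_one, h.prodA ms _ _ _ _ _ (hlist g i) hp, cval_pow]
    rfl
  have k0 := key 0
  have k1 := key 1
  have k2 := key 2
  have k3 := key 3
  show cval _ + 3 * cval _ + 9 * cval _ + 27 * cval _ = _
  rw [nxt]
  simp only [Ext.de]
  exact congrArg₂ (· + ·) (congrArg₂ (· + ·) (congrArg₂ (· + ·) k0 (congrArg (3 * ·) k1))
    (congrArg (9 * ·) k2)) (congrArg (27 * ·) k3)

theorem cix_mul {ρ σ : R.Ed → F} (h : R.Red ρ) (h' : R.Red σ) :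
    R.cix (fun a => ρ a * σ a) = addK (R.cix ρ) (R.cix σ) := by
  obtain ⟨-, hd⟩ := h.dig
  obtain ⟨-, hd'⟩ := h'.dig
  have hv : ∀ a, cval (ρ (R.de a) * σ (R.de a)) = (cval (ρ (R.de a)) + cval (σ (R.de a))) % 3 := fun a => by
    conv_lhs => rw [(cval_spec (h.cube (R.de a))).2, (cval_spec (h'.cube (R.de a))).2, ← pow_add]
    rw [cval_pow]
  rw [addK, hd 0 (by norm_num), hd 1 (by norm_num), hd 2 (by norm_num), hd 3 (by norm_num),
    hd' 0 (by norm_num), hd' 1 (by norm_num), hd' 2 (by norm_num), hd' 3 (by norm_num)]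
  simp only [Ext.cix, hv]
  rfl

variable (R) in
/-- The generator of the kernel in the lifted diagonal group. -/
def xE : R.Ed := ⟨R.x0, R.ker_le_Ed (by
  show R.x0 ∈ R.π.ker
  rw [R.ker]; exact Subgroup.mem_zpowers _)⟩

theorem red_of_mul {ρ : R.Ed → F} (hm : ∀ a b, ρ (a * b) = ρ a * ρ b) (hc : ∀ a, ρ a * ρ a * ρ a = 1)
    (hx : ρ R.xE = 1) : R.Red ρ := by
  refine ⟨hm, hc, fun a ha => ?_⟩
  have h1 : ρ 1 = 1 := by
    have h0 : ρ 1 ≠ 0 := fun e => by have := hc 1; simp [e] at this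
    exact mul_left_cancel₀ h0 (by rw [← hm, one_mul, mul_one])
  rcases R.mem_ker ha with e | e | e
  · rw [show a = 1 from Subtype.ext e, h1]
  · rw [show a = R.xE from Subtype.ext e, hx]
  · rw [show a = R.xE * R.xE from Subtype.ext e, hm, hx, one_mul]

theorem conj_xE (R : Ext F A) {n : A} (hn : n ∈ R.Nm) :
    (⟨n * (R.xE : A) * n⁻¹, R.Nm_conj hn R.xE.2⟩ : R.Ed) = R.xE :=
  Subtype.ext (by show n * R.x0 * n⁻¹ = R.x0; rw [R.central, mul_inv_cancel_right])

/-- The generator of the kernel acts without fixed vectors. -/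
theorem x0_rel (hτ : Function.Injective τ) : τ R.x0 * τ R.x0 + τ R.x0 + 1 = 0 := by
  classical
  have hfin : Fintype (R.Ch τ) := Fintype.ofFinite _
  set C : Finset (R.Ed → F) := (R.Ch τ).toFinset with hC
  have memC : ∀ χ, χ ∈ C ↔ χ ∈ R.Ch τ := fun χ => Set.mem_toFinset
  have hCc : C.card ≤ 12 := by
    have := card_Ch_le (R := R) (τ := τ)
    rwa [Nat.card_eq_fintype_card, ← Set.toFinset_card] at this
  have hvals : ∀ χ ∈ C, χ R.xE = 1 ∨ χ R.xE = om ∨ χ R.xE = om * om := fun χ hχ =>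
    ne_zero_cases fun e => by have := Ch_cube ((memC χ).1 hχ) R.xE; simp [e] at this
  set C0 := C.filter fun χ => χ R.xE = 1
  set C1 := C.filter fun χ => χ R.xE = om
  set C2 := C.filter fun χ => χ R.xE = om * om
  have h1 := om_ne_one (F := F)
  have h0 := om_ne_zero (F := F)
  have hω : (om : F) * om * om = 1 := cube_eq_one h0
  have h2 : (om : F) * om ≠ 1 := fun e => h1 (by rw [e, one_mul] at hω; exact hω)
  have h3 : (om : F) * om ≠ om := fun e => h1 (mul_left_cancel₀ h0 (by rw [mul_one]; exact e))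
  have hconj : ∀ (S : Finset (R.Ed → F)) (c : F), S = C.filter (fun χ => χ R.xE = c) → ∀ χ ∈ S, ∀ n (hn : n ∈ R.Nm),
      (fun a : R.Ed => χ ⟨n * a * n⁻¹, R.Nm_conj hn a.2⟩) ∈ S := by
    rintro S c rfl χ hχ n hn
    rw [Finset.mem_filter] at hχ ⊢
    exact ⟨(memC _).2 (Ch_conj ((memC χ).1 hχ.1) hn), (congrArg χ (conj_xE R hn)).trans hχ.2⟩
  -- trivial restriction forces the trivial character
  have hC0 : ∀ χ ∈ C0, χ = fun _ => 1 := by
    intro χ hχ
    have hred : ∀ ψ ∈ C0, R.Red ψ := fun ψ hψ => by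
      rw [Finset.mem_filter] at hψ
      exact red_of_mul (Ch_mul ((memC ψ).1 hψ.1)) (Ch_cube ((memC ψ).1 hψ.1)) hψ.2
    refine (hred χ hχ).eq_one ?_
    by_contra hne
    have hinv : ∀ x ∈ C0.image R.cix, nxt 1 x ∈ C0.image R.cix ∧ nxt 2 x ∈ C0.image R.cix := by
      intro x hx
      obtain ⟨ψ, hψ, rfl⟩ := Finset.mem_image.1 hx
      have step : ∀ g : Fin 3, nxt g.1 (R.cix ψ) ∈ C0.image R.cix := fun g => by
        obtain ⟨n, hn, hcl⟩ := exists_gen_lift R g
        exact Finset.mem_image.2 ⟨_, hconj C0 1 rfl ψ hψ n hn, (hred ψ hψ).move g hn hcl⟩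
      exact ⟨step 1, step 2⟩
    have := (invariant_large _ hinv (Finset.mem_image_of_mem _ hχ) hne (hred χ hχ).dig.1).1
    have h' : (C0.image R.cix).card ≤ 12 :=
      le_trans Finset.card_image_le (le_trans (Finset.card_filter_le _ _) hCc)
    omega
  have hsq : ∀ χ ∈ C1, (fun a => χ a * χ a) ∈ C2 := fun χ hχ => by
    rw [Finset.mem_filter] at hχ ⊢
    exact ⟨(memC _).2 (Ch_sq ((memC χ).1 hχ.1)), by show χ R.xE * χ R.xE = _; rw [hχ.2]⟩
  have hsq_inj : Set.InjOn (fun (χ : R.Ed → F) a => χ a * χ a) C1 := by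
    intro χ hχ ψ hψ e
    have hχ' := Ch_cube ((memC χ).1 (Finset.mem_filter.1 hχ).1)
    have hψ' := Ch_cube ((memC ψ).1 (Finset.mem_filter.1 hψ).1)
    funext a
    have e' : χ a * χ a = ψ a * ψ a := congrFun e a
    linear_combination (-(χ a)) * hψ' a + ψ a * hχ' a - χ a * ψ a * e'
  have hk12 : C1.card ≤ C2.card := Finset.card_le_card_of_injOn _ hsq hsq_inj
  -- the sum of the parts
  have hno : ∀ χ ∈ C, χ R.xE ≠ 1 := by
    intro χ0 hχ0 hx1
    have hdisj : C0.card + C1.card + C2.card ≤ 12 := by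
      refine le_trans ?_ hCc
      rw [← Finset.card_union_of_disjoint, ← Finset.card_union_of_disjoint]
      · exact Finset.card_le_card (Finset.union_subset (Finset.union_subset (Finset.filter_subset _ _)
          (Finset.filter_subset _ _)) (Finset.filter_subset _ _))
      · rw [Finset.disjoint_union_left]
        constructor <;> rw [Finset.disjoint_filter] <;> intro χ _ e e'
        · exact h2 (e'.symm.trans e)
        · exact h3 (e'.symm.trans e)
      · rw [Finset.disjoint_filter]; intro χ _ e e'; exact h1 (e'.symm.trans e)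
    have hpos : 0 < C0.card := Finset.card_pos.2 ⟨χ0, Finset.mem_filter.2 ⟨hχ0, hx1⟩⟩
    have hk5 : C1.card ≤ 5 := by omega
    have hne : C1.Nonempty := by
      by_contra he
      rw [Finset.not_nonempty_iff_eq_empty] at he
      have hall : ∀ χ ∈ R.Ch τ, χ R.xE = 1 := fun χ hχ => by
        rcases hvals χ ((memC χ).2 hχ) with e | e | e
        · exact e
        · have : χ ∈ C1 := Finset.mem_filter.2 ⟨(memC χ).2 hχ, e⟩
          rw [he] at this; exact absurd this (Finset.notMem_empty _)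
        · have : (fun a => χ a * χ a) ∈ C1 := Finset.mem_filter.2 ⟨(memC _).2 (Ch_sq hχ), by
            show χ R.xE * χ R.xE = om
            rw [e]; linear_combination om * hω⟩
          rw [he] at this; exact absurd this (Finset.notMem_empty _)
      exact R.x0_ne (congrArg Subtype.val (Ch_sep hτ hall))
    obtain ⟨χ, hχ⟩ := hne
    by_cases hone : C1.card = 1
    · -- a single pair of characters cannot separate
      obtain ⟨χ', hC1⟩ := Finset.card_eq_one.1 hone
      have hall : ∀ a : R.Ed, χ a = 1 → a = 1 := fun a ha => Ch_sep hτ fun ψ hψ => by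
        rcases hvals ψ ((memC ψ).2 hψ) with e | e | e
        · rw [hC0 ψ (Finset.mem_filter.2 ⟨(memC ψ).2 hψ, e⟩)]
        · have e1 : ψ ∈ C1 := Finset.mem_filter.2 ⟨(memC ψ).2 hψ, e⟩
          rw [hC1, Finset.mem_singleton] at e1 hχ
          rw [e1, ← hχ, ha]
        · have e1 : (fun a => ψ a * ψ a) ∈ C1 := Finset.mem_filter.2 ⟨(memC _).2 (Ch_sq hψ), by
            show ψ R.xE * ψ R.xE = om
            rw [e]; linear_combination om * hω⟩
          rw [hC1, Finset.mem_singleton] at e1 hχ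
          have e2 : ψ a * ψ a = 1 := by rw [show ψ a * ψ a = χ' a from congrFun e1 a, ← hχ, ha]
          have := Ch_cube hψ a
          rwa [e2, one_mul] at this
      have hχC := (memC χ).1 (Finset.mem_filter.1 hχ).1
      have hinj : Function.Injective fun a : R.Ed => χ a := fun a b e => by
        have hb : χ b ≠ 0 := fun h => by have := Ch_cube hχC b; simp [h] at this
        have hab : χ (a * b⁻¹) = 1 := mul_right_cancel₀ hb (by rw [← Ch_mul hχC, inv_mul_cancel_right, one_mul]; exact e)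
        exact mul_inv_eq_one.1 (hall _ hab)
      have := Nat.card_le_card_of_injective _ hinj
      rw [R.card_Ed, Nat.card_eq_fintype_card, Setup.card] at this
      omega
    · let f : (R.Ed → F) × (R.Ed → F) → ℕ := fun q => R.cix fun a => q.1 a * (q.2 a * q.2 a)
      have hP : ∀ q ∈ C1.offDiag, R.Red fun a => q.1 a * (q.2 a * q.2 a) := by
        intro q hq
        obtain ⟨ha, hb, -⟩ := Finset.mem_offDiag.1 hq
        rw [Finset.mem_filter] at ha hb
        refine red_of_mul (fun a b => ?_) (fun a => ?_) ?_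
        · simp only [Ch_mul ((memC _).1 ha.1), Ch_mul ((memC _).1 hb.1)]; ring
        · have e1 := Ch_cube ((memC _).1 ha.1) a
          have e2 := Ch_cube ((memC _).1 hb.1) a
          linear_combination (q.2 a * q.2 a * q.2 a) ^ 2 * e1 + (q.2 a * q.2 a * q.2 a + 1) * e2
        · show q.1 R.xE * (q.2 R.xE * q.2 R.xE) = 1
          rw [ha.2, hb.2, ← mul_assoc, hω]
      set S := C1.offDiag.image f with hS
      have hinv : ∀ x ∈ S, nxt 1 x ∈ S ∧ nxt 2 x ∈ S := by
        intro x hx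
        obtain ⟨q, hq, rfl⟩ := Finset.mem_image.1 hx
        have step : ∀ g : Fin 3, nxt g.1 (f q) ∈ S := fun g => by
          obtain ⟨n, hn, hcl⟩ := exists_gen_lift R g
          refine Finset.mem_image.2 ⟨(fun a => q.1 ⟨n * a * n⁻¹, R.Nm_conj hn a.2⟩,
            fun a => q.2 ⟨n * a * n⁻¹, R.Nm_conj hn a.2⟩), ?_, (hP q hq).move g hn hcl⟩
          obtain ⟨ha, hb, hab⟩ := Finset.mem_offDiag.1 hq
          refine Finset.mem_offDiag.2 ⟨hconj C1 om rfl _ ha n hn, hconj C1 om rfl _ hb n hn, fun e => hab ?_⟩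
          funext a
          have hinv' : n⁻¹ * a.1 * n ∈ R.Ed := by simpa using R.Nm_conj (inv_mem hn) a.2
          have := congrFun e ⟨_, hinv'⟩
          have e' : (⟨n * (n⁻¹ * a.1 * n) * n⁻¹, R.Nm_conj hn hinv'⟩ : R.Ed) = a := Subtype.ext (by group)
          simpa only [e'] using this
        exact ⟨step 1, step 2⟩
      have hnz : ∀ q ∈ C1.offDiag, f q ≠ 0 := by
        intro q hq h0'
        obtain ⟨ha, hb, hab⟩ := Finset.mem_offDiag.1 hq
        refine hab (funext fun a => ?_)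
        have e1 : q.1 a * (q.2 a * q.2 a) = 1 := congrFun ((hP q hq).eq_one h0') a
        have e2 := Ch_cube ((memC _).1 (Finset.mem_filter.1 hb).1) a
        linear_combination q.2 a * e1 - q.1 a * e2
      have hcS : S.card ≤ C1.card * C1.card - C1.card :=
        le_trans Finset.card_image_le (by rw [Finset.offDiag_card])
      obtain ⟨χ', hχ', hne'⟩ : ∃ χ' ∈ C1, χ' ≠ χ := Finset.exists_mem_ne (by
        have := Finset.card_pos.2 ⟨χ, hχ⟩; omega) χ
      have hq0 : (χ, χ') ∈ C1.offDiag := Finset.mem_offDiag.2 ⟨hχ, hχ', fun e => hne' e.symm⟩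
      obtain ⟨h20, hfree⟩ := invariant_large S hinv (Finset.mem_image_of_mem f hq0) (hnz _ hq0) (hP _ hq0).dig.1
      have hk : C1.card = 5 := by
        interval_cases hh : C1.card <;> omega
      rw [hk] at hcS
      have hfi : Set.InjOn f C1.offDiag := by
        refine Finset.injOn_of_card_image_eq ?_
        rw [Finset.offDiag_card, hk]
        exact le_antisymm (le_trans hcS (by norm_num)) (le_trans (by norm_num) h20)
      obtain ⟨a, b, c, ha, hb, hc, hab, hac, hbc⟩ := Finset.two_lt_card_iff.1 (show 2 < C1.card by omega)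
      have q1 : (a, b) ∈ C1.offDiag := Finset.mem_offDiag.2 ⟨ha, hb, hab⟩
      have q2 : (b, c) ∈ C1.offDiag := Finset.mem_offDiag.2 ⟨hb, hc, hbc⟩
      have q3 : (a, c) ∈ C1.offDiag := Finset.mem_offDiag.2 ⟨ha, hc, hac⟩
      refine hfree (le_trans hcS (by norm_num)) _ (Finset.mem_image_of_mem f q1) _ (Finset.mem_image_of_mem f q2)
        (fun e => hab (congrArg Prod.fst (hfi q1 q2 e))) ?_
      have e3 : addK (f (a, b)) (f (b, c)) = f (a, c) := by
        rw [← cix_mul (hP _ q1) (hP _ q2)]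
        refine congrArg R.cix (funext fun u => ?_)
        have := Ch_cube ((memC _).1 (Finset.mem_filter.1 hb).1) u
        linear_combination (a u * (c u * c u)) * this
      rw [e3]
      exact Finset.mem_image_of_mem f q3
  refine toF_injective (F := F) ?_
  rw [map_add, map_add, map_mul, map_one, map_zero]
  refine R.ext_of_Ch τ fun χ v hv => ?_
  have hχ : χ ∈ C := (memC χ).2 ⟨v, hv⟩
  set μ := χ R.xE with hμdef
  have hμ : μ * μ + μ + 1 = 0 := by
    have hc := Ch_cube ((memC χ).1 hχ) R.xE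
    have h' : (μ - 1) * (μ * μ + μ + 1) = 0 := by linear_combination hc
    exact (mul_eq_zero.1 h').resolve_left (sub_ne_zero.2 (hno χ hχ))
  have hxv : toF (τ R.x0) *ᵥ v = μ • v := hv.2 R.xE
  rw [Matrix.add_mulVec, Matrix.add_mulVec, ← Matrix.mulVec_mulVec, hxv, Matrix.mulVec_smul, hxv,
    Matrix.one_mulVec, Matrix.zero_mulVec, smul_smul]
  calc (μ * μ) • v + μ • v + v = (μ * μ + μ + 1) • v := by rw [add_smul, add_smul, one_smul]
    _ = 0 := by rw [hμ, zero_smul]

end Ext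

end Cfsg.Agent.H8.LFT
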