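import Cfsg.Agent.H8.U62.Subs
import Cfsg.Agent.H8.LFT.Data

/-!
# Boolean checks for the orbits on isotropic vectors
-/

set_option autoImplicit false

namespace Cfsg.Agent.H8.LFT

open Cfsg.Agent.H8.U62

/-- Vectors along a tree; the vectors met so far are packed twelve bits each into one number. -/
def bldV (gens : List ℕ) : List (ℕ × ℕ) → ℕ → ℕ → List ℕ
  | [], _, _ => []
  | (p, g) :: t, n, N => force (mvC (gens.getD g oneC) (N / 2 ^ (12 * p) % 4096)) fun v =>
      force (N + v * 2 ^ (12 * n)) fun N' => v :: bldV gens t (n + 1) N'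

/-- Strict evaluation of a list of numbers. -/
def forceL {α : Type} : List ℕ → (List ℕ → α) → α
  | [], f => f []
  | a :: l, f => force a fun a' => forceL l fun l' => f (a' :: l')

theorem forceL_eq {α : Type} : ∀ (l : List ℕ) (f : List ℕ → α), forceL l f = f l
  | [], _ => rfl
  | a :: l, f => by rw [forceL, force_eq, forceL_eq l]

/-- The two seeds. -/
def seedC (o : ℕ) : ℕ := if o = 0 then 1365 else 1366

/-- The two orbit lengths. -/
def orbLen (o : ℕ) : ℕ := if o = 0 then 378 else 1701

/-- The two orbits. -/
def orbL (o : ℕ) : List ℕ := seedC o :: bldV (subGenC 0) (orbTree.getD o []) 1 (seedC o)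

/-- A set of numbers as a mask. -/
def maskL (l : List ℕ) : ℕ := l.foldr (fun v m => Nat.lor (1 <<< v) m) 0

/-- A list is closed, seeded and short. -/
def closedOK (gens : List ℕ) (l0 : List ℕ) (s n : ℕ) : Bool :=
  forceL gens fun gens => forceL l0 fun l =>
  Nat.beq l.length n && keysOK l 0 &&
    force (maskL l) fun m => m.testBit s && l.all fun v => Nat.blt v 4096 && gens.all fun g => m.testBit (mvC g v)

/-- One of the orbits. -/
def orbitOK (o : ℕ) : Bool :=
  closedOK (subGenC 0) (orbL o) (seedC o) (orbLen o) && closedOK genC (monoOrb.getD o []) (seedC o) 243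

/-- Every singular vector is in one of the two orbits. -/
def coverOK : Bool :=
  force (maskL (orbL 0)) fun m => force (maskL (orbL 1)) fun m' =>
    (List.range 4096).all fun v => Nat.beq v 0 || !(orthC v v) || m.testBit v || m'.testBit v

/-- A code built from the columns. -/
def nrmC (A : ℕ) : ℕ := (List.range 6).foldr (fun j m => Nat.lor ((colC A j) <<< (12 * j)) m) 0

/-- Generators of a Sylow subgroup of a stabiliser. -/
def sylGenC (n : ℕ) : List ℕ := (sylGen.getD n []).map (subElC 0)

/-- Elements of a Sylow subgroup of a stabiliser. -/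
def sylL (n : ℕ) : List ℕ := bld (sylGenC n) (sylTree.getD n []) [oneC]

/-- A Sylow subgroup of a stabiliser, by its elements. -/
def sylOK (n : ℕ) : Bool :=
  forceL (sylGenC n) fun gens => forceL (sylL n) fun els => forceL (els.map nrmC) fun ks =>
  Nat.beq els.length (if n < 2 then 64 else 128) && keysOK ks 0 &&
    ((sylGen.getD n []).all subIdxOK) &&
    (gens.all fun g => Nat.beq (mvC g (seedC (n / 2))) (seedC (n / 2))) &&
    gens.all fun g => els.all fun p => force (nrmC (mmC g p)) fun k => ks.any fun k' => Nat.beq k k'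

/-- The common elements of two Sylow subgroups. -/
def interOK : Bool :=
  (forceL ((sylL 1).map nrmC) fun ks => (sylL 0).all fun p => force (nrmC p) fun k =>
    Nat.beq k oneC || !(ks.any fun k' => Nat.beq k k')) &&
  (forceL ((sylL 3).map nrmC) fun ks => (sylL 2).all fun p => force (nrmC p) fun k =>
    (e16.any fun e => Nat.beq k e) || !(ks.any fun k' => Nat.beq k k')) &&
  (e16.all fun e => Nat.beq (mmC e e) oneC && (Nat.beq e oneC || !(Nat.beq (frmC e) (frmC oneC))))

/-- The generators as products of elements of order five, and the twists between the three subgroups. -/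
def genOK : Bool :=
  Nat.beq conjW.length 4 &&
  (conjW.all fun c => Nat.blt c.1 243 && Nat.blt c.2.1 360 &&
    force (monC c.1 c.2.1) fun m => Nat.beq (mmC c.2.2 m) (mmC m (genC.getD 2 0))) &&
  Nat.beq (mmC (conjW.getD 0 (0, 0, 0)).2.2 (conjW.getD 1 (0, 0, 0)).2.2) (genC.getD 0 0) &&
  Nat.beq (mmC (conjW.getD 2 (0, 0, 0)).2.2 (conjW.getD 3 (0, 0, 0)).2.2) (genC.getD 1 0) &&
  ((List.range 2).all fun g => force (genC.getD g 0) fun x => Nat.beq (mmC x (mmC x x)) oneC) &&
  (force (genC.getD 2 0) fun x => Nat.beq (mmC x (mmC x (mmC x (mmC x x)))) oneC) &&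
  (force (mmC (subG.getD 0 0) (monC 121 203)) fun x => Nat.beq (mmC x (mmC x (mmC x (mmC x x)))) oneC) &&
  Nat.beq twists.length 3 &&
  (List.range 3).all fun i =>
    let t := twists.getD i (0, 0, [])
    Nat.beq (mmC t.1 t.2.1) oneC && Nat.beq t.2.2.length 4 &&
      (List.range 4).all fun g =>
        let q := t.2.2.getD g (112, 0, 0)
        subIdxOK q && Nat.beq (mmC t.1 ((subGenC i).getD g 0)) (mmC (subElC 0 q) t.1)

theorem orbit_ok0 : orbitOK 0 = true := by decide +kernel

theorem orbit_ok1 : orbitOK 1 = true := by decide +kernel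

theorem cover_ok : coverOK = true := by decide +kernel

theorem syl_ok0 : sylOK 0 = true := by decide +kernel

theorem syl_ok1 : sylOK 1 = true := by decide +kernel

theorem syl_ok2 : sylOK 2 = true := by decide +kernel

theorem syl_ok3 : sylOK 3 = true := by decide +kernel

theorem inter_ok : interOK = true := by decide +kernel

theorem gen_ok : genOK = true := by decide +kernel

end Cfsg.Agent.H8.LFT
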