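import Cfsg.Agent.H18.Singular.Setting
import Cfsg.Agent.H18.Extraspecial
import Cfsg.Agent.H51.FStar
import Cfsg.Prelude.Def_MonsterType

/-!
# Coordinates for an extraspecial normal subgroup of an involution centralizer
-/

set_option autoImplicit false
set_option linter.unusedSectionVars false

namespace Cfsg.Agent.H8.LFT

open Matrix

/-- Extraspecial groups are preserved by isomorphisms. -/
theorem extraspecial_of_equiv {A B : Type*} [Group A] [Group B] (e : A ≃* B) {p : ℕ}
    (h : Cfsg.IsExtraspecial p A) : Cfsg.IsExtraspecial p B := by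
  obtain ⟨⟨hp, hfr, hcom⟩, hcard⟩ := h
  have hcen : (Subgroup.center A).map e.toMonoidHom = Subgroup.center B := by
    ext v
    constructor
    · rintro ⟨u, hu, rfl⟩
      refine Subgroup.mem_center_iff.mpr fun w => ?_
      obtain ⟨w', rfl⟩ := e.surjective w
      exact (map_mul e _ _).symm.trans
        ((congrArg e (Subgroup.mem_center_iff.mp hu w')).trans (map_mul e _ _))
    · intro hv
      obtain ⟨u, rfl⟩ := e.surjective v
      refine ⟨u, Subgroup.mem_center_iff.mpr fun w => e.injective ?_, rfl⟩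
      rw [map_mul, map_mul]
      exact Subgroup.mem_center_iff.mp hv (e w)
  refine ⟨⟨hp.of_equiv e, ?_, ?_⟩, ?_⟩
  · rw [← hcen, ← hfr]
    apply le_antisymm
    · intro v hv
      obtain ⟨u, rfl⟩ := e.surjective v
      refine ⟨u, ?_, rfl⟩
      have := frattini_le_comap_frattini_of_surjective (φ := e.symm.toMonoidHom) e.symm.surjective hv
      have h' : e.symm (e u) ∈ frattini A := this
      rwa [e.symm_apply_apply] at h'
    · rw [Subgroup.map_le_iff_le_comap]
      exact frattini_le_comap_frattini_of_surjective (φ := e.toMonoidHom) e.surjective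
  · rw [← hcen, ← hcom, commutator_def, commutator_def, Subgroup.map_commutator,
      Subgroup.map_top_of_surjective _ e.surjective]
  · rw [← hcen, Subgroup.card_map_of_injective e.injective, hcard]

variable {G : Type*} [Group G] [Finite G] {z : G} {Q : Subgroup (Subgroup.centralizer ({z} : Set G))} [Q.Normal]

/-- An element of `Q` in the group. -/
abbrev gv (a : Q) : G := ((a : Subgroup.centralizer ({z} : Set G)) : G)

theorem gv_injective : Function.Injective (gv (z := z) (Q := Q)) := fun _ _ h => Subtype.ext (Subtype.ext h)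

/-- Conjugation inside `Q`. -/
def cj (h : Subgroup.centralizer ({z} : Set G)) (a : Q) : Q :=
  ⟨h * a * h⁻¹, (inferInstance : Q.Normal).conj_mem _ a.2 h⟩

theorem cj_mul (h : Subgroup.centralizer ({z} : Set G)) (a b : Q) : cj h (a * b) = cj h a * cj h b :=
  Subtype.ext (by show h * (a.1 * b.1) * h⁻¹ = h * a.1 * h⁻¹ * (h * b.1 * h⁻¹); group)

theorem cj_cj (h k : Subgroup.centralizer ({z} : Set G)) (a : Q) : cj h (cj k a) = cj (h * k) a :=
  Subtype.ext (by show h * (k * a.1 * k⁻¹) * h⁻¹ = h * k * a.1 * (h * k)⁻¹; group)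

theorem cj_one (a : Q) : cj 1 a = a := Subtype.ext (by show 1 * a.1 * 1⁻¹ = a.1; group)

theorem gv_cj (h : Subgroup.centralizer ({z} : Set G)) (a : Q) : gv (cj h a) = (h : G) * gv a * (h : G)⁻¹ := rfl

/-- The singular point of an extraspecial centralizer setting. -/
theorem singPt_of_setting {w : ℕ} (hs : Cfsg.IsExtraspecialCentralizerSetting z Q w) :
    H18.SingPt (Q.map (Subgroup.centralizer ({z} : Set G)).subtype) z := by
  obtain ⟨hz, hfit, hext, -, -⟩ := hs
  have hzz : z * z = 1 := by rw [← pow_two, ← hz, pow_orderOf_eq_one]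
  have hz1 : z ≠ 1 := fun h => by rw [h, orderOf_one] at hz; omega
  have hcent : ∀ c : Subgroup.centralizer ({z} : Set G), (∀ q ∈ Q, q * c = c * q) → c ∈ Q := fun c h => by
    rw [← hfit]
    exact H51.centralizer_generalizedFitting_le _ (fun q hq => h q (hfit ▸ hq))
  have hzC : z ∈ Subgroup.centralizer ({z} : Set G) := Subgroup.mem_centralizer_singleton_iff.2 rfl
  have hzQ : (⟨z, hzC⟩ : Subgroup.centralizer ({z} : Set G)) ∈ Q :=
    hcent _ fun q _ => Subtype.ext (Subgroup.mem_centralizer_singleton_iff.1 q.2)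
  refine ⟨hzz, hz1, ⟨_, hzQ, rfl⟩,
    extraspecial_of_equiv (Q.equivMapOfInjective _ (Subgroup.subtype_injective _)) hext,
    fun y hy => ?_, ?_, ?_⟩
  · have hyC : y ∈ Subgroup.centralizer ({z} : Set G) :=
      Subgroup.mem_centralizer_singleton_iff.2 (hy z ⟨_, hzQ, rfl⟩).symm
    have hyQ : (⟨y, hyC⟩ : Subgroup.centralizer ({z} : Set G)) ∈ Q :=
      hcent _ fun q hq => Subtype.ext (hy q ⟨q, hq, rfl⟩)
    obtain ⟨w, -, -, hmem⟩ := H18.center_eq_pair hext
    have hcz : (⟨_, hzQ⟩ : Q) ∈ Subgroup.center Q := Subgroup.mem_center_iff.2 fun q =>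
      Subtype.ext (Subtype.ext (Subgroup.mem_centralizer_singleton_iff.1 q.1.2))
    have hcy : (⟨_, hyQ⟩ : Q) ∈ Subgroup.center Q :=
      Subgroup.mem_center_iff.2 fun q => Subtype.ext (Subtype.ext (hy _ ⟨q, q.2, rfl⟩))
    have hwz := ((hmem _).1 hcz).resolve_left fun e => hz1 (congrArg gv e)
    rcases (hmem _).1 hcy with e | e
    · exact Or.inl (congrArg gv e)
    · exact Or.inr (congrArg gv (e.trans hwz.symm))
  · rintro _ ⟨q, -, rfl⟩
    exact Subgroup.mem_centralizer_singleton_iff.1 q.2
  · rintro a ha _ ⟨q, hq, rfl⟩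
    exact ⟨⟨a, Subgroup.mem_centralizer_singleton_iff.2 ha⟩ * q *
      (⟨a, Subgroup.mem_centralizer_singleton_iff.2 ha⟩)⁻¹,
      (inferInstance : Q.Normal).conj_mem _ hq _, rfl⟩

section

variable (hs : Cfsg.IsExtraspecialCentralizerSetting z Q 6)
include hs

theorem central_iff (c : Q) : c ∈ Subgroup.center Q ↔ gv c = 1 ∨ gv c = z := by
  have hS := singPt_of_setting hs
  constructor
  · intro hc
    exact hS.cent _ (by
      rintro _ ⟨q, hq, rfl⟩
      exact congrArg gv (Subgroup.mem_center_iff.1 hc ⟨q, hq⟩))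
  · intro hc
    refine Subgroup.mem_center_iff.2 fun q => gv_injective ?_
    show gv q * gv c = gv c * gv q
    rcases hc with e | e <;> rw [e]
    · simp
    · exact hS.comm_x _ ⟨q, q.2, rfl⟩

open Classical in
/-- The bit of a central element. -/
noncomputable def bit (c : Q) : ZMod 2 :=
  have := hs
  if gv c = 1 then 0 else 1

theorem bit_mul {a b : Q} (ha : a ∈ Subgroup.center Q) (hb : b ∈ Subgroup.center Q) :
    bit hs (a * b) = bit hs a + bit hs b := by
  have hS := singPt_of_setting hs
  have h2 : (1 : ZMod 2) + 1 = 0 := by decide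
  rcases (central_iff hs a).1 ha with e | e <;> rcases (central_iff hs b).1 hb with e' | e' <;>
    simp [bit, show gv (a * b) = gv a * gv b from rfl, e, e', hS.xx, hS.xne, h2]

theorem bit_eq_zero {a : Q} (ha : a ∈ Subgroup.center Q) (h : bit hs a = 0) : a = 1 := by
  refine gv_injective ?_
  rcases (central_iff hs a).1 ha with e | e
  · exact e
  · simp [bit, e, (singPt_of_setting hs).xne] at h

theorem sq_central (a : Q) : a * a ∈ Subgroup.center Q := by
  have hS := singPt_of_setting hs
  exact (central_iff hs _).2 (hS.pair (hS.sq ⟨a, a.2, rfl⟩))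

/-- Coordinates. -/
theorem exists_vec : ∃ v : Q → (Fin 12 → ZMod 2), Function.Surjective v ∧ (∀ a b, v (a * b) = v a + v b) ∧
    ∀ a, v a = 0 ↔ a ∈ Subgroup.center Q := by
  classical
  have hsq := sq_central hs
  have hext := hs.2.2.1
  have hcomm : ∀ x y : Q ⧸ Subgroup.center Q, x * y = y * x := by
    intro x y
    induction x using QuotientGroup.induction_on with
    | _ a => induction y using QuotientGroup.induction_on with
      | _ b =>
        rw [← QuotientGroup.mk_mul, ← QuotientGroup.mk_mul, QuotientGroup.eq]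
        have := H18.commutator_mem_center hext b⁻¹ a⁻¹
        rw [commutatorElement_def, inv_inv, inv_inv] at this
        rwa [_root_.mul_inv_rev, ← mul_assoc]
  letI : CommGroup (Q ⧸ Subgroup.center Q) := { (inferInstance : Group (Q ⧸ Subgroup.center Q)) with mul_comm := hcomm }
  let V := Additive (Q ⧸ Subgroup.center Q)
  have h2 : ∀ x : V, 2 • x = 0 := by
    intro x
    obtain ⟨a, ha⟩ := QuotientGroup.mk_surjective (Additive.toMul x)
    rw [two_nsmul]
    refine Additive.toMul.injective ?_
    show Additive.toMul x * Additive.toMul x = 1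
    rw [← ha, ← QuotientGroup.mk_mul, QuotientGroup.eq_one_iff]
    exact hsq a
  letI : Module (ZMod 2) V := AddCommGroup.zmodModule h2
  have : Finite V := inferInstanceAs (Finite (Q ⧸ Subgroup.center Q))
  have hcard : Nat.card V = 2 ^ 12 := by
    have h := (Subgroup.center Q).card_eq_card_quotient_mul_card_subgroup
    rw [hs.2.2.2.1, hext.2] at h
    show Nat.card (Q ⧸ Subgroup.center Q) = 2 ^ 12
    omega
  have hfr : Module.finrank (ZMod 2) V = 12 := by
    have := Module.natCard_eq_pow_finrank (K := ZMod 2) (V := V)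
    rw [hcard, Nat.card_zmod] at this
    exact (Nat.pow_right_injective le_rfl this).symm
  let e : V ≃ₗ[ZMod 2] (Fin 12 → ZMod 2) := (Module.finBasisOfFinrankEq (ZMod 2) V hfr).equivFun
  refine ⟨fun a => e (Additive.ofMul (QuotientGroup.mk a)), fun x => ?_, fun a b => ?_, fun a => ?_⟩
  · obtain ⟨a, ha⟩ := QuotientGroup.mk_surjective (Additive.toMul (e.symm x))
    exact ⟨a, by simp [ha]⟩
  · rw [← map_add]; rfl
  · rw [← map_zero e, e.injective.eq_iff]
    exact ⟨fun h => (QuotientGroup.eq_one_iff a).1 (congrArg Additive.toMul h),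
      fun h => congrArg Additive.ofMul ((QuotientGroup.eq_one_iff a).2 h)⟩

end

end Cfsg.Agent.H8.LFT
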