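import Cfsg.Agent.H8.LFT.Lifts

/-!
# Common eigenvectors of the lifted diagonal group
-/

set_option autoImplicit false
set_option linter.unusedSectionVars false
set_option maxRecDepth 20000

namespace Cfsg.Agent.H8.LFT

open Matrix Cfsg.Agent.H8.U62 Cfsg.Agent.H8.U62.Setup

variable {F : Type} [Setup F]

theorem charP_two : CharP F 2 := by
  have h : ringChar F = 2 := CharP.ringChar_of_prime_eq_zero Nat.prime_two
    (by push_cast; linear_combination two (F := F))
  exact h ▸ ringChar.charP F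

/-- Matrices over the prime field as matrices over `F`. -/
noncomputable def toF : Matrix (Fin 12) (Fin 12) (ZMod 2) →+* Matrix (Fin 12) (Fin 12) F :=
  haveI := charP_two (F := F)
  (ZMod.castHom (dvd_refl 2) F).mapMatrix

theorem toF_injective : Function.Injective (toF (F := F)) := by
  have := charP_two (F := F)
  intro a b h
  ext i j
  have h' : ZMod.castHom (dvd_refl 2) F (a i j) = ZMod.castHom (dvd_refl 2) F (b i j) :=
    congrFun (congrFun h i) j
  exact ZMod.castHom_injective F h'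

theorem toF_entry_sq (a : Matrix (Fin 12) (Fin 12) (ZMod 2)) (i j : Fin 12) :
    toF (F := F) a i j ^ 2 = toF (F := F) a i j := by
  have := charP_two (F := F)
  show ZMod.castHom (dvd_refl 2) F (a i j) ^ 2 = ZMod.castHom (dvd_refl 2) F (a i j)
  have h2 : ∀ x : ZMod 2, x ^ 2 = x := by decide
  rw [← map_pow, h2]

theorem sq_mulVec (a : Matrix (Fin 12) (Fin 12) (ZMod 2)) (v : Fin 12 → F) :
    toF a *ᵥ (fun i => v i ^ 2) = fun i => (toF a *ᵥ v) i ^ 2 := by
  have := charP_two (F := F)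
  funext i
  simp only [Matrix.mulVec, dotProduct]
  rw [sum_pow_char 2]
  simp only [mul_pow, toF_entry_sq]

namespace Ext

variable {A : Type*} [Group A] [Finite A] (R : Ext F A) (τ : A →* Matrix (Fin 12) (Fin 12) (ZMod 2))

/-- The matrix of an element over `F`. -/
noncomputable def M (a : A) : Matrix (Fin 12) (Fin 12) F :=
  have := R
  toF (τ a)

theorem M_mul (a b : A) : R.M τ (a * b) = R.M τ a * R.M τ b := by simp [M, map_mul]

theorem M_one : R.M τ 1 = 1 := by simp [M]

/-- A common eigenvector. -/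
def IsEig (χ : R.Ed → F) (v : Fin 12 → F) : Prop := v ≠ 0 ∧ ∀ a : R.Ed, R.M τ a *ᵥ v = χ a • v

/-- The occurring characters. -/
def Ch : Set (R.Ed → F) := {χ | ∃ v, R.IsEig τ χ v}

/-- Vectors that are eigenvectors for a list of elements. -/
def eigSet (l : List R.Ed) : Set (Fin 12 → F) := {v | ∀ a ∈ l, ∃ c : F, R.M τ a *ᵥ v = c • v}

theorem eig_span : ∀ l : List R.Ed, Submodule.span F (R.eigSet τ l) = ⊤
  | [] => by
    rw [show R.eigSet τ [] = Set.univ from Set.eq_univ_of_forall fun v a ha => absurd ha (List.not_mem_nil),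
      Submodule.span_univ]
  | a :: l => by
    rw [eq_top_iff, ← eig_span l, Submodule.span_le]
    intro v hv
    set X := R.M τ a with hX
    have h3 : X * (X * X) = 1 := by
      rw [hX, ← M_mul, ← M_mul, R.Ed_cube _ a.2, M_one]
    have hX3 : X *ᵥ (X *ᵥ (X *ᵥ v)) = v := by
      rw [Matrix.mulVec_mulVec, Matrix.mulVec_mulVec, mul_assoc, h3, Matrix.one_mulVec]
    let P : F → Fin 12 → F := fun μ => v + μ • (X *ᵥ v) + (μ * μ) • (X *ᵥ (X *ᵥ v))
    have hP : ∀ μ : F, μ * μ * μ = 1 → P μ ∈ R.eigSet τ (a :: l) := by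
      intro μ hμ b hb
      rcases List.mem_cons.1 hb with rfl | hb
      · refine ⟨μ * μ, ?_⟩
        rw [← hX]
        simp only [P, Matrix.mulVec_add, Matrix.mulVec_smul, hX3, smul_add, smul_smul, hμ,
          show μ * μ * (μ * μ) = μ by linear_combination μ * hμ, one_smul]
        abel
      · obtain ⟨c, hc⟩ := hv b hb
        have hc' : R.M τ b * X = X * R.M τ b := by
          rw [hX, ← M_mul, ← M_mul, R.Ed_comm _ b.2 _ a.2]
        refine ⟨c, ?_⟩
        simp only [P, Matrix.mulVec_add, Matrix.mulVec_smul]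
        have e1 : R.M τ b *ᵥ (X *ᵥ v) = c • (X *ᵥ v) := by
          rw [Matrix.mulVec_mulVec, hc', ← Matrix.mulVec_mulVec, hc, Matrix.mulVec_smul]
        have e2 : R.M τ b *ᵥ (X *ᵥ (X *ᵥ v)) = c • (X *ᵥ (X *ᵥ v)) := by
          rw [Matrix.mulVec_mulVec, hc', ← Matrix.mulVec_mulVec, e1, Matrix.mulVec_smul]
        rw [hc, e1, e2]
        simp only [smul_add, smul_smul, mul_comm]
    have hom' := hom (F := F)
    have htwo := two (F := F)
    have hω : (om : F) * om * om = 1 := cube_eq_one om_ne_zero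
    have hs : v = P 1 + P om + P (om * om) := by
      funext i
      simp only [P, Pi.add_apply, Pi.smul_apply, smul_eq_mul]
      have e1 : (om : F) * om + om + 1 = 0 := by linear_combination hom' + (om + 1) * htwo
      have e2 : (om : F) * om * (om * om) + om * om + 1 = 0 := by linear_combination om * hω + e1
      linear_combination (-((X *ᵥ v) i)) * e1 - ((X *ᵥ (X *ᵥ v)) i) * e2 - (v i) * htwo
    rw [hs]
    refine add_mem (add_mem (Submodule.subset_span (hP 1 (by ring))) (Submodule.subset_span (hP _ hω)))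
      (Submodule.subset_span (hP _ ?_))
    linear_combination (om * om * om + 1) * hω

theorem span_Ch : Submodule.span F {v | ∃ χ, R.IsEig τ χ v} = ⊤ := by
  classical
  have : Fintype R.Ed := Fintype.ofFinite _
  rw [eq_top_iff, ← R.eig_span τ (Finset.univ.toList), Submodule.span_le]
  intro v hv
  by_cases h0 : v = 0
  · rw [h0]; exact zero_mem _
  choose χ hχ using fun a : R.Ed => hv a (Finset.mem_toList.2 (Finset.mem_univ a))
  exact Submodule.subset_span ⟨χ, h0, hχ⟩

theorem ext_of_Ch {X Y : Matrix (Fin 12) (Fin 12) F}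
    (h : ∀ χ v, R.IsEig τ χ v → X *ᵥ v = Y *ᵥ v) : X = Y := by
  have : ∀ v, X *ᵥ v = Y *ᵥ v := fun v => by
    have hv : v ∈ Submodule.span F {v | ∃ χ, R.IsEig τ χ v} := by rw [span_Ch]; exact Submodule.mem_top
    induction hv using Submodule.span_induction with
    | mem x hx => obtain ⟨χ, hx⟩ := hx; exact h χ x hx
    | zero => rw [Matrix.mulVec_zero, Matrix.mulVec_zero]
    | add x y _ _ hx hy => rw [Matrix.mulVec_add, Matrix.mulVec_add, hx, hy]
    | smul c x _ hx => rw [Matrix.mulVec_smul, Matrix.mulVec_smul, hx]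
  exact Matrix.ext_of_mulVec_single fun i => this _

variable {R τ}

theorem Ch_mul {χ : R.Ed → F} (hχ : χ ∈ R.Ch τ) (a b : R.Ed) : χ (a * b) = χ a * χ b := by
  obtain ⟨v, hv0, hv⟩ := hχ
  refine smul_left_injective F hv0 ?_
  show χ (a * b) • v = (χ a * χ b) • v
  rw [← hv, Subgroup.coe_mul, M_mul, ← Matrix.mulVec_mulVec, hv, Matrix.mulVec_smul, hv, smul_smul, mul_comm]

theorem Ch_one {χ : R.Ed → F} (hχ : χ ∈ R.Ch τ) : χ 1 = 1 := by
  obtain ⟨v, hv0, hv⟩ := hχ
  refine smul_left_injective F hv0 ?_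
  show χ 1 • v = (1 : F) • v
  rw [← hv, Subgroup.coe_one, M_one, Matrix.one_mulVec, one_smul]

theorem Ch_cube {χ : R.Ed → F} (hχ : χ ∈ R.Ch τ) (a : R.Ed) : χ a * χ a * χ a = 1 := by
  rw [← Ch_mul hχ, ← Ch_mul hχ, show a * a * a = 1 from Subtype.ext (by
    show a.1 * a.1 * a.1 = 1
    rw [mul_assoc]; exact R.Ed_cube _ a.2), Ch_one hχ]

theorem Ch_conj {χ : R.Ed → F} (hχ : χ ∈ R.Ch τ) {n : A} (hn : n ∈ R.Nm) :
    (fun a : R.Ed => χ ⟨n * a * n⁻¹, R.Nm_conj hn a.2⟩) ∈ R.Ch τ := by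
  obtain ⟨v, hv0, hv⟩ := hχ
  refine ⟨R.M τ n⁻¹ *ᵥ v, fun h => hv0 ?_, fun a => ?_⟩
  · have := congrArg (R.M τ n *ᵥ ·) h
    simpa [Matrix.mulVec_mulVec, ← M_mul, M_one] using this
  · rw [Matrix.mulVec_mulVec, ← M_mul, show a.1 * n⁻¹ = n⁻¹ * (n * a.1 * n⁻¹) by group, M_mul,
      ← Matrix.mulVec_mulVec, hv ⟨n * a.1 * n⁻¹, R.Nm_conj hn a.2⟩, Matrix.mulVec_smul]

theorem Ch_sq {χ : R.Ed → F} (hχ : χ ∈ R.Ch τ) : (fun a => χ a * χ a) ∈ R.Ch τ := by
  obtain ⟨v, hv0, hv⟩ := hχ
  refine ⟨fun i => v i ^ 2, fun h => hv0 (funext fun i => ?_), fun a => ?_⟩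
  · exact pow_eq_zero_iff (two_ne_zero) |>.1 (congrFun h i)
  · show toF (τ a) *ᵥ _ = _
    rw [sq_mulVec]
    funext i
    rw [show (toF (τ a) *ᵥ v) i = χ a * v i from congrFun (hv a) i]
    simp only [Pi.smul_apply, smul_eq_mul]
    ring

theorem Ch_sep (hτ : Function.Injective τ) {a : R.Ed} (ha : ∀ χ ∈ R.Ch τ, χ a = 1) : a = 1 := by
  refine Subtype.ext (hτ ?_)
  rw [Subgroup.coe_one, map_one]
  refine toF_injective (F := F) ?_
  rw [map_one]
  exact R.ext_of_Ch τ fun χ v hv => by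
    rw [show toF (τ a) *ᵥ v = R.M τ a *ᵥ v from rfl, hv.2, ha χ ⟨v, hv⟩, one_smul, Matrix.one_mulVec]

theorem orth {χ ψ : R.Ed → F} [Fintype R.Ed] (hχ : χ ∈ R.Ch τ) (hψ : ψ ∈ R.Ch τ) (hne : χ ≠ ψ) :
    ∑ a : R.Ed, ψ a * ψ a * χ a = 0 := by
  obtain ⟨b, hb⟩ : ∃ b, ψ b * ψ b * χ b ≠ 1 := by
    by_contra hc
    push Not at hc
    exact hne (funext fun a => by linear_combination ψ a * hc a - χ a * Ch_cube hψ a)
  have h : (ψ b * ψ b * χ b) * ∑ a : R.Ed, ψ a * ψ a * χ a = ∑ a : R.Ed, ψ a * ψ a * χ a := by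
    rw [Finset.mul_sum]
    refine Eq.trans ?_ (Equiv.sum_comp (Equiv.mulLeft b) fun a => ψ a * ψ a * χ a)
    refine Finset.sum_congr rfl fun a _ => ?_
    simp only [Equiv.coe_mulLeft, Ch_mul hχ, Ch_mul hψ]
    ring
  by_contra h0
  exact hb (mul_right_cancel₀ h0 (h.trans (one_mul _).symm))

theorem card_Ch_le : Nat.card (R.Ch τ) ≤ 12 := by
  classical
  have : Fintype R.Ed := Fintype.ofFinite _
  have : Fintype (R.Ch τ) := Fintype.ofFinite _
  choose v hv0 hv using fun χ : R.Ch τ => χ.2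
  have hli : LinearIndependent F v := by
    rw [Fintype.linearIndependent_iff]
    intro c hc ψ
    have h1 : ∀ a : R.Ed, ∑ χ : R.Ch τ, (c χ * χ.1 a) • v χ = 0 := fun a => by
      have := congrArg (R.M τ a *ᵥ ·) hc
      simp only [Matrix.mulVec_sum, Matrix.mulVec_smul, hv, smul_smul, Matrix.mulVec_zero] at this
      exact this
    have h2 : ∑ χ : R.Ch τ, (c χ * ∑ a : R.Ed, ψ.1 a * ψ.1 a * χ.1 a) • v χ = 0 := by
      simp only [Finset.mul_sum, Finset.sum_smul]
      rw [Finset.sum_comm]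
      refine Finset.sum_eq_zero fun a _ => ?_
      have := congrArg ((ψ.1 a * ψ.1 a) • ·) (h1 a)
      simp only [Finset.smul_sum, smul_smul, smul_zero] at this
      refine Eq.trans (Finset.sum_congr rfl fun χ _ => ?_) this
      ring_nf
    rw [Finset.sum_eq_single ψ] at h2
    · have h243 : ∑ a : R.Ed, ψ.1 a * ψ.1 a * ψ.1 a = 1 := by
        simp only [Ch_cube ψ.2, Finset.sum_const, Finset.card_univ, ← Nat.card_eq_fintype_card, R.card_Ed,
          nsmul_one]
        push_cast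
        linear_combination (121 : F) * two (F := F)
      rw [h243, mul_one] at h2
      exact (smul_eq_zero.1 h2).resolve_right (hv0 ψ)
    · intro χ _ hne
      rw [orth χ.2 ψ.2 (fun e => hne (Subtype.ext e)), mul_zero, zero_smul]
    · exact fun h => absurd (Finset.mem_univ _) h
  have := hli.fintype_card_le_finrank
  rwa [← Nat.card_eq_fintype_card, Module.finrank_pi, Fintype.card_fin] at this

end Ext

end Cfsg.Agent.H8.LFT
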