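/-!
# Data for the fusion of inner involutions
-/

set_option autoImplicit false

namespace Cfsg.Agent.H8.LFT

/-- The sixty four vectors of the intersection. -/
def uL : List Nat :=
  [0,13,49,60,193,204,240,253,769,780,816,829,960,973,1009,1020,1366,1371,1383,1386,1431,1434,1446,1451,1623,1626,1638,1643,1686,1691,1703,1706,2391,2394,2406,2411,2454,2459,2471,2474,2646,2651,2663,2666,2711,2714,2726,2731,3073,3084,3120,3133,3264,3277,3313,3324,3840,3853,3889,3900,4033,4044,4080,4093]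

/-- Preimages of the commutator spaces. -/
def eLs : List (List Nat) :=
  [[0],[0,1,2,3,4,5,6,7,8,9,10,11,12,13,14,15],[0,1,2,3,4,5,6,7,8,9,10,11,12,13,14,15],[0,1,2,3,16,17,18,19,32,33,34,35,48,49,50,51],[0,1,2,3,256,257,258,259,512,513,514,515,768,769,770,771],[0,1,2,3,4,5,6,7,8,9,10,11,12,13,14,15],[0,1,2,3,16,17,18,19,32,33,34,35,48,49,50,51],[0,1,2,3,4,5,6,7,8,9,10,11,12,13,14,15],[0,1,2,3,64,65,66,67,128,129,130,131,192,193,194,195],[0,1,2,3,16,17,18,19,32,33,34,35,48,49,50,51],[0,1,2,3,4,5,6,7,8,9,10,11,12,13,14,15],[0,1,2,3,16,17,18,19,32,33,34,35,48,49,50,51],[0,1,2,3,4,5,6,7,8,9,10,11,12,13,14,15],[0,1,2,3,4,5,6,7,8,9,10,11,12,13,14,15],[0,1,2,3,64,65,66,67,128,129,130,131,192,193,194,195],[0,1,2,3,4,5,6,7,8,9,10,11,12,13,14,15]]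

/-- Conjugating words for involutions: target and generators. -/
def invW : List (Nat × List Nat) :=
  [(9,[1,0,3,2,2]),(8,[1,0,3,2,2]),(10,[1,3]),(8,[3,2,0,2]),(11,[1,0,3,2,2]),(4,[1,0,0,3,0]),(12,[3,2,2,2,0]),(1,[]),(12,[3,2,0,2]),(2,[]),(7,[0,2,0,2,0,3,1]),(14,[1,0,3,2,2]),(4,[1,0,3,2,2]),(15,[3,2,0,2,1,3]),(3,[]),(14,[3,2,0,2]),(4,[]),(5,[]),(11,[3,2,2,2,0]),(3,[1,0,3,2,2]),(15,[3,2,0,2]),(6,[]),(7,[]),(8,[]),(9,[]),(4,[1,3]),(10,[3,2,0,2]),(10,[1,0,0,3,0]),(10,[]),(11,[]),(12,[]),(4,[3,2,0,2]),(13,[]),(14,[]),(15,[])]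

end Cfsg.Agent.H8.LFT
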