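import Cfsg.Agent.H8.LFT.Check
import Cfsg.Agent.H8.LFT.FuseData

/-!
# Checks for the fusion of inner involutions
-/

set_option autoImplicit false

namespace Cfsg.Agent.H8.LFT

open Cfsg.Agent.H8.U62

/-- The vectors moved by every element of the list into the seed line. -/
def uOK : Bool :=
  Nat.beq uL.length 64 && force (maskL uL) fun m => (List.range 4096).all fun x =>
    m.testBit x || e16.any fun A => force (Nat.xor (mvC A x) x) fun d => !(Nat.beq d 0 || Nat.beq d 1366)

/-- The vectors of the intersection translated by a commutator space. -/
def sMask (A : ℕ) (el : List ℕ) : ℕ :=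
  forceL (el.map fun e => Nat.xor (mvC A e) e) fun im => maskL (uL.flatMap fun u => im.map fun i => Nat.xor u i)

/-- Three facts about one involution of the list. -/
def coreOne (A : ℕ) (el : List ℕ) : Bool :=
  (uL.any fun u => Nat.beq (Nat.xor (mvC A u) u) 1366) &&
  (forceL ((List.range 4096).filter fun x => Nat.beq (mvC A x) x) fun C =>
    forceL (uL.filter fun u => Nat.beq (mvC A u) u) fun UC => force (sMask A el) fun S =>
      C.all fun x =>
        ((UC.any fun r => !((orthC (Nat.xor x r) (Nat.xor x r)) == (orthC x x))) || (S.testBit x && orthC x x)) &&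
        (!(orthC x x) || S.testBit x || S.testBit (sW x) || S.testBit (sW (sW x))))

/-- The facts for all fifteen involutions of the list. -/
def coreOK : Bool :=
  Nat.beq e16.length 16 && Nat.beq eLs.length 16 &&
    (List.range 16).all fun i => force (e16.getD i 0) fun A => Nat.beq A oneC || coreOne A (eLs.getD i [])

/-- A product of generators. -/
def genWord : List ℕ → ℕ
  | [] => oneC
  | k :: l => mmC ((subGenC 0).getD k oneC) (genWord l)

/-- A conjugation equation. -/
def conjTo (p : ℕ) (w : ℕ × List ℕ) : Bool :=
  force (genWord w.2) fun W => force (e16.getD w.1 oneC) fun o =>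
    Nat.beq (nrmC (mmC W p)) (nrmC (mmC o W))

/-- Every involution of the large Sylow subgroup is conjugate into the list. -/
def invOK : Bool :=
  Nat.beq e16.length 16 &&
    (sylL 2).all fun p => !(Nat.beq (nrmC (mmC p p)) oneC) || (invW.any fun w => Nat.blt w.1 16 && conjTo p w) ||
      Nat.beq (nrmC p) oneC

theorem u_ok : uOK = true := by decide +kernel

theorem core_ok : coreOK = true := by decide +kernel

theorem inv_ok : invOK = true := by decide +kernel

end Cfsg.Agent.H8.LFT
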