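import Cfsg.Agent.H8.LFT.OrbitStab
import Cfsg.Agent.H8.LFT.FuseCheck

/-!
# The vectors attached to the normal two subgroup of the second stabiliser
-/

set_option autoImplicit false
set_option linter.unusedSectionVars false
set_option maxRecDepth 20000

namespace Cfsg.Agent.H8.LFT

open Matrix Cfsg.Agent.H8.U62 Cfsg.Agent.H8.U62.Setup

variable {F : Type} [Setup F]

/-- The sixty four vectors. -/
def InU (x : Fin 6 → F) : Prop := ∃ u ∈ uL, vecF (om : F) u = x

/-- The translates by a commutator space. -/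
def InS (A : ℕ) (x : Fin 6 → F) : Prop :=
  ∃ u e : Fin 6 → F, InU u ∧ x = u + (matF (om : F) A *ᵥ e + e)

theorem add_self' (x : Fin 6 → F) : x + x = 0 := funext fun i => by
  show x i + x i = 0
  linear_combination (x i) * two (F := F)

theorem eq_of_add_zero {x y : Fin 6 → F} (h : x + y = 0) : x = y := by
  calc x = x + (y + y) := by rw [add_self', add_zero]
    _ = (x + y) + y := (add_assoc _ _ _).symm
    _ = y := by rw [h, zero_add]

theorem InU.ncard_le : {x : Fin 6 → F | InU x}.ncard ≤ 64 := by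
  classical
  have h := u_ok
  simp only [uOK, force_eq, Bool.and_eq_true] at h
  have : {x : Fin 6 → F | InU x} = ↑(uL.toFinset.image (vecF (om : F))) := by
    ext x; simp [InU]
  rw [this, Set.ncard_coe_finset]
  refine le_trans Finset.card_image_le (le_trans (List.toFinset_card_le _) ?_)
  rw [Nat.eq_of_beq_eq_true h.1]

theorem InU.finite : {x : Fin 6 → F | InU x}.Finite := Set.toFinite _

theorem u_full {x : Fin 6 → F}
    (hx : ∀ A ∈ e16, matF (om : F) A *ᵥ x + x = 0 ∨ matF (om : F) A *ᵥ x + x = seedF 1) : InU x := by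
  obtain ⟨v, hv, rfl⟩ := exists_vecF x
  have h := u_ok
  simp only [uOK, force_eq, Bool.and_eq_true, List.all_eq_true, List.mem_range, Bool.or_eq_true, testBit_maskL,
    List.any_eq_true] at h
  rcases h.2 v hv with hm | ⟨A, hA, hd⟩
  · exact ⟨v, hm, rfl⟩
  exfalso
  have hlt : Nat.xor (mvC A v) v < 4096 := Nat.xor_lt_two_pow (n := 12) (mvN_lt _ (hom (F := F)) two 6 A v) hv
  have e : vecF (om : F) (Nat.xor (mvC A v) v) = matF (om : F) A *ᵥ vecF om v + vecF om v := by
    rw [vecF_xor _ hom two, vecF_mvC _ hom two]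
  rcases hx A hA with e' | e'
  · have : Nat.xor (mvC A v) v = 0 := code_inj (F := F) hlt (by norm_num) (by rw [e, e', vecF_zero _ hom two])
    rw [this] at hd; simp at hd
  · have : Nat.xor (mvC A v) v = 1366 := code_inj (F := F) hlt (by norm_num) (by rw [e, e']; rfl)
    rw [this] at hd; simp at hd

theorem mem_sMask {A : ℕ} {el : List ℕ} {y : ℕ} (h : (sMask A el).testBit y = true) :
    InS A (vecF (om : F) y) := by
  simp only [sMask, forceL_eq, testBit_maskL, List.mem_flatMap, List.mem_map] at h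
  obtain ⟨u, hu, i, ⟨e, -, rfl⟩, rfl⟩ := h
  exact ⟨vecF om u, vecF om e, ⟨u, hu, rfl⟩, by
    rw [vecF_xor _ hom two, vecF_xor _ hom two, vecF_mvC _ hom two]⟩

/-- The three facts about an involution of the list. -/
theorem core_facts {i : ℕ} (hi : i < 16) (hne : e16.getD i 0 ≠ oneC) :
    (∃ u : Fin 6 → F, InU u ∧ matF (om : F) (e16.getD i 0) *ᵥ u + u = seedF 1) ∧
    (∀ x : Fin 6 → F, matF (om : F) (e16.getD i 0) *ᵥ x = x →
      (∀ r : Fin 6 → F, InU r → matF (om : F) (e16.getD i 0) *ᵥ r = r →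
        (hermForm 6 F 2 (x + r) (x + r) = 0 ↔ hermForm 6 F 2 x x = 0)) →
      InS (e16.getD i 0) x ∧ hermForm 6 F 2 x x = 0) ∧
    (∀ x : Fin 6 → F, matF (om : F) (e16.getD i 0) *ᵥ x = x → hermForm 6 F 2 x x = 0 →
      InS (e16.getD i 0) x ∨ InS (e16.getD i 0) ((om : F) • x) ∨
        InS (e16.getD i 0) ((om : F) • (om : F) • x)) := by
  have h := core_ok
  simp only [coreOK, force_eq, Bool.and_eq_true, List.all_eq_true, List.mem_range, Bool.or_eq_true] at h
  have h' := (h.2 i hi).resolve_left fun e => hne (Nat.eq_of_beq_eq_true e)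
  generalize e16.getD i 0 = A at h' ⊢
  simp only [coreOne, forceL_eq, force_eq, Bool.and_eq_true, List.any_eq_true, List.all_eq_true,
    List.mem_filter, List.mem_range, Bool.or_eq_true, Bool.not_eq_true'] at h'
  obtain ⟨⟨u, hu, hu'⟩, hC⟩ := h'
  have hfix : ∀ v < 4096, matF (om : F) A *ᵥ vecF om v = vecF om v → Nat.beq (mvC A v) v = true := fun v hv e => by
    rw [← vecF_mvC _ hom two] at e
    have e2 : mvC A v = v := code_inj (F := F) (mvN_lt _ (hom (F := F)) two 6 A v) hv e
    rw [e2]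
    exact Nat.beq_refl v
  refine ⟨⟨vecF om u, ⟨u, hu, rfl⟩, ?_⟩, fun x hx hr => ?_, fun x hx hs => ?_⟩
  · rw [← vecF_mvC _ hom two, ← vecF_xor _ hom two, Nat.eq_of_beq_eq_true hu']
    rfl
  · obtain ⟨v, hv, rfl⟩ := exists_vecF x
    rcases (hC v ⟨hv, hfix v hv hx⟩).1 with ⟨r, ⟨hru, hrf⟩, hne'⟩ | ⟨hs, hsing⟩
    · exfalso
      have := hr (vecF om r) ⟨r, hru, rfl⟩ (by rw [← vecF_mvC _ hom two, Nat.eq_of_beq_eq_true hrf])
      rw [← vecF_xor _ hom two, hermForm_eq_zero_iff _ hom two, hermForm_eq_zero_iff _ hom two] at this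
      revert hne' this
      cases orthC (Nat.xor v r) (Nat.xor v r) <;> cases orthC v v <;> simp
    · exact ⟨mem_sMask hs, (hermForm_eq_zero_iff _ hom two).2 hsing⟩
  · obtain ⟨v, hv, rfl⟩ := exists_vecF x
    have hs' := (hermForm_eq_zero_iff _ hom two).1 hs
    rcases (hC v ⟨hv, hfix v hv hx⟩).2 with ((e | e) | e) | e
    · rw [hs'] at e; cases e
    · exact Or.inl (mem_sMask e)
    · exact Or.inr (Or.inl (by rw [← vecF_sW _ hom two]; exact mem_sMask e))
    · exact Or.inr (Or.inr (by rw [← vecF_sW _ hom two, ← vecF_sW _ hom two]; exact mem_sMask e))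

theorem nrmC_oneC : nrmC oneC = oneC := by decide +kernel

theorem real_genWord : ∀ l : List ℕ, Real (sub (F := F) 0) (genWord l)
  | [] => Real.one _
  | k :: l => (Real.getD (real_subGenC 0) k).mmC (real_genWord l)

/-- Every involution of the first subgroup is conjugate into the list. -/
theorem conj_into_e16 {x : SU6 F} (hx : x ∈ sub 0) (h2 : x * x = 1) (h1 : x ≠ 1) :
    ∃ w ∈ sub (F := F) 0, ∃ i < 16, mat (w * x * w⁻¹) = matF (om : F) (e16.getD i 0) := by
  classical
  obtain ⟨P, hP, hPc, hPm⟩ := exists_syl (F := F) 2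
  have hc : Nat.card P = 128 := hPc
  have hPs : P ≤ sub (F := F) 0 := fun p hp => (mem_vst.1 (hP hp)).1
  let P' : Subgroup (sub (F := F) 0) := P.subgroupOf (sub 0)
  have hc' : Nat.card P' = 2 ^ 7 := by
    rw [Nat.card_congr (Subgroup.subgroupOfEquivOfLe hPs).toEquiv, hc]
    norm_num
  have hndvd : ¬ 2 ∣ P'.index := by
    have h := P'.card_mul_index
    rw [hc', card_sub] at h
    rw [show P'.index = 76545 by norm_num at h; omega]
    norm_num
  haveI : Fact (Nat.Prime 2) := ⟨Nat.prime_two⟩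
  let S' : Sylow 2 (sub (F := F) 0) := (IsPGroup.of_card hc').toSylow hndvd
  have hxp : IsPGroup 2 (Subgroup.zpowers (⟨x, hx⟩ : sub (F := F) 0)) := by
    refine IsPGroup.of_card (n := 1) ?_
    rw [Nat.card_zpowers, pow_one]
    refine orderOf_eq_prime (Subtype.ext ?_) fun e => h1 (congrArg Subtype.val e)
    show ((⟨x, hx⟩ : sub (F := F) 0) ^ 2).1 = 1
    rw [pow_two]
    exact h2
  obtain ⟨T, hT⟩ := hxp.exists_le_sylow
  obtain ⟨c, hc2⟩ := MulAction.exists_smul_eq (sub (F := F) 0) T S'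
  have hmem : c * ⟨x, hx⟩ * c⁻¹ ∈ (S' : Subgroup (sub (F := F) 0)) := by
    rw [← hc2, Sylow.coe_subgroup_smul]
    exact Subgroup.smul_mem_pointwise_smul _ (MulAut.conj c) _ (hT (Subgroup.mem_zpowers _))
  set p : SU6 F := c.1 * x * c.1⁻¹ with hpdef
  have hp : p ∈ P := hmem
  obtain ⟨a, ha, hea⟩ := hPm p hp
  have hp2 : p * p = 1 := by
    rw [hpdef, show c.1 * x * c.1⁻¹ * (c.1 * x * c.1⁻¹) = c.1 * (x * x) * c.1⁻¹ by group, h2]
    group
  have h := inv_ok
  simp only [invOK, Bool.and_eq_true, List.all_eq_true, Bool.or_eq_true, Bool.not_eq_true',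
    List.any_eq_true] at h
  rcases h.2 a ha with (e | ⟨w, -, hw, hconj⟩) | e
  · exfalso
    refine Bool.false_ne_true (e.symm.trans ?_)
    rw [← nrmC_oneC, code_col_eq (F := F) (A := mmC a a) (B := oneC)]
    · exact Nat.beq_refl _
    · rw [matF_mmC _ hom two, ← hea, ← mat_mul, hp2, mat_one, matF_oneC _ hom two]
  · simp only [conjTo, force_eq] at hconj
    obtain ⟨W, hW, hWm⟩ := real_genWord (F := F) w.2
    have hw16 : w.1 < 16 := Nat.le_of_ble_eq_true hw
    refine ⟨W * c.1, mul_mem hW c.2, w.1, hw16, ?_⟩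
    have hlen : w.1 < e16.length := by rw [Nat.eq_of_beq_eq_true h.1]; exact hw16
    have e2 : mat W * mat p = matF (om : F) (e16.getD w.1 0) * mat W := by
      rw [hWm, hea, ← matF_mmC _ hom two, ← matF_mmC _ hom two, ← matF_nrmC (mmC (genWord w.2) a),
        ← matF_nrmC (mmC (e16.getD w.1 0) (genWord w.2)), Nat.eq_of_beq_eq_true hconj,
        List.getD_eq_getElem _ _ hlen, List.getD_eq_getElem _ _ hlen]
    rw [show W * c.1 * x * (W * c.1)⁻¹ = W * p * W⁻¹ by rw [hpdef]; group, mat_mul, mat_mul, e2,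
      mul_assoc, ← mat_mul, mul_inv_cancel, mat_one, mul_one]
  · exfalso
    refine h1 ?_
    have : p = 1 := ext_mat (by
      rw [hea, ← matF_nrmC a, Nat.eq_of_beq_eq_true e, matF_oneC _ hom two, mat_one])
    calc x = c.1⁻¹ * p * c.1 := by rw [hpdef]; group
      _ = 1 := by rw [this]; group

end Cfsg.Agent.H8.LFT
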