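import Cfsg.Agent.H8.LFT.Semi
import Cfsg.Agent.H8.LFT.FuseVec

/-!
# Inner involutions are fused into `Q`
-/

set_option autoImplicit false
set_option linter.unusedSectionVars false
set_option maxRecDepth 20000

namespace Cfsg.Agent.H8.LFT

open Matrix Cfsg.Agent.H8.U62 Cfsg.Agent.H8.U62.Setup

variable {G : Type*} [Group G] [Finite G] {z : G} {Q : Subgroup (Subgroup.centralizer ({z} : Set G))} [Q.Normal]
  {F : Type} [Setup F]

/-- Conjugate in the whole group into `Q`. -/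
def Fused (Q : Subgroup (Subgroup.centralizer ({z} : Set G))) (a : G) : Prop := ∃ x : G, x * a * x⁻¹ ∈ EE Q

theorem Fused.of_conj {a : G} (y : G) (h : Fused Q (y * a * y⁻¹)) : Fused Q a := by
  obtain ⟨x, hx⟩ := h
  refine ⟨x * y, ?_⟩
  rwa [show x * y * a * (x * y)⁻¹ = x * (y * a * y⁻¹) * x⁻¹ by group]

theorem central_comm {c : Q} (hc : gv c = 1 ∨ gv c = z) (h : Subgroup.centralizer ({z} : Set G)) :
    (c : Subgroup.centralizer ({z} : Set G)) * h = h * c := by
  refine Subtype.ext ?_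
  show gv c * (h : G) = (h : G) * gv c
  rcases hc with e | e <;> rw [e]
  · rw [one_mul, mul_one]
  · exact (Subgroup.mem_centralizer_singleton_iff.1 h.2).symm

theorem cj_of_central {c : Q} (hc : gv c = 1 ∨ gv c = z) (q : Q) :
    cj (c : Subgroup.centralizer ({z} : Set G)) q = q := Subtype.ext (by
  show (c : Subgroup.centralizer ({z} : Set G)) * q.1 * (c : Subgroup.centralizer ({z} : Set G))⁻¹ = q.1
  rw [central_comm hc, mul_inv_cancel_right])

theorem cj_central' {c : Q} (hc : gv c = 1 ∨ gv c = z) (h : Subgroup.centralizer ({z} : Set G)) : cj h c = c :=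
  Subtype.ext (by
    show h * c.1 * h⁻¹ = c.1
    rw [← central_comm hc, mul_inv_cancel_right])

/-- A frame for the fusion argument: a conjugate of `z` whose vector is the second seed. -/
structure Frame {Q : Subgroup (Subgroup.centralizer ({z} : Set G))} [Q.Normal] (D : Model z Q F) (g : G) (s : Q) :
    Prop where
  hgs : g * z * g⁻¹ = gv s
  hne : gv s ≠ z
  hv : D.v s = seedF 1

namespace Model

variable (D : Model z Q F)

theorem exists_frame (g0 : G) (s0 : Q) (hgs : g0 * z * g0⁻¹ = gv s0) (hne : gv s0 ≠ z) :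
    ∃ g s, Frame D g s := by
  obtain ⟨⟨γ, hγ, hγs⟩, -, -⟩ := D.local_structure g0 s0 hgs hne
  obtain ⟨m, hm⟩ := D.exists_rho (inv_mem hγ)
  refine ⟨((m : Subgroup.centralizer ({z} : Set G)) : G) * g0, cj (m : Subgroup.centralizer ({z} : Set G)) s0, ?_, ?_, ?_⟩
  · rw [gv_cj, ← hgs]; group
  · rw [gv_cj]
    intro e
    refine hne ?_
    have hz := Subgroup.mem_centralizer_singleton_iff.1 (m : Subgroup.centralizer ({z} : Set G)).2
    calc gv s0 = ((m : Subgroup.centralizer ({z} : Set G)) : G)⁻¹ *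
          (((m : Subgroup.centralizer ({z} : Set G)) : G) * gv s0 * ((m : Subgroup.centralizer ({z} : Set G)) : G)⁻¹) *
          ((m : Subgroup.centralizer ({z} : Set G)) : G) := by group
      _ = z := by rw [e, mul_assoc, ← hz, inv_mul_cancel_left]
  · rw [D.v_conj, hm, ← smul_def, ← hγs, inv_smul_smul]
    rfl

theorem v_cj_sub (u : Q) (q : Q) : D.v (cj (u : Subgroup.centralizer ({z} : Set G)) q) = D.v q :=
  D.Q_le_St q u.2

/-- The elements realising the normal two subgroup of the stabiliser. -/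
theorem exists_realiser {g : G} {s : Q} (hf : Frame D g s) {i : ℕ} (hi : i < 16) :
    ∃ d : D.M, (d : Subgroup.centralizer ({z} : Set G)) ∈ DG Q g ∧
      mat (D.ρ d) = matF (om : F) (e16.getD i 0) := by
  classical
  obtain ⟨-, hloc, -⟩ := D.local_structure g s hf.hgs hf.hne
  have hE := D.sing.conj g
  let DM : Subgroup D.M := (DG Q g).subgroupOf D.M
  let P : Subgroup (SU6 F) := DM.map D.ρ
  have hPle : P ≤ vst 1 := by
    rintro _ ⟨d, hd, rfl⟩
    refine mem_vst.2 ⟨D.ρ_range ▸ ⟨d, rfl⟩, ?_⟩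
    rw [smul_def, ← hf.hv, ← D.v_conj]
    refine congrArg D.v (gv_injective ?_)
    have hfix := hloc.fix (d : Subgroup.centralizer ({z} : Set G)) (Subgroup.mem_subgroupOf.1 hd)
    rw [gv_cj, ← hf.hgs, hfix, mul_inv_cancel_right]
  have hsq : ∀ d : D.M, d ∈ DM → D.ρ (d * d) = 1 := by
    intro d hd
    refine (D.ρ_ker _).2 ?_
    have h2 := hE.sq (Subgroup.mem_inf.1 (Subgroup.mem_subgroupOf.1 (Subgroup.mem_subgroupOf.1 hd))).1
    rcases hE.pair h2 with e | e
    · rw [show ((d * d : D.M) : Subgroup.centralizer ({z} : Set G)) = 1 from Subtype.ext e]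
      exact one_mem _
    · rw [show ((d * d : D.M) : Subgroup.centralizer ({z} : Set G)) = s.1 from Subtype.ext (e.trans hf.hgs)]
      exact s.2
  have hP2 : IsPGroup 2 P := by
    rintro ⟨_, d, hd, rfl⟩
    exact ⟨1, Subtype.ext (by show (D.ρ d) ^ (2 ^ 1) = 1; rw [pow_one, pow_two, ← map_mul]; exact hsq d hd)⟩
  have hPn : ∀ x ∈ vst (F := F) 1, ∀ p ∈ P, x * p * x⁻¹ ∈ P := by
    intro x hx p hp
    obtain ⟨d, hd, rfl⟩ := hp
    obtain ⟨k, rfl⟩ := D.exists_rho (mem_vst.1 hx).1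
    have hk : D.v (cj (k : Subgroup.centralizer ({z} : Set G)) s) = D.v s := by
      rw [D.v_conj, hf.hv, ← smul_def]; exact (mem_vst.1 hx).2
    have hs1 : gv s ≠ 1 := fun e => hE.xne (by rw [hf.hgs]; exact e)
    obtain ⟨u, hu, e⟩ := D.exists_exact hk hs1 hf.hne
    rw [cj_cj] at e
    have hc : ((u * k : Subgroup.centralizer ({z} : Set G)) : G) * (g * z * g⁻¹) =
        g * z * g⁻¹ * ((u * k : Subgroup.centralizer ({z} : Set G)) : G) := by
      rw [hf.hgs]
      have := congrArg gv e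
      rw [gv_cj] at this
      exact mul_inv_eq_iff_eq_mul.1 this
    have hd' := hloc.normalised _ hc _ (Subgroup.mem_subgroupOf.1 hd)
    have hn := D.normal
    let u' : D.M := ⟨u, D.le hu⟩
    refine ⟨u' * k * d * (u' * k)⁻¹, Subgroup.mem_subgroupOf.2 hd', ?_⟩
    rw [map_mul, map_mul, map_mul, map_inv, map_mul, show D.ρ u' = 1 from (D.ρ_ker u').2 hu, one_mul]
  have h16 : 16 ≤ Nat.card P := by
    let E := (DG Q g).map (QuotientGroup.mk' Q)
    let Mb := D.M.map (QuotientGroup.mk' Q)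
    have h2 : Nat.card E ≤ 2 * Nat.card ↥(E ⊓ Mb) := by
      refine H18.card_le_two_mul fun a ha b hb haM hbM => ⟨E.mul_mem (E.inv_mem ha) hb, ?_⟩
      obtain ⟨a', ha', rfl⟩ := ha
      obtain ⟨b', hb', rfl⟩ := hb
      refine ⟨a'⁻¹ * b', (Subgroup.mul_mem_iff_of_index_two D.index).2 ?_, by rw [map_mul, map_inv]⟩
      have ha'' : a' ∉ D.M := fun h => haM ⟨⟨a', ha', rfl⟩, ⟨a', h, rfl⟩⟩
      have hb'' : b' ∉ D.M := fun h => hbM ⟨⟨b', hb', rfl⟩, ⟨b', h, rfl⟩⟩
      simp [Subgroup.inv_mem_iff, ha'', hb'']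
    have key : ∀ x : ↥(E ⊓ Mb), ∃ d : D.M, d ∈ DM ∧
        QuotientGroup.mk' Q (d : Subgroup.centralizer ({z} : Set G)) = x.1 := by
      rintro ⟨x, ⟨d, hd, e⟩, m, hm, e'⟩
      have hq : m⁻¹ * d ∈ Q := QuotientGroup.eq.1 (e'.trans e.symm)
      have hdM : d ∈ D.M := by
        have := D.M.mul_mem hm (D.le hq)
        rwa [mul_inv_cancel_left] at this
      exact ⟨⟨d, hdM⟩, Subgroup.mem_subgroupOf.2 hd, e⟩
    choose f hf1 hf2 using key
    have h3 : Nat.card ↥(E ⊓ Mb) ≤ Nat.card P := by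
      refine Nat.card_le_card_of_injective (fun x => (⟨D.ρ (f x), f x, hf1 x, rfl⟩ : P)) fun x y e => ?_
      have e' : D.ρ (f x) = D.ρ (f y) := congrArg Subtype.val e
      refine Subtype.ext ?_
      rw [← hf2 x, ← hf2 y]
      refine QuotientGroup.eq.2 ((D.ρ_ker ((f x)⁻¹ * f y)).1 ?_)
      rw [map_mul, map_inv, e', inv_mul_cancel]
    have hE32 : Nat.card E = 32 := hloc.card_E
    omega
  obtain ⟨P', hP', hPc', hPm'⟩ := exists_syl (F := F) 2
  obtain ⟨P'', hP'', hPc'', hPm''⟩ := exists_syl (F := F) 3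
  have hS : Nat.card (vst (F := F) 1) = 5760 := card_vst 1
  have e1 := le_of_normal_pgroup (a := 7) hP' hPle hPc'
    (by rw [show (sylSeed 2).1 = 1 from rfl, hS]; norm_num) hP2 hPn
  have e2 := le_of_normal_pgroup (a := 7) hP'' hPle hPc''
    (by rw [show (sylSeed 3).1 = 1 from rfl, hS]; norm_num) hP2 hPn
  have hlen : e16.length = 16 := rfl
  have key : ∀ p : P, ∃ i : Fin 16, mat p.1 = matF (om : F) (e16.getD i.1 0) := by
    intro p
    obtain ⟨a, ha, ea⟩ := hPm' p.1 (e1 p.2)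
    obtain ⟨b, hb, eb⟩ := hPm'' p.1 (e2 p.2)
    rcases LFT.inter_facts.2.1 a ha with e | e
    · obtain ⟨j, hj, he⟩ := List.getElem_of_mem e
      exact ⟨⟨j, hlen ▸ hj⟩, by rw [List.getD_eq_getElem _ _ hj, he, matF_nrmC, ea]⟩
    · exact absurd (code_col_eq (F := F) (ea.symm.trans eb)) (e b hb)
  choose f hf' using key
  have hinj : Function.Injective f := fun x y e => Subtype.ext (ext_mat (by rw [hf', hf', e]))
  have hbij : Function.Bijective f := (Nat.bijective_iff_injective_and_card f).2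
    ⟨hinj, le_antisymm (by simpa using Nat.card_le_card_of_injective f hinj) (by simpa using h16)⟩
  obtain ⟨⟨_, d, hd, rfl⟩, e⟩ := hbij.2 ⟨i, hi⟩
  refine ⟨d, Subgroup.mem_subgroupOf.1 hd, ?_⟩
  have := hf' ⟨D.ρ d, d, hd, rfl⟩
  rw [e] at this
  exact this

/-- The classes of the intersection are exactly the sixty four vectors. -/
theorem inU_iff {g : G} {s : Q} (hf : Frame D g s) (q : Q) :
    InU (D.v q) ↔ gv q ∈ (EE Q).map (MulAut.conj g).toMonoidHom := by
  classical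
  have hE := D.sing.conj g
  have hs : g * z * g⁻¹ ∈ EE Q := ⟨_, s.2, hf.hgs.symm⟩
  have hne' : g * z * g⁻¹ ≠ z := hf.hgs ▸ hf.hne
  obtain ⟨-, hzE, -⟩ := D.inter_facts g hs hne'
  obtain ⟨-, hloc, -⟩ := D.local_structure g s hf.hgs hf.hne
  have hmp : ∀ q : Q, gv q ∈ (EE Q).map (MulAut.conj g).toMonoidHom → InU (D.v q) := by
    intro q hq
    refine u_full fun A hA => ?_
    obtain ⟨i, hi, rfl⟩ := List.getElem_of_mem hA
    obtain ⟨d, hd, hdm⟩ := D.exists_realiser hf (i := i) hi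
    have h := hE.comm (Subgroup.mem_inf.1 (Subgroup.mem_subgroupOf.1 hd)).1 hq
    have e : D.v (cj (d : Subgroup.centralizer ({z} : Set G)) q * q⁻¹) =
        matF (om : F) e16[i] *ᵥ D.v q + D.v q := by
      rw [D.v_mul, D.v_inv, D.v_conj, hdm, List.getD_eq_getElem _ _ hi]
    rw [← e]
    rcases hE.pair h with e' | e'
    · exact Or.inl ((D.v_eq_zero _).2 (Or.inl e'))
    · refine Or.inr ?_
      rw [show cj (d : Subgroup.centralizer ({z} : Set G)) q * q⁻¹ = s from gv_injective (e'.trans hf.hgs), hf.hv]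
  refine ⟨fun hu => ?_, hmp q⟩
  let T : Set Q := {q | gv q ∈ (EE Q).map (MulAut.conj g).toMonoidHom}
  have hT : Nat.card T = 2 ^ 7 := by
    rw [← hloc.card_inter]
    refine Nat.card_congr
      { toFun := fun q => ⟨gv q.1, Subgroup.mem_inf.2 ⟨⟨_, q.1.2, rfl⟩, q.2⟩⟩
        invFun := fun x => ⟨⟨⟨x.1, ?_⟩, ?_⟩, (Subgroup.mem_inf.1 x.2).2⟩
        left_inv := fun q => rfl
        right_inv := fun x => rfl }
    · obtain ⟨c, -, e⟩ := (Subgroup.mem_inf.1 x.2).1
      exact e ▸ c.2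
    · obtain ⟨c, hc, e⟩ := (Subgroup.mem_inf.1 x.2).1
      generalize_proofs hx
      rw [show (⟨x.1, hx⟩ : Subgroup.centralizer ({z} : Set G)) = c from Subtype.ext e.symm]
      exact hc
  let S : Set (Fin 6 → F) := D.v '' T
  have hsub : S ⊆ {x | InU x} := by
    rintro _ ⟨a, ha, rfl⟩
    exact hmp a ha
  have h2 : Nat.card T ≤ 2 * S.ncard := by
    have hinj : Function.Injective (fun a : T => ((⟨D.v a.1, a.1, a.2, rfl⟩ : S),
        decide (gv ((D.lift (D.v a.1))⁻¹ * a.1) = z))) := by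
      rintro ⟨a, ha⟩ ⟨b, hb⟩ e
      obtain ⟨e1, e2⟩ := Prod.ext_iff.1 e
      have e1' : D.v a = D.v b := congrArg Subtype.val e1
      simp only [e1'] at e2
      refine Subtype.ext ?_
      have hz : ∀ c : Q, D.v c = D.v b → gv ((D.lift (D.v b))⁻¹ * c) = 1 ∨ gv ((D.lift (D.v b))⁻¹ * c) = z :=
        fun c hc => (D.v_eq_zero _).1 (by rw [D.v_mul, D.v_inv, D.v_lift, hc, add_self])
      refine mul_left_cancel (a := (D.lift (D.v b))⁻¹) (gv_injective ?_)
      by_cases hh : gv ((D.lift (D.v b))⁻¹ * b) = z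
      · simp only [hh, decide_true] at e2
        rw [hh]
        exact of_decide_eq_true e2
      · simp only [hh, decide_false] at e2
        rw [(hz a e1').resolve_right (of_decide_eq_false e2), (hz b rfl).resolve_right hh]
    have := Nat.card_le_card_of_injective _ hinj
    rw [Nat.card_prod, Nat.card_coe_set_eq, Nat.card_coe_set_eq, show Nat.card Bool = 2 by simp] at this
    rw [Nat.card_coe_set_eq]
    omega
  have hle := InU.ncard_le (F := F)
  have hEq : S = {x | InU x} := Set.eq_of_subset_of_ncard_le hsub (by omega) InU.finite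
  have hq : D.v q ∈ S := by rw [hEq]; exact hu
  obtain ⟨a, ha, e⟩ := hq
  obtain ⟨c, hc, rfl⟩ := (D.v_eq_iff a q).1 e
  rw [show gv (a * c) = gv a * gv c from rfl]
  refine mul_mem ha ?_
  rcases hc with e' | e' <;> rw [e']
  · exact one_mem _
  · exact hzE

/-- An involution over the list is fused into `Q`. -/
theorem fused_core {g : G} {s : Q} (hf : Frame D g s) {i : ℕ} (hi : i < 16) (a : D.M)
    (ha2 : (a : Subgroup.centralizer ({z} : Set G)) * (a : Subgroup.centralizer ({z} : Set G)) = 1)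
    (hne : e16.getD i 0 ≠ oneC) (ham : mat (D.ρ a) = matF (om : F) (e16.getD i 0)) :
    Fused Q (((a : Subgroup.centralizer ({z} : Set G))) : G) := by
  classical
  obtain ⟨⟨u, hu, hu1⟩, c2, c3⟩ := core_facts (F := F) hi hne
  have hE := D.sing.conj g
  obtain ⟨-, hloc, -⟩ := D.local_structure g s hf.hgs hf.hne
  obtain ⟨d0, hd0, hd0m⟩ := D.exists_realiser hf hi
  set A := matF (om : F) (e16.getD i 0) with hAdef
  have hmem : ∀ {d : Subgroup.centralizer ({z} : Set G)}, d ∈ DG Q g →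
      (d : G) ∈ (EE Q).map (MulAut.conj g).toMonoidHom := fun hd =>
    (Subgroup.mem_inf.1 (Subgroup.mem_subgroupOf.1 hd)).1
  have hAA : A * A = 1 := by
    rw [← ham, ← mat_mul, ← map_mul, show a * a = 1 from Subtype.ext ha2, map_one, mat_one]
  have hAA' : ∀ x : Fin 6 → F, A *ᵥ (A *ᵥ x) = x := fun x => by
    rw [Matrix.mulVec_mulVec, hAA, Matrix.one_mulVec]
  -- an involution in the coset
  have hpick : ∃ d : D.M, (d : Subgroup.centralizer ({z} : Set G)) ∈ DG Q g ∧ mat (D.ρ d) = A ∧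
      (d : Subgroup.centralizer ({z} : Set G)) * (d : Subgroup.centralizer ({z} : Set G)) = 1 := by
    rcases hE.pair (hE.sq (hmem hd0)) with e | e
    · exact ⟨d0, hd0, hd0m, Subtype.ext e⟩
    have hdd : (d0 : Subgroup.centralizer ({z} : Set G)) * (d0 : Subgroup.centralizer ({z} : Set G)) = s.1 :=
      Subtype.ext (e.trans hf.hgs)
    have hw : gv (D.lift u) ∈ (EE Q).map (MulAut.conj g).toMonoidHom :=
      (D.inU_iff hf _).1 (by rw [D.v_lift]; exact hu)
    let w' : D.M := ⟨(D.lift u).1, D.le (D.lift u).2⟩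
    have hm : mat (D.ρ (d0 * w')) = A := by
      rw [map_mul, show D.ρ w' = 1 from (D.ρ_ker w').2 (D.lift u).2, mul_one, hd0m]
    have hd' : ((d0 * w' : D.M) : Subgroup.centralizer ({z} : Set G)) ∈ DG Q g :=
      mul_mem hd0 (Subgroup.mem_subgroupOf.2 (Subgroup.mem_inf.2 ⟨hw, (D.lift u).1.2⟩))
    refine ⟨d0 * w', hd', hm, ?_⟩
    rcases hE.pair (hE.sq (hmem hd')) with e' | e'
    · exact Subtype.ext e'
    exfalso
    refine seedF_ne_zero (F := F) 1 ?_
    have hq : cj (d0 : Subgroup.centralizer ({z} : Set G)) (D.lift u) * s * D.lift u = s := by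
      refine Subtype.ext ?_
      show (d0 : Subgroup.centralizer ({z} : Set G)) * (D.lift u).1 * (d0 : Subgroup.centralizer ({z} : Set G))⁻¹ *
        s.1 * (D.lift u).1 = s.1
      rw [← hdd, show ∀ d w : Subgroup.centralizer ({z} : Set G), d * w * d⁻¹ * (d * d) * w = d * w * (d * w) from
        fun d w => by group]
      exact (Subtype.ext (e'.trans hf.hgs) : _ = s.1).trans hdd.symm
    have e2 := congrArg D.v hq
    rw [D.v_mul, D.v_mul, D.v_conj, hd0m, D.v_lift, hf.hv] at e2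
    calc (seedF 1 : Fin 6 → F) = A *ᵥ u + seedF 1 + u := e2.symm
      _ = (A *ᵥ u + u) + seedF 1 := by abel
      _ = 0 := by rw [hu1, add_self']
  obtain ⟨d, hdG, hdm, hd2⟩ := hpick
  set dH : Subgroup.centralizer ({z} : Set G) := (d : Subgroup.centralizer ({z} : Set G)) with hdH
  have hdinv : dH⁻¹ = dH := inv_eq_of_mul_eq_one_right hd2
  have hvd : ∀ q : Q, D.v (cj dH q) = A *ᵥ D.v q := fun q => by rw [hdH, D.v_conj, hdm]
  -- the scalar
  obtain ⟨γ, hγ, hγm⟩ := (Ext.real_dC (F := F) zIx).mono Ext.diagG_le_sub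
  rw [matF_scalar] at hγm
  obtain ⟨ξ, hξ⟩ := D.exists_rho hγ
  have hvξ : ∀ q : Q, D.v (cj (ξ : Subgroup.centralizer ({z} : Set G)) q) = (om : F) • D.v q := fun q => by
    rw [D.v_conj, hξ, hγm, Matrix.smul_mulVec, Matrix.one_mulVec]
  set ξH : Subgroup.centralizer ({z} : Set G) := (ξ : Subgroup.centralizer ({z} : Set G)) with hξH
  have hrho : D.ρ (d * (ξ * d * ξ⁻¹)) = 1 := by
    have hc : D.ρ ξ * D.ρ d = D.ρ d * D.ρ ξ := ext_mat (by
      rw [mat_mul, mat_mul, hξ, hγm, smul_mul_assoc, mul_smul_comm, one_mul, mul_one])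
    rw [map_mul, map_mul, map_mul, map_inv, hc, mul_inv_cancel_right, ← map_mul,
      show d * d = 1 from Subtype.ext hd2, map_one]
  let qr : Q := ⟨dH * (ξH * dH * ξH⁻¹), (D.ρ_ker _).1 hrho⟩
  have hqr : ξH * dH * ξH⁻¹ = dH * qr.1 := by
    show _ = dH * (dH * (ξH * dH * ξH⁻¹))
    rw [← mul_assoc dH dH, hd2, one_mul]
  set r := D.v qr with hr
  have hAr : A *ᵥ r = r := by
    have h1 : cj dH qr * qr = 1 := Subtype.ext (by
      show dH * qr.1 * dH⁻¹ * qr.1 = 1
      rw [hdinv, show dH * qr.1 * dH * qr.1 = dH * qr.1 * (dH * qr.1) by group, ← hqr,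
        show ξH * dH * ξH⁻¹ * (ξH * dH * ξH⁻¹) = ξH * (dH * dH) * ξH⁻¹ by group, hd2]
      group)
    have e := congrArg D.v h1
    rw [D.v_mul, hvd, D.v_one, ← hr] at e
    exact eq_of_add_zero e
  set c := (om : F) • r with hcdef
  have hAc : A *ᵥ c = c := by rw [hcdef, Matrix.mulVec_smul, hAr]
  set qc := D.lift c with hqc
  have hvqc : D.v qc = c := D.v_lift c
  set k : Subgroup.centralizer ({z} : Set G) := dH * qc.1 with hk
  have hvk : ∀ q : Q, D.v (cj k q) = A *ᵥ D.v q := fun q => by rw [hk, ← cj_cj, hvd, D.v_cj_sub]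
  let ζ : Q := qc⁻¹ * qr * cj ξH qc
  have hζ : gv ζ = 1 ∨ gv ζ = z := by
    refine (D.v_eq_zero ζ).1 ?_
    show D.v (qc⁻¹ * qr * cj ξH qc) = 0
    rw [D.v_mul, D.v_mul, D.v_inv, hvqc, hvξ, hvqc, ← hr, hcdef, smul_smul]
    calc (om : F) • r + r + ((om : F) * om) • r = ((om : F) + 1 + om * om) • r := by rw [add_smul, add_smul, one_smul]
      _ = 0 := by
        rw [show (om : F) + 1 + om * om = 0 by linear_combination hom (F := F) + (om + 1) * two (F := F), zero_smul]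
  have hkξ : ξH * k * ξH⁻¹ = k * ζ.1 := by
    rw [hk, show ξH * (dH * qc.1) * ξH⁻¹ = ξH * dH * ξH⁻¹ * (ξH * qc.1 * ξH⁻¹) by group, hqr]
    show dH * qr.1 * (cj ξH qc).1 = dH * qc.1 * (qc.1⁻¹ * qr.1 * (cj ξH qc).1)
    group
  have hcomm : ∀ q : Q, A *ᵥ D.v q = D.v q → cj k q = q := by
    intro q hq
    set q1 := D.lift ((om : F) • D.v q) with hq1
    have hv1 : D.v q1 = (om : F) • D.v q := D.v_lift _
    obtain ⟨ζ1, hζ1, e1⟩ := (D.v_eq_iff q1 (cj k q1)).1 (by rw [hvk, hv1, Matrix.mulVec_smul, hq])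
    set q2 := cj ξH q1 with hq2
    have e2 : cj k q2 = q2 * ζ1 := by
      calc cj k q2 = cj (k * ζ.1) (cj ξH q1) := by rw [← cj_cj k ζ.1, cj_of_central hζ]
        _ = cj ξH (cj k q1) := by
          rw [← hkξ, cj_cj, cj_cj, show ξH * k * ξH⁻¹ * ξH = ξH * k by group]
        _ = q2 * ζ1 := by rw [e1, cj_mul, cj_central' hζ1]
    obtain ⟨ζ0, hζ0, e0⟩ := (D.v_eq_iff (q1 * q2) q).1 (by
      rw [D.v_mul, hq2, hvξ, hv1, smul_smul, ← add_smul,
        show (om : F) + om * om = 1 by linear_combination hom (F := F) + om * two (F := F), one_smul])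
    have hz2 : gv ζ1 * gv ζ1 = 1 := by
      rcases hζ1 with e | e <;> rw [e]
      · rw [one_mul]
      · exact D.sing.xx
    have hc1 : ∀ x : Q, ζ1 * x = x * ζ1 := fun x => Subtype.ext (central_comm hζ1 x.1)
    rw [e0, cj_mul, cj_mul, cj_central' hζ0, e1, e2, show q1 * ζ1 * (q2 * ζ1) = q1 * q2 * (ζ1 * ζ1) from by
      rw [mul_assoc q1, ← mul_assoc ζ1, hc1 q2]; group,
      show ζ1 * ζ1 = 1 from gv_injective hz2, mul_one]
  -- the shift is small
  have hcS : InS (e16.getD i 0) c ∧ hermForm 6 F 2 c c = 0 := by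
    refine c2 c hAc fun x hx hAx => ?_
    set w := D.lift x with hw
    have hvw : D.v w = x := D.v_lift x
    have hwE : gv w ∈ (EE Q).map (MulAut.conj g).toMonoidHom := (D.inU_iff hf w).1 (hvw.symm ▸ hx)
    have hkw : cj k w = w := hcomm w (by rw [hvw]; exact hAx)
    have hdw : cj dH w = w := by
      refine mul_inv_eq_one.1 (gv_injective ?_)
      rcases hE.pair (hE.comm (hmem hdG) hwE) with e | e
      · exact e
      exfalso
      refine seedF_ne_zero (F := F) 1 ?_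
      have e' : cj dH w * w⁻¹ = s := gv_injective (e.trans hf.hgs)
      have := congrArg D.v e'
      rw [D.v_mul, D.v_inv, hvd, hvw, hAx, add_self', hf.hv] at this
      exact this.symm
    have hqw : cj qc.1 w = w := by
      have e : cj dH (cj qc.1 w) = cj dH w := by rw [cj_cj, hdw]; exact hkw
      have e' := congrArg (cj dH⁻¹) e
      simpa [cj_cj, cj_one] using e'
    have hcw : gv qc * gv w = gv w * gv qc := by
      have := congrArg gv hqw
      rw [gv_cj] at this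
      exact mul_inv_eq_iff_eq_mul.1 this
    have hw2 : gv w * gv w = 1 := by
      have := hloc.elem.2 (gv w) (Subgroup.mem_inf.2 ⟨⟨_, w.2, rfl⟩, hwE⟩)
      rwa [pow_two] at this
    have hsq : gv (qc * w) * gv (qc * w) = gv qc * gv qc := by
      show gv qc * gv w * (gv qc * gv w) = _
      rw [mul_assoc, ← mul_assoc (gv w), ← hcw, mul_assoc (gv qc) (gv w) (gv w), hw2, mul_one]
    rw [← hvqc, ← hvw, ← D.v_mul, D.v_sq, D.v_sq, hsq]
  have hqc2 : gv qc * gv qc = 1 := by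
    by_contra h
    have := hcS.2
    rw [← hvqc, D.v_sq, if_neg h] at this
    exact one_ne_zero this
  have hk2 : k * k = 1 := by
    have h1 : cj k qc = qc := hcomm qc (by rw [hvqc]; exact hAc)
    have h2 : dH * qc.1 * dH = qc.1 := by
      have h := congrArg Subtype.val h1
      change dH * qc.1 * qc.1 * (dH * qc.1)⁻¹ = qc.1 at h
      rwa [show dH * qc.1 * qc.1 * (dH * qc.1)⁻¹ = dH * qc.1 * dH⁻¹ by group, hdinv] at h
    rw [hk, show dH * qc.1 * (dH * qc.1) = dH * qc.1 * dH * qc.1 by group, h2]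
    exact Subtype.ext hqc2
  -- translates of k
  have base : ∀ q : Q, InS (e16.getD i 0) (D.v q) → Fused Q (((k * q.1 : Subgroup.centralizer ({z} : Set G))) : G) := by
    intro q hq
    obtain ⟨u1, e1, hu1', he1⟩ := hq
    obtain ⟨u0, e0, hu0, he0⟩ := hcS.1
    obtain ⟨qe, hqe⟩ := D.v_surj (e0 + e1)
    refine Fused.of_conj (qe.1 : G) ?_
    have hu' : InU (u0 + u1) := by
      obtain ⟨a0, rfl⟩ := D.v_surj u0
      obtain ⟨a1, rfl⟩ := D.v_surj u1
      rw [← D.v_mul]
      exact (D.inU_iff hf _).2 (mul_mem ((D.inU_iff hf _).1 hu0) ((D.inU_iff hf _).1 hu1'))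
    let w' : Q := cj dH qe * (qc * q) * qe⁻¹
    have hw' : gv w' ∈ (EE Q).map (MulAut.conj g).toMonoidHom := by
      refine (D.inU_iff hf _).1 ?_
      show InU (D.v (cj dH qe * (qc * q) * qe⁻¹))
      rw [D.v_mul, D.v_mul, D.v_mul, D.v_inv, hvd, hqe, hvqc, he0, he1, Matrix.mulVec_add,
        show A *ᵥ e0 + A *ᵥ e1 + (u0 + (A *ᵥ e0 + e0) + (u1 + (A *ᵥ e1 + e1))) + (e0 + e1) =
          (u0 + u1) + (((A *ᵥ e0 + e0) + (A *ᵥ e0 + e0)) + ((A *ᵥ e1 + e1) + (A *ᵥ e1 + e1))) by abel,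
        add_self', add_self', add_zero, add_zero]
      exact hu'
    have e : qe.1 * (k * q.1) * qe.1⁻¹ = dH * w'.1 := by
      show qe.1 * (dH * qc.1 * q.1) * qe.1⁻¹ = dH * (dH * qe.1 * dH⁻¹ * (qc.1 * q.1) * qe.1⁻¹)
      rw [hdinv, ← mul_assoc dH (dH * qe.1 * dH * (qc.1 * q.1)), show dH * (dH * qe.1 * dH * (qc.1 * q.1)) =
        dH * dH * qe.1 * dH * (qc.1 * q.1) by group, hd2]
      group
    have hmemE : ((qe.1 * (k * q.1) * qe.1⁻¹ : Subgroup.centralizer ({z} : Set G)) : G) ∈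
        (EE Q).map (MulAut.conj g).toMonoidHom := by
      rw [e]; exact mul_mem (hmem hdG) hw'
    obtain ⟨b, hb, hbe⟩ := hmemE
    refine ⟨g⁻¹, ?_⟩
    rw [show ((qe.1 : G) * ((k * q.1 : Subgroup.centralizer ({z} : Set G)) : G) * (qe.1 : G)⁻¹) = g * b * g⁻¹ from
      hbe.symm, show g⁻¹ * (g * b * g⁻¹) * g⁻¹⁻¹ = b by group]
    exact hb
  have step : ∀ q : Q, ∃ q' : Q, D.v q' = (om : F) • D.v q ∧ ξH * (k * q.1) * ξH⁻¹ = k * q'.1 := fun q =>
    ⟨ζ * cj ξH q, by rw [D.v_mul, (D.v_eq_zero ζ).2 hζ, zero_add, hvξ], by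
      rw [show ξH * (k * q.1) * ξH⁻¹ = ξH * k * ξH⁻¹ * (ξH * q.1 * ξH⁻¹) by group, hkξ]
      show k * ζ.1 * (ξH * q.1 * ξH⁻¹) = k * (ζ.1 * (ξH * q.1 * ξH⁻¹))
      group⟩
  -- the involution itself
  have hq0 : k * (a : Subgroup.centralizer ({z} : Set G)) ∈ Q := by
    let qc' : D.M := ⟨qc.1, D.le qc.2⟩
    refine (D.ρ_ker (d * qc' * a)).1 (ext_mat ?_)
    rw [map_mul, map_mul, show D.ρ qc' = 1 from (D.ρ_ker qc').2 qc.2, mul_one, mat_mul, hdm, ham, hAA, mat_one]
  let q : Q := ⟨k * a, hq0⟩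
  have haq : (a : Subgroup.centralizer ({z} : Set G)) = k * q.1 := by
    show _ = k * (k * _)
    rw [← mul_assoc, hk2, one_mul]
  have hkinv : k⁻¹ = k := inv_eq_of_mul_eq_one_right hk2
  have hq1 : cj k q * q = 1 := Subtype.ext (by
    show k * q.1 * k⁻¹ * q.1 = 1
    rw [hkinv, show k * q.1 * k * q.1 = k * q.1 * (k * q.1) by group, ← haq]
    exact ha2)
  have hAq : A *ᵥ D.v q = D.v q := by
    have e := congrArg D.v hq1
    rw [D.v_mul, hvk, D.v_one] at e
    exact eq_of_add_zero e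
  have hsing : hermForm 6 F 2 (D.v q) (D.v q) = 0 := by
    rw [hcomm q hAq] at hq1
    rw [D.v_sq, if_pos (show gv q * gv q = 1 from congrArg gv hq1)]
  rw [haq]
  rcases c3 _ hAq hsing with h | h | h
  · exact base q h
  · obtain ⟨q', hq', e⟩ := step q
    refine Fused.of_conj (ξH : G) ?_
    rw [← hq'] at h
    have := base q' h
    rw [← e] at this
    exact this
  · obtain ⟨q', hq', e⟩ := step q
    obtain ⟨q'', hq'', e'⟩ := step q'
    refine Fused.of_conj (ξH : G) (Fused.of_conj (ξH : G) ?_)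
    rw [← hq', ← hq''] at h
    have := base q'' h
    rw [← e', ← e] at this
    exact this

/-- Every inner involution of the centralizer is fused into `Q`. -/
theorem fused_inner (g0 : G) (s0 : Q) (hgs : g0 * z * g0⁻¹ = gv s0) (hne : gv s0 ≠ z)
    (a : Subgroup.centralizer ({z} : Set G)) (ha : a ∈ D.M) (ha2 : a * a = 1) : Fused Q (a : G) := by
  obtain ⟨g, s, hf⟩ := D.exists_frame g0 s0 hgs hne
  by_cases haQ : a ∈ Q
  · exact ⟨1, by rw [one_mul, inv_one, mul_one]; exact ⟨a, haQ, rfl⟩⟩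
  let a' : D.M := ⟨a, ha⟩
  have hne1 : D.ρ a' ≠ 1 := fun e => haQ ((D.ρ_ker a').1 e)
  obtain ⟨w, hw, i, hi, hm⟩ := conj_into_e16 (F := F) (D.ρ_range ▸ ⟨a', rfl⟩ : D.ρ a' ∈ sub (F := F) 0)
    (by rw [← map_mul, show a' * a' = 1 from Subtype.ext ha2, map_one]) hne1
  obtain ⟨m, rfl⟩ := D.exists_rho hw
  rw [← map_inv, ← map_mul, ← map_mul] at hm
  have hne2 : e16.getD i 0 ≠ oneC := by
    intro e
    rw [e, matF_oneC _ hom two] at hm
    have h1 : D.ρ (m * a' * m⁻¹) = 1 := ext_mat (hm.trans mat_one.symm)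
    rw [map_mul, map_mul, map_inv, conj_eq_one_iff] at h1
    exact hne1 h1
  refine Fused.of_conj ((m : Subgroup.centralizer ({z} : Set G)) : G) ?_
  have h2 : ((m * a' * m⁻¹ : D.M) : Subgroup.centralizer ({z} : Set G)) *
      ((m * a' * m⁻¹ : D.M) : Subgroup.centralizer ({z} : Set G)) = 1 := by
    rw [← Subgroup.coe_mul, show m * a' * m⁻¹ * (m * a' * m⁻¹) = m * (a' * a') * m⁻¹ by group,
      show a' * a' = 1 from Subtype.ext ha2]
    simp
  exact D.fused_core hf hi (m * a' * m⁻¹) h2 hne2 hm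

end Model

end Cfsg.Agent.H8.LFT
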