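import Cfsg.Agent.H8.LFT.OrbitList
import Cfsg.Agent.H8.U62.SubAct

/-!
# The stabilisers of the two seeds
-/

set_option autoImplicit false
set_option linter.unusedSectionVars false
set_option maxRecDepth 20000

namespace Cfsg.Agent.H8.LFT

open Matrix Equiv Cfsg.Agent.H8.U62 Cfsg.Agent.H8.U62.Setup

variable {F : Type} [Setup F]

/-- The stabiliser of a seed in the first subgroup. -/
noncomputable def vst (o : ℕ) : Subgroup (SU6 F) :=
  sub 0 ⊓ MulAction.stabilizer (SU6 F) (seedF o : Fin 6 → F)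

theorem mem_vst {o : ℕ} {g : SU6 F} : g ∈ vst o ↔ g ∈ sub 0 ∧ g • (seedF o : Fin 6 → F) = seedF o := Iff.rfl

/-- The stabiliser of a seed in the monomial group. -/
noncomputable def mst (o : ℕ) : Subgroup (SU6 F) :=
  monoE ⊓ MulAction.stabilizer (SU6 F) (seedF o : Fin 6 → F)

theorem mst_le_vst (o : ℕ) : mst (F := F) o ≤ vst o := inf_le_inf_right _ (monoE_le_sub 0)

theorem card_vst_mul (o : Fin 2) : orbLen o.1 * Nat.card (vst (F := F) o.1) = 9797760 := by
  have h := (MulAction.stabilizer (sub (F := F) 0) (seedF o.1 : Fin 6 → F)).card_mul_index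
  rw [MulAction.index_stabilizer, ncard_orbit, card_sub] at h
  rw [← h, mul_comm]
  congr 1
  exact Nat.card_congr
    { toFun := fun g => ⟨⟨g.1, g.2.1⟩, g.2.2⟩
      invFun := fun g => ⟨g.1.1, g.1.2, g.2⟩
      left_inv := fun _ => rfl
      right_inv := fun _ => rfl }

theorem card_vst (o : Fin 2) : Nat.card (vst (F := F) o.1) = if o = 0 then 25920 else 5760 := by
  have h := card_vst_mul (F := F) o
  fin_cases o <;> simp [orbLen] at h ⊢ <;> omega

theorem seed_coord : ∀ (o : Fin 2) (j : Fin 6),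
    ((seedC o.1).testBit (2 * j.1) || (seedC o.1).testBit (2 * j.1 + 1)) = true := by decide

theorem diag_fix {o : Fin 2} {g : SU6 F} (hs : g ∈ stab) (hd : (⟨g, hs⟩ : stab (F := F)) ∈ diagS)
    (hg : g • (seedF o.1 : Fin 6 → F) = seedF o.1) : g = 1 := by
  obtain ⟨e, he, hM⟩ := exists_exp_of_mem_diagS hd
  refine ext_mat ?_
  rw [mat_one]
  have h1 : mat g *ᵥ (seedF o.1 : Fin 6 → F) = seedF o.1 := hg
  rw [show mat g = _ from hM, matF_diagE he] at h1 ⊢
  rw [← Matrix.diagonal_one]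
  congr 1
  funext j
  have h2 := congrFun h1 j
  rw [Matrix.mulVec_diagonal] at h2
  have hne : (seedF o.1 : Fin 6 → F) j ≠ 0 := by
    intro h0
    have h0' : fe (om : F) ((seedC o.1).testBit (2 * j.1)) ((seedC o.1).testBit (2 * j.1 + 1)) =
        fe om false false := h0.trans (by simp [fe, bF])
    obtain ⟨e1, e2⟩ := fe_inj h0'
    have := seed_coord o j
    rw [e1, e2] at this
    exact absurd this (by simp)
  exact mul_right_cancel₀ hne (h2.trans (one_mul _).symm)

theorem card_mst_ge (o : Fin 2) : 360 ≤ Nat.card (mst (F := F) o.1) := by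
  have h := (MulAction.stabilizer (monoE (F := F)) (seedF o.1 : Fin 6 → F)).card_mul_index
  rw [MulAction.index_stabilizer, card_monoE] at h
  have hle : (MulAction.orbit (monoE (F := F)) (seedF o.1 : Fin 6 → F)).ncard ≤ 243 := by
    obtain ⟨hl, hn, hs, hcl⟩ := monoOrb_facts o
    rw [← hl, ← ncard_image (F := F) hn fun v hv => (hcl v hv).1]
    refine Set.ncard_le_ncard ?_ (Set.toFinite _)
    rintro _ ⟨⟨g, hg⟩, rfl⟩
    obtain ⟨w, hw, e⟩ := monoE_smul_mem o hg _ hs
    exact ⟨w, hw, e.symm⟩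
  have he : Nat.card (MulAction.stabilizer (monoE (F := F)) (seedF o.1 : Fin 6 → F)) = Nat.card (mst (F := F) o.1) :=
    Nat.card_congr
    { toFun := fun g => ⟨g.1.1, g.1.2, g.2⟩
      invFun := fun g => ⟨⟨g.1, g.2.1⟩, g.2.2⟩
      left_inv := fun _ => rfl
      right_inv := fun _ => rfl }
  rw [he] at h
  by_contra hlt
  have := Nat.mul_le_mul (le_of_lt (not_le.1 hlt)) hle
  have h' : Nat.card (mst (F := F) o.1) * (MulAction.orbit (monoE (F := F)) (seedF o.1 : Fin 6 → F)).ncard ≤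
      359 * 243 := Nat.mul_le_mul (by omega) hle
  omega

/-- The monomial stabiliser of a seed is the alternating group of degree six. -/
theorem mst_iso (o : Fin 2) : Nonempty (mst (F := F) o.1 ≃* alternatingGroup (Fin 6)) := by
  let ι : mst (F := F) o.1 →* stab (F := F) :=
    Subgroup.inclusion (fun g hg => monoE_le_stab (Subgroup.mem_inf.1 hg).1)
  let f : mst (F := F) o.1 →* alternatingGroup (Fin 6) :=
    (perm.comp ι).codRestrict (alternatingGroup (Fin 6)) fun g =>
      Perm.mem_alternatingGroup.2 (sign_perm_monoE (g := ι g) (Subgroup.mem_inf.1 g.2).1)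
  have hinj : Function.Injective f := by
    refine (injective_iff_map_eq_one f).2 fun g hg => Subtype.ext ?_
    have h1 : perm (ι g) = 1 := congrArg Subtype.val hg
    exact diag_fix (o := o) (ι g).2 (MonoidHom.mem_ker.2 h1) (Subgroup.mem_inf.1 g.2).2
  have hA : Nat.card (alternatingGroup (Fin 6)) = 360 := by
    rw [nat_card_alternatingGroup, Nat.card_fin]; rfl
  exact ⟨MulEquiv.ofBijective f ((Nat.bijective_iff_injective_and_card f).2
    ⟨hinj, le_antisymm (Nat.card_le_card_of_injective f hinj) (by rw [hA]; exact card_mst_ge o)⟩)⟩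

theorem code_col_eq {A B : ℕ} (h : matF (om : F) A = matF om B) : nrmC A = nrmC B := by
  have hc : ∀ j, j < 6 → colC A j = colC B j := fun j hj => by
    refine code_inj (F := F) ?_ ?_ ?_
    · exact lt_of_le_of_lt Nat.and_le_right (by norm_num)
    · exact lt_of_le_of_lt Nat.and_le_right (by norm_num)
    · rw [← col_matF (om : F) A ⟨j, hj⟩, ← col_matF (om : F) B ⟨j, hj⟩, h]
  unfold nrmC
  exact List.foldr_ext _ _ _ fun j hj m => by rw [hc j (List.mem_range.1 hj)]

theorem colC_nrmC (A : ℕ) : ∀ j < 6, colC (nrmC A) j = colC A j := by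
  intro j hj
  have hb : ∀ k, colC A k < 2 ^ 12 := fun k => lt_of_le_of_lt Nat.and_le_right (by norm_num)
  refine Nat.eq_of_testBit_eq fun i => ?_
  have hm : ∀ i, (4095 : ℕ).testBit i = decide (i < 12) := fun i => by
    rw [show (4095 : ℕ) = 2 ^ 12 - 1 by norm_num, Nat.testBit_two_pow_sub_one]
  by_cases hi : i < 12
  · have hz : ∀ k n, 12 ≤ n → (colC A k).testBit n = false := fun k n hn =>
      Nat.testBit_eq_false_of_lt (lt_of_lt_of_le (hb k) (Nat.pow_le_pow_right (by norm_num) hn))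
    conv_lhs => rw [colC, show ∀ a b, Nat.land a b = a &&& b from fun _ _ => rfl, Nat.testBit_and,
      Nat.testBit_shiftRight, hm]
    simp only [nrmC, List.range_succ, List.range_zero, List.nil_append, List.foldr_cons, List.foldr_nil,
      List.cons_append, show ∀ a b, Nat.lor a b = a ||| b from fun _ _ => rfl, Nat.testBit_or,
      Nat.testBit_shiftLeft, hi, decide_true, Bool.and_true, Nat.zero_testBit, Bool.or_false]
    interval_cases j <;> simp [hi] <;> grind
  · simp [colC, show ∀ a b, Nat.land a b = a &&& b from fun _ _ => rfl, hm, hi]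

theorem matF_nrmC (A : ℕ) : matF (om : F) (nrmC A) = matF om A := by
  ext i j
  have h1 : matF (om : F) (nrmC A) i j = vecF om (colC (nrmC A) j.1) i :=
    congrFun (col_matF (om : F) (nrmC A) j) i
  have h2 : matF (om : F) A i j = vecF om (colC A j.1) i := congrFun (col_matF (om : F) A j) i
  rw [h1, h2, colC_nrmC A j.1 j.2]

theorem syl_ok (n : Fin 4) : sylOK n.1 = true := by
  match n with
  | ⟨0, _⟩ => exact syl_ok0
  | ⟨1, _⟩ => exact syl_ok1
  | ⟨2, _⟩ => exact syl_ok2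
  | ⟨3, _⟩ => exact syl_ok3

/-- The seed fixed by a Sylow subgroup. -/
def sylSeed (n : Fin 4) : Fin 2 := ⟨n.1 / 2, by omega⟩

/-- A Sylow subgroup of a stabiliser with its elements. -/
theorem exists_syl (n : Fin 4) : ∃ P : Subgroup (SU6 F), P ≤ vst (sylSeed n).1 ∧
    Nat.card P = (if n.1 < 2 then 64 else 128) ∧ ∀ p ∈ P, ∃ a ∈ sylL n.1, mat p = matF om a := by
  have h := syl_ok n
  simp only [sylOK, subIdxOK, forceL_eq, force_eq, Bool.and_eq_true, List.all_eq_true, List.any_eq_true] at h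
  obtain ⟨⟨⟨⟨hlen, hkey⟩, hidx⟩, hfix⟩, hcl⟩ := h
  have hreal : ∀ A ∈ sylGenC n.1, Real (vst (F := F) (sylSeed n).1) A := by
    intro A hA
    obtain ⟨q, hq, rfl⟩ := List.mem_map.1 hA
    obtain ⟨g, hg, e⟩ := (real_subT (F := F) 0 _ (subT_mem (Nat.le_of_ble_eq_true (hidx q hq).1.1))).mmC
      ((real_monC q.2.1 q.2.2).mono (monoE_le_sub 0))
    refine ⟨g, ⟨hg, ?_⟩, e⟩
    show mat g *ᵥ (seedF (sylSeed n).1 : Fin 6 → F) = seedF (sylSeed n).1
    rw [e, seedF, ← vecF_mvC _ hom two]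
    exact congrArg (vecF om) (Nat.eq_of_beq_eq_true (hfix _ hA))
  choose gen hgen hmat using fun i : Fin (sylGenC n.1).length => hreal _ (List.getElem_mem i.2)
  let P : Subgroup (SU6 F) := Subgroup.closure (Set.range gen)
  have hPle : P ≤ vst (sylSeed n).1 := (Subgroup.closure_le _).2 (by rintro _ ⟨i, rfl⟩; exact hgen i)
  have hall := real_bld_one (H := P) (fun A hA => by
    obtain ⟨i, hi, rfl⟩ := List.getElem_of_mem hA
    exact ⟨gen ⟨i, hi⟩, Subgroup.subset_closure ⟨_, rfl⟩, hmat ⟨i, hi⟩⟩ : ∀ A ∈ sylGenC n.1, Real P A)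
    (sylTree.getD n.1 [])
  have hone : oneC ∈ sylL n.1 := by
    have : ∀ n : Fin 4, (sylL n.1).any (fun p => Nat.beq p oneC) = true := by decide +kernel
    obtain ⟨p, hp, e⟩ := List.any_eq_true.1 (this n)
    rwa [← Nat.eq_of_beq_eq_true e]
  have hmem : ∀ p ∈ P, ∃ a ∈ sylL n.1, mat p = matF om a := by
    intro p hp
    have hp' : p ∈ P.toSubmonoid := hp
    rw [Subgroup.closure_toSubmonoid_of_finite] at hp'
    induction hp' using Submonoid.closure_induction_left with
    | one => exact ⟨oneC, hone, by rw [mat_one, matF_oneC _ hom two]⟩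
    | mul_left x hx y hy ih =>
      obtain ⟨i, rfl⟩ := hx
      obtain ⟨a, ha, e⟩ := ih (by
        show y ∈ P.toSubmonoid
        rw [Subgroup.closure_toSubmonoid_of_finite]; exact hy)
      obtain ⟨k, hk, hke⟩ := hcl _ (List.getElem_mem i.2) a ha
      obtain ⟨b, hb, rfl⟩ := List.mem_map.1 hk
      refine ⟨b, hb, ?_⟩
      rw [mat_mul, hmat, e, ← matF_mmC _ hom two, ← matF_nrmC b, ← Nat.eq_of_beq_eq_true hke, matF_nrmC]
  have hnd := (keysOK_sound _ _ hkey).1
  choose el hel helA using fun i : Fin (sylL n.1).length => hall _ (List.getElem_mem i.2)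
  have hbij : Function.Bijective fun i => (⟨el i, hel i⟩ : P) := by
    refine ⟨fun i j e => ?_, fun p => ?_⟩
    · have hm : mat (el i) = mat (el j) := congrArg mat (congrArg Subtype.val e)
      rw [helA, helA] at hm
      refine Fin.ext ((hnd.getElem_inj_iff (hi := ?_) (hj := ?_)).1 ?_)
      · rw [List.length_map]; exact i.2
      · rw [List.length_map]; exact j.2
      · rw [List.getElem_map, List.getElem_map]; exact code_col_eq (F := F) hm
    · obtain ⟨a, ha, e⟩ := hmem p.1 p.2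
      obtain ⟨i, hi, rfl⟩ := List.getElem_of_mem ha
      exact ⟨⟨i, hi⟩, Subtype.ext (ext_mat ((helA ⟨i, hi⟩).trans e.symm))⟩
  refine ⟨P, hPle, ?_, hmem⟩
  rw [← Nat.card_congr (Equiv.ofBijective _ hbij), Nat.card_fin, Nat.eq_of_beq_eq_true hlen]

/-- A normal `p`-subgroup lies in a subgroup of full `p`-part. -/
theorem le_of_normal_pgroup {G : Type*} [Group G] [Finite G] {S P D : Subgroup G} (hP : P ≤ S) (hD : D ≤ S)
    {a : ℕ} (hPc : Nat.card P = 2 ^ a) (hmax : ¬ 2 ^ (a + 1) ∣ Nat.card S) (hD2 : IsPGroup 2 D)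
    (hn : ∀ s ∈ S, ∀ d ∈ D, s * d * s⁻¹ ∈ D) : D ≤ P := by
  have h2 : IsPGroup 2 P := IsPGroup.of_card hPc
  have hPn : P ≤ Subgroup.normalizer (D : Set G) := fun p hp => by
    refine Subgroup.mem_normalizer_iff.2 fun d => ⟨fun hd => hn p (hP hp) d hd, fun hd => ?_⟩
    have := hn p⁻¹ (inv_mem (hP hp)) _ hd
    simpa [mul_assoc] using this
  have h3 : IsPGroup 2 (P ⊔ D : Subgroup G) := IsPGroup.to_sup_of_normal_right' h2 hD2 hPn
  obtain ⟨b, hb⟩ := IsPGroup.iff_card.1 h3
  have hdvd : Nat.card (P ⊔ D : Subgroup G) ∣ Nat.card S := Subgroup.card_dvd_of_le (sup_le hP hD)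
  have hba : b ≤ a := by
    by_contra hlt
    exact hmax (dvd_trans (pow_dvd_pow 2 (by omega)) (hb ▸ hdvd))
  have := Subgroup.eq_of_le_of_card_ge (le_sup_left : P ≤ P ⊔ D) (by
    rw [hb, hPc]; exact Nat.pow_le_pow_right (by norm_num) hba)
  exact this ▸ le_sup_right

theorem inter_facts : (∀ p ∈ sylL 0, nrmC p = oneC ∨ ∀ p' ∈ sylL 1, nrmC p ≠ nrmC p') ∧
    (∀ p ∈ sylL 2, nrmC p ∈ e16 ∨ ∀ p' ∈ sylL 3, nrmC p ≠ nrmC p') ∧
    (∀ e ∈ e16, mmC e e = oneC ∧ (e = oneC ∨ frmC e ≠ frmC oneC)) := by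
  have h := inter_ok
  simp only [interOK, forceL_eq, force_eq, Bool.and_eq_true, List.all_eq_true, Bool.or_eq_true,
    Bool.not_eq_true', List.any_eq_true, List.any_eq_false] at h
  obtain ⟨⟨h1, h2⟩, h3⟩ := h
  refine ⟨fun p hp => ?_, fun p hp => ?_, fun e he => ⟨Nat.eq_of_beq_eq_true (h3 e he).1, ?_⟩⟩
  · rcases h1 p hp with e | e
    · exact Or.inl (Nat.eq_of_beq_eq_true e)
    · exact Or.inr fun p' hp' hh => e _ (List.mem_map_of_mem hp') (by rw [hh]; exact Nat.beq_refl _)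
  · rcases h2 p hp with ⟨x, hx, e⟩ | e
    · exact Or.inl (by rwa [Nat.eq_of_beq_eq_true e])
    · exact Or.inr fun p' hp' hh => e _ (List.mem_map_of_mem hp') (by rw [hh]; exact Nat.beq_refl _)
  · rcases (h3 e he).2 with e' | e'
    · exact Or.inl (Nat.eq_of_beq_eq_true e')
    · exact Or.inr (Nat.ne_of_beq_eq_false e')

/-- No normal two-subgroup in the first stabiliser. -/
theorem normal_two_zero {D : Subgroup (SU6 F)} (hD : D ≤ vst 0) (h2 : IsPGroup 2 D)
    (hn : ∀ s ∈ vst 0, ∀ d ∈ D, s * d * s⁻¹ ∈ D) : D = ⊥ := by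
  have hS : Nat.card (vst (F := F) 0) = 25920 := card_vst 0
  obtain ⟨P, hP, hPc, hPm⟩ := exists_syl (F := F) 0
  obtain ⟨P', hP', hPc', hPm'⟩ := exists_syl (F := F) 1
  have e1 := le_of_normal_pgroup (a := 6) hP hD hPc (by rw [show (sylSeed 0).1 = 0 from rfl, hS]; norm_num) h2 hn
  have e2 := le_of_normal_pgroup (a := 6) hP' hD hPc' (by rw [show (sylSeed 1).1 = 0 from rfl, hS]; norm_num) h2 hn
  refine eq_bot_iff.2 fun d hd => Subgroup.mem_bot.2 (ext_mat ?_)
  obtain ⟨a, ha, ea⟩ := hPm d (e1 hd)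
  obtain ⟨b, hb, eb⟩ := hPm' d (e2 hd)
  rcases inter_facts.1 a ha with e | e
  · rw [ea, ← matF_nrmC a, e, matF_oneC _ hom two, mat_one]
  · exact absurd (code_col_eq (F := F) (ea.symm.trans eb)) (e b hb)

/-- Normal two-subgroups in the second stabiliser. -/
theorem normal_two_one {D : Subgroup (SU6 F)} (hD : D ≤ vst 1) (h2 : IsPGroup 2 D)
    (hn : ∀ s ∈ vst 1, ∀ d ∈ D, s * d * s⁻¹ ∈ D) :
    Nat.card D ≤ 16 ∧ (∀ d ∈ D, d * d = 1) ∧ ∀ d ∈ D, d ∈ stab → d = 1 := by
  have hS : Nat.card (vst (F := F) 1) = 5760 := card_vst 1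
  obtain ⟨P, hP, hPc, hPm⟩ := exists_syl (F := F) 2
  obtain ⟨P', hP', hPc', hPm'⟩ := exists_syl (F := F) 3
  have e1 := le_of_normal_pgroup (a := 7) hP hD hPc (by rw [show (sylSeed 2).1 = 1 from rfl, hS]; norm_num) h2 hn
  have e2 := le_of_normal_pgroup (a := 7) hP' hD hPc' (by rw [show (sylSeed 3).1 = 1 from rfl, hS]; norm_num) h2 hn
  have key : ∀ d : D, ∃ i : Fin e16.length, mat d.1 = matF (om : F) e16[i.1] := by
    intro d
    obtain ⟨a, ha, ea⟩ := hPm d.1 (e1 d.2)
    obtain ⟨b, hb, eb⟩ := hPm' d.1 (e2 d.2)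
    rcases inter_facts.2.1 a ha with e | e
    · obtain ⟨i, hi, he⟩ := List.getElem_of_mem e
      exact ⟨⟨i, hi⟩, by rw [he, matF_nrmC, ea]⟩
    · exact absurd (code_col_eq (F := F) (ea.symm.trans eb)) (e b hb)
  choose f hf using key
  refine ⟨?_, fun d hd => ?_, fun d hd hs => ?_⟩
  · have := Nat.card_le_card_of_injective f fun x y e => Subtype.ext (ext_mat (by rw [hf, hf, e]))
    rw [Nat.card_fin] at this
    exact this
  · refine ext_mat ?_
    rw [mat_mul, hf ⟨d, hd⟩, ← matF_mmC _ hom two, (inter_facts.2.2 _ (List.getElem_mem _)).1,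
      matF_oneC _ hom two, mat_one]
  · rcases (inter_facts.2.2 _ (List.getElem_mem (f ⟨d, hd⟩).2)).2 with e | e
    · refine ext_mat ?_
      rw [hf ⟨d, hd⟩, e, matF_oneC _ hom two, mat_one]
    · exact absurd ((fr_eq_iff (hf ⟨d, hd⟩) (by rw [mat_one, matF_oneC _ hom two] : mat (1 : SU6 F) = matF om oneC)).1
        hs) e

end Cfsg.Agent.H8.LFT
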