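import Cfsg.Agent.H8.LFT.Model
import Cfsg.Agent.H8.LFT.OrbitStab

/-!
# The two classes of noncentral involutions of `Q`
-/

set_option autoImplicit false
set_option linter.unusedSectionVars false

namespace Cfsg.Agent.H8.LFT

open Matrix Cfsg.Agent.H8.U62 Cfsg.Agent.H8.U62.Setup

variable {G : Type*} [Group G] [Finite G] {z : G} {Q : Subgroup (Subgroup.centralizer ({z} : Set G))} [Q.Normal]
  {F : Type} [Setup F]

namespace Model

variable (D : Model z Q F)

include D in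
theorem exists_zQ : ∃ c : Q, gv c = z := by
  obtain ⟨c, hc, e⟩ := D.sing.mem
  exact ⟨⟨c, hc⟩, e⟩

theorem v_one : D.v 1 = 0 := (D.v_eq_zero 1).2 (Or.inl rfl)

theorem add_self (x : Fin 6 → F) : x + x = 0 := funext fun i => by
  show x i + x i = 0
  linear_combination (x i) * two (F := F)

theorem v_inv (a : Q) : D.v a⁻¹ = D.v a := by
  have h := D.v_mul a⁻¹ a
  rw [inv_mul_cancel, D.v_one] at h
  calc D.v a⁻¹ = D.v a⁻¹ + (D.v a + D.v a) := by rw [add_self, add_zero]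
    _ = (D.v a⁻¹ + D.v a) + D.v a := (add_assoc _ _ _).symm
    _ = D.v a := by rw [← h, zero_add]

theorem v_eq_iff (a b : Q) : D.v a = D.v b ↔ ∃ c : Q, (gv c = 1 ∨ gv c = z) ∧ b = a * c := by
  constructor
  · intro e
    exact ⟨a⁻¹ * b, (D.v_eq_zero _).1 (by rw [D.v_mul, D.v_inv, e, add_self]), (mul_inv_cancel_left a b).symm⟩
  · rintro ⟨c, hc, rfl⟩
    rw [D.v_mul, (D.v_eq_zero c).2 hc, add_zero]

/-- A chosen preimage of a vector. -/
noncomputable def lift (x : Fin 6 → F) : Q := (D.v_surj x).choose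

theorem v_lift (x : Fin 6 → F) : D.v (D.lift x) = x := (D.v_surj x).choose_spec

theorem cj_central (h : Subgroup.centralizer ({z} : Set G)) {c : Q} (hc : gv c = 1 ∨ gv c = z) :
    gv (cj h c) = 1 ∨ gv (cj h c) = z := by
  rw [gv_cj]
  rcases hc with e | e <;> rw [e]
  · exact Or.inl (by group)
  · exact Or.inr (by rw [Subgroup.mem_centralizer_singleton_iff.1 h.2, mul_inv_cancel_right])

theorem v_cj_congr (h : Subgroup.centralizer ({z} : Set G)) {a b : Q} (e : D.v a = D.v b) :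
    D.v (cj h a) = D.v (cj h b) := by
  obtain ⟨c, hc, rfl⟩ := (D.v_eq_iff a b).1 e
  rw [cj_mul, D.v_mul, (D.v_eq_zero _).2 (cj_central h hc), add_zero]

/-- The action of the centralizer on vectors. -/
noncomputable def L (h : Subgroup.centralizer ({z} : Set G)) (x : Fin 6 → F) : Fin 6 → F :=
  D.v (cj h (D.lift x))

theorem L_v (h : Subgroup.centralizer ({z} : Set G)) (a : Q) : D.L h (D.v a) = D.v (cj h a) :=
  D.v_cj_congr h (D.v_lift _)

theorem L_injective (h : Subgroup.centralizer ({z} : Set G)) : Function.Injective (D.L h) := fun x y e => by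
  have e' : D.v (cj h⁻¹ (cj h (D.lift x))) = D.v (cj h⁻¹ (cj h (D.lift y))) := D.v_cj_congr _ e
  rw [cj_cj, cj_cj, inv_mul_cancel, cj_one, cj_one, D.v_lift, D.v_lift] at e'
  exact e'

/-- Equal classes can be made equal by an element of `Q`. -/
theorem exists_exact {a r : Q} (e : D.v a = D.v r) (h1 : gv r ≠ 1) (hz : gv r ≠ z) :
    ∃ u ∈ Q, cj u a = r := by
  obtain ⟨c, hc, rfl⟩ := (D.v_eq_iff a r).1 e
  rcases hc with ec | ec
  · exact ⟨1, one_mem _, by rw [cj_one, show c = 1 from gv_injective ec, mul_one]⟩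
  obtain ⟨w, hw, hne⟩ : ∃ w ∈ Q.map (Subgroup.centralizer ({z} : Set G)).subtype, w * gv (a * c) ≠ gv (a * c) * w := by
    by_contra hno
    push Not at hno
    rcases D.sing.cent _ hno with e' | e'
    exacts [h1 e', hz e']
  obtain ⟨u, hu, rfl⟩ := hw
  refine ⟨u, hu, gv_injective ?_⟩
  have haE : gv a ∈ Q.map (Subgroup.centralizer ({z} : Set G)).subtype := ⟨_, a.2, rfl⟩
  have hua : (u : G) * gv a * (u : G)⁻¹ * (gv a)⁻¹ = z := by
    rcases D.sing.pair (D.sing.comm ⟨_, hu, rfl⟩ haE) with e' | e'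
    · exfalso
      refine hne ?_
      rw [mul_inv_eq_one, mul_inv_eq_iff_eq_mul, Subgroup.coe_subtype] at e'
      show (u : G) * (gv a * gv c) = gv a * gv c * (u : G)
      have hx : (u : G) * z = z * (u : G) := D.sing.comm_x _ ⟨_, hu, rfl⟩
      rw [ec, ← mul_assoc, e', mul_assoc, hx, ← mul_assoc]
    · exact e'
  show (u : G) * gv a * (u : G)⁻¹ = gv a * gv c
  calc (u : G) * gv a * (u : G)⁻¹ = (u : G) * gv a * (u : G)⁻¹ * (gv a)⁻¹ * gv a := by group
    _ = z * gv a := by rw [hua]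
    _ = gv a * gv c := by rw [ec, ← D.sing.comm_x _ haE]

/-- The vector of a noncentral involution is singular and nonzero. -/
theorem v_singular {a : Q} (h2 : gv a * gv a = 1) (h1 : gv a ≠ 1) (hz : gv a ≠ z) :
    D.v a ≠ 0 ∧ hermForm 6 F 2 (D.v a) (D.v a) = 0 :=
  ⟨fun e => by rcases (D.v_eq_zero a).1 e with e' | e' <;> [exact h1 e'; exact hz e'],
    by rw [D.v_sq, if_pos h2]⟩

/-- The class of an element. -/
def Cls (o : Fin 2) (a : Q) : Prop :=
  ∃ γ ∈ sub (F := F) 0, γ • (seedF o.1 : Fin 6 → F) = D.v a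

theorem exists_rho {γ : SU6 F} (hγ : γ ∈ sub (F := F) 0) : ∃ m : D.M, D.ρ m = γ := by
  rw [← D.ρ_range] at hγ
  exact hγ

theorem exists_cls {a : Q} (h2 : gv a * gv a = 1) (h1 : gv a ≠ 1) (hz : gv a ≠ z) : ∃ o, D.Cls o a := by
  obtain ⟨hne, hh⟩ := D.v_singular h2 h1 hz
  exact exists_orbit hne hh

theorem moves_eq (o : Fin 2) {a : Q} (ha : D.Cls o a) :
    Set.range (fun m : D.M => D.v (cj (m : Subgroup.centralizer ({z} : Set G)) a)) =
      MulAction.orbit (sub (F := F) 0) (seedF o.1 : Fin 6 → F) := by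
  obtain ⟨γ, hγ, e⟩ := ha
  ext x
  constructor
  · rintro ⟨m, rfl⟩
    refine ⟨⟨D.ρ m * γ, mul_mem (D.ρ_range ▸ ⟨m, rfl⟩) hγ⟩, ?_⟩
    show (D.ρ m * γ) • (seedF o.1 : Fin 6 → F) = D.v (cj (m : Subgroup.centralizer ({z} : Set G)) a)
    rw [mul_smul, e, D.v_conj, smul_def]
  · rintro ⟨⟨δ, hδ⟩, rfl⟩
    obtain ⟨m, hm⟩ := D.exists_rho (mul_mem hδ (inv_mem hγ))
    refine ⟨m, ?_⟩
    show D.v (cj (m : Subgroup.centralizer ({z} : Set G)) a) = δ • (seedF o.1 : Fin 6 → F)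
    rw [D.v_conj, ← e, ← smul_def, hm, ← mul_smul, inv_mul_cancel_right]

theorem cls_cj {o o' : Fin 2} {a : Q} (h : Subgroup.centralizer ({z} : Set G)) (ha : D.Cls o a)
    (hb : D.Cls o' (cj h a)) : o = o' := by
  have hn := D.normal
  have e : Set.range (fun m : D.M => D.v (cj (m : Subgroup.centralizer ({z} : Set G)) (cj h a))) =
      D.L h '' Set.range (fun m : D.M => D.v (cj (m : Subgroup.centralizer ({z} : Set G)) a)) := by
    ext x
    constructor
    · rintro ⟨m, rfl⟩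
      refine ⟨_, ⟨⟨h⁻¹ * m * h, by simpa using hn.conj_mem _ m.2 h⁻¹⟩, rfl⟩, ?_⟩
      show D.L h (D.v (cj (h⁻¹ * m * h) a)) = D.v (cj (m : Subgroup.centralizer ({z} : Set G)) (cj h a))
      rw [D.L_v, cj_cj, cj_cj]
      congr 2
      group
    · rintro ⟨_, ⟨m, rfl⟩, rfl⟩
      refine ⟨⟨h * m * h⁻¹, hn.conj_mem _ m.2 h⟩, ?_⟩
      show D.v (cj (h * m * h⁻¹) (cj h a)) = D.L h (D.v (cj (m : Subgroup.centralizer ({z} : Set G)) a))
      rw [D.L_v, cj_cj, cj_cj]
      congr 2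
      group
  rw [D.moves_eq o' hb, D.moves_eq o ha] at e
  have := congrArg Set.ncard e
  rw [Set.ncard_image_of_injective _ (D.L_injective h), ncard_orbit, ncard_orbit] at this
  revert this
  revert o o'
  intro o o' _ _ _
  fin_cases o <;> fin_cases o' <;> simp [orbLen]

theorem conj_of_cls {o : Fin 2} {a b : Q} (ha : D.Cls o a) (hb : D.Cls o b) (h1 : gv b ≠ 1) (hz : gv b ≠ z) :
    ∃ h : Subgroup.centralizer ({z} : Set G), cj h a = b := by
  obtain ⟨γ, hγ, ea⟩ := ha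
  obtain ⟨δ, hδ, eb⟩ := hb
  obtain ⟨m, hm⟩ := D.exists_rho (mul_mem hδ (inv_mem hγ))
  have e : D.v (cj (m : Subgroup.centralizer ({z} : Set G)) a) = D.v b := by
    rw [D.v_conj, ← ea, ← smul_def, hm, ← mul_smul, inv_mul_cancel_right, eb]
  obtain ⟨u, -, hu⟩ := D.exists_exact e h1 hz
  exact ⟨u * m, by rw [← cj_cj, hu]⟩

theorem exists_rep (o : Fin 2) : ∃ a : Q, gv a * gv a = 1 ∧ gv a ≠ 1 ∧ gv a ≠ z ∧ D.Cls o a := by
  obtain ⟨a, ha⟩ := D.v_surj (seedF o.1)
  have hne : D.v a ≠ 0 := by rw [ha]; exact seedF_ne_zero o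
  refine ⟨a, ?_, fun e => hne ((D.v_eq_zero a).2 (Or.inl e)), fun e => hne ((D.v_eq_zero a).2 (Or.inr e)),
    1, one_mem _, by rw [one_smul, ha]⟩
  by_contra h
  have h' := D.v_sq a
  rw [if_neg h, ha, seedF_sing] at h'
  exact zero_ne_one h'

end Model

end Cfsg.Agent.H8.LFT
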