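import Cfsg.Agent.H8.LFT.Perfect
import Cfsg.Agent.H8.LFT.CharCheck

/-!
# Lifts of the diagonal group to a central extension of order three
-/

set_option autoImplicit false
set_option linter.unusedSectionVars false
set_option maxRecDepth 20000

namespace Cfsg.Agent.H8.LFT

open Matrix Cfsg.Agent.H8.U62 Cfsg.Agent.H8.U62.Setup

variable {F : Type} [Setup F]

/-- The class of a code in the quotient. -/
def IsCls (s : S0 F) (X : ℕ) : Prop :=
  ∃ g : sub (F := F) 0, mat g.1 = matF om X ∧ QuotientGroup.mk' Z0 g = s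

theorem IsCls.mul {s t : S0 F} {X Y : ℕ} (h : IsCls s X) (h' : IsCls t Y) : IsCls (s * t) (mmC X Y) := by
  obtain ⟨a, ha, rfl⟩ := h
  obtain ⟨b, hb, rfl⟩ := h'
  exact ⟨a * b, by rw [Subgroup.coe_mul, mat_mul, ha, hb, matF_mmC _ hom two], map_mul _ _ _⟩

theorem IsCls.one : IsCls (1 : S0 F) oneC :=
  ⟨1, by rw [Subgroup.coe_one, mat_one, matF_oneC _ hom two], map_one _⟩

theorem IsCls.eq {s t : S0 F} {X : ℕ} (h : IsCls s X) (h' : IsCls t X) : s = t := by
  obtain ⟨a, ha, rfl⟩ := h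
  obtain ⟨b, hb, rfl⟩ := h'
  rw [show a = b from Subtype.ext (ext_mat (ha.trans hb.symm))]

/-- A central extension by a group of order three. -/
structure Ext (F : Type) [Setup F] (A : Type*) [Group A] where
  /-- The projection. -/
  π : A →* S0 F
  surj : Function.Surjective π
  /-- The generator of the kernel. -/
  x0 : A
  x0_cube : x0 * (x0 * x0) = 1
  x0_ne : x0 ≠ 1
  central : ∀ a, a * x0 = x0 * a
  ker : π.ker = Subgroup.zpowers x0

namespace Ext

variable {A : Type*} [Group A] (R : Ext F A)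

theorem order_x0 : orderOf R.x0 = 3 := by
  have : Fact (Nat.Prime 3) := ⟨Nat.prime_three⟩
  exact orderOf_eq_prime (by simp only [pow_succ, pow_zero, one_mul, mul_assoc]; exact R.x0_cube) R.x0_ne

theorem mem_ker {a : A} (h : R.π a = 1) : a = 1 ∨ a = R.x0 ∨ a = R.x0 * R.x0 := by
  have ha : a ∈ Subgroup.zpowers R.x0 := by rw [← R.ker]; exact h
  have hf : IsOfFinOrder R.x0 := orderOf_pos_iff.1 (by rw [R.order_x0]; norm_num)
  obtain ⟨n, rfl⟩ := (IsOfFinOrder.mem_powers_iff_mem_zpowers hf).2 ha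
  show R.x0 ^ n = 1 ∨ R.x0 ^ n = R.x0 ∨ R.x0 ^ n = R.x0 * R.x0
  rw [← pow_mod_orderOf, R.order_x0]
  have := Nat.mod_lt n (show 3 > 0 by norm_num)
  interval_cases h3 : n % 3
  · exact Or.inl (pow_zero _)
  · exact Or.inr (Or.inl (pow_one _))
  · exact Or.inr (Or.inr (pow_two _))

theorem ker_comm {a : A} (h : R.π a = 1) (b : A) : b * a = a * b := by
  rcases R.mem_ker h with rfl | rfl | rfl
  · simp
  · exact R.central b
  · rw [← mul_assoc, R.central, mul_assoc, R.central, ← mul_assoc]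

theorem ker_cube {a : A} (h : R.π a = 1) : a * (a * a) = 1 := by
  rcases R.mem_ker h with rfl | rfl | rfl
  · simp
  · exact R.x0_cube
  · calc R.x0 * R.x0 * (R.x0 * R.x0 * (R.x0 * R.x0))
        = R.x0 * (R.x0 * R.x0) * (R.x0 * (R.x0 * R.x0)) := by group
      _ = 1 := by rw [R.x0_cube, one_mul]

/-- A chosen preimage. -/
noncomputable def lift (s : S0 F) : A := (R.surj s).choose

theorem π_lift (s : S0 F) : R.π (R.lift s) = s := (R.surj s).choose_spec

/-- The preimage of a subgroup. -/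
noncomputable def pull (X : Subgroup (SU6 F)) : Subgroup A :=
  ((X.subgroupOf (sub 0)).map (QuotientGroup.mk' Z0)).comap R.π

theorem mem_pull {X : Subgroup (SU6 F)} {a : A} :
    a ∈ R.pull X ↔ ∃ y : sub (F := F) 0, y.1 ∈ X ∧ QuotientGroup.mk' Z0 y = R.π a := by
  rw [pull, Subgroup.mem_comap, Subgroup.mem_map]
  simp only [Subgroup.mem_subgroupOf]

/-- The preimage of the diagonal group. -/
noncomputable def Ed : Subgroup A := R.pull diagG

/-- The preimage of the monomial group. -/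
noncomputable def Nm : Subgroup A := R.pull monoE

theorem Ed_le_Nm : R.Ed ≤ R.Nm := fun a ha => by
  obtain ⟨y, hy, e⟩ := R.mem_pull.1 ha
  exact R.mem_pull.2 ⟨y, diagG_le_monoE hy, e⟩

theorem ker_le_Ed {a : A} (h : R.π a = 1) : a ∈ R.Ed :=
  R.mem_pull.2 ⟨1, one_mem _, by rw [map_one, h]⟩

theorem Nm_conj {n x : A} (hn : n ∈ R.Nm) (hx : x ∈ R.Ed) : n * x * n⁻¹ ∈ R.Ed := by
  obtain ⟨a, ha, ea⟩ := R.mem_pull.1 hn
  obtain ⟨b, hb, eb⟩ := R.mem_pull.1 hx
  refine R.mem_pull.2 ⟨a * b * a⁻¹, ?_, by rw [map_mul, map_mul, map_inv, map_mul, map_mul, map_inv, ea, eb]⟩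
  obtain ⟨hs, hd⟩ := mem_diagG.1 hb
  have hn' : (diagS (F := F)).Normal := MonoidHom.normal_ker _
  exact mem_diagG.2 ⟨_, hn'.conj_mem _ hd ⟨a.1, monoE_le_stab ha⟩⟩

theorem exists_cls_diag {x : A} (hx : x ∈ R.Ed) : ∃ a < 243, IsCls (R.π x) (dC a) := by
  obtain ⟨y, hy, e⟩ := R.mem_pull.1 hx
  obtain ⟨hs, hd⟩ := mem_diagG.1 hy
  obtain ⟨a, ha, h⟩ := exists_idx_of_mem_diagS hd
  refine ⟨a, ha, y, ?_, e⟩
  rw [dC, List.getD_eq_getElem?_getD, List.getElem?_eq_getElem (by rw [mon_facts.1.2.2.2]; exact ha)]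
  rw [List.getD_eq_getElem?_getD, List.getElem?_eq_getElem (by rw [mon_facts.1.2.2.2]; exact ha)] at h
  exact h

theorem exists_lift_cls {K : Subgroup (SU6 F)} (hK : K ≤ sub 0) {X : ℕ} (h : Real K X) :
    ∃ a ∈ R.pull K, IsCls (R.π a) X := by
  obtain ⟨g, hg, e⟩ := h
  exact ⟨R.lift (QuotientGroup.mk' Z0 ⟨g, hK hg⟩), R.mem_pull.2 ⟨⟨g, hK hg⟩, hg, (R.π_lift _).symm⟩,
    ⟨g, hK hg⟩, e, (R.π_lift _).symm⟩

theorem diagG_le_sub : diagG (F := F) ≤ sub 0 := diagG_le_monoE.trans (monoE_le_sub 0)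

theorem real_dC (a : ℕ) : Real (diagG (F := F)) (dC a) := by
  rw [dC, List.getD_eq_getElem?_getD]
  rcases Nat.lt_or_ge a dTab.length with h | h
  · rw [List.getElem?_eq_getElem h, Option.getD_some]
    obtain ⟨g, -, e⟩ := real_dTab (F := F) _ (List.getElem_mem h)
    refine ⟨g, ?_, e⟩
    have ha : a < 243 := by rw [← mon_facts.1.2.2.2]; exact h
    refine mem_diagG.2 (dTab_diag ha (e.trans ?_))
    rw [List.getD_eq_getElem?_getD, List.getElem?_eq_getElem h, Option.getD_some]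
  · rw [List.getElem?_eq_none h]; exact Real.one _

/-- A preimage of a diagonal element. -/
noncomputable def dl (a : ℕ) : A := (R.exists_lift_cls diagG_le_sub (real_dC a)).choose

theorem dl_mem (a : ℕ) : R.dl a ∈ R.Ed := (R.exists_lift_cls diagG_le_sub (real_dC a)).choose_spec.1

theorem dl_cls (a : ℕ) : IsCls (R.π (R.dl a)) (dC a) :=
  (R.exists_lift_cls diagG_le_sub (real_dC a)).choose_spec.2

/-- A preimage of a product. -/
noncomputable def prodA : List ℕ → List ℕ → A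
  | g :: gs, m :: ms => R.dl g ^ m * prodA gs ms
  | _, _ => 1

theorem powC_cls {s : S0 F} {X : ℕ} (h : IsCls s X) : ∀ n, IsCls (s ^ n) (powC X n)
  | 0 => by rw [pow_zero]; exact IsCls.one
  | n + 1 => by rw [pow_succ', powC, force_eq]; exact h.mul (powC_cls h n)

theorem prodA_cls : ∀ gs ms : List ℕ, IsCls (R.π (R.prodA gs ms)) (prodC gs ms)
  | [], _ => by simp only [prodA, map_one]; exact IsCls.one
  | _ :: _, [] => by simp only [prodA, map_one]; exact IsCls.one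
  | g :: gs, m :: ms => by
    simp only [prodA, prodC, force_eq, map_mul, map_pow]
    exact (powC_cls (R.dl_cls g) m).mul (prodA_cls gs ms)

theorem prodA_mem {H : Subgroup A} : ∀ gs ms : List ℕ, (∀ g ∈ gs, R.dl g ∈ H) → R.prodA gs ms ∈ H
  | [], _, _ => by simp only [prodA]; exact one_mem _
  | _ :: _, [], _ => by simp only [prodA]; exact one_mem _
  | g :: gs, m :: ms, h => by
    simp only [prodA]
    exact mul_mem (pow_mem (h g List.mem_cons_self) m) (prodA_mem gs ms fun x hx => h x (List.mem_cons_of_mem _ hx))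

/-- A spanning list generates the preimage modulo the kernel. -/
theorem Ed_le {gs : List ℕ} (hgs : spanOK gs = true) (H : Subgroup A) (hk : ∀ a, R.π a = 1 → a ∈ H)
    (hg : ∀ g ∈ gs, R.dl g ∈ H) : R.Ed ≤ H := by
  intro x hx
  obtain ⟨a, ha, hc⟩ := R.exists_cls_diag hx
  simp only [spanOK, force_eq, List.all_eq_true, List.any_eq_true, List.mem_range] at hgs
  obtain ⟨n, -, hn⟩ := hgs a ha
  have h1 := R.prodA_cls gs (dig5 n)
  rw [← Nat.eq_of_beq_eq_true hn] at h1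
  have h2 : R.π ((R.prodA gs (dig5 n))⁻¹ * x) = 1 := by
    rw [map_mul, map_inv, hc.eq h1, inv_mul_cancel]
  have := mul_mem (R.prodA_mem gs (dig5 n) hg) (hk _ h2)
  simpa using this

/-- Invariant subgroups between the kernel and the preimage of the diagonal group. -/
theorem irreducible (H : Subgroup A) (hk : ∀ a, R.π a = 1 → a ∈ H) (hH : H ≤ R.Ed)
    (hn : ∀ n ∈ R.Nm, ∀ x ∈ H, n * x * n⁻¹ ∈ H) : (∀ x ∈ H, R.π x = 1) ∨ H = R.Ed := by
  let R0 : Subgroup (SU6 F) := ((H.map R.π).comap (QuotientGroup.mk' Z0)).map (sub 0).subtype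
  have hmem : ∀ g : SU6 F, g ∈ R0 ↔ ∃ y : sub (F := F) 0, y.1 = g ∧ ∃ x ∈ H, R.π x = QuotientGroup.mk' Z0 y := by
    intro g
    simp only [R0, Subgroup.mem_map, Subgroup.mem_comap, Subgroup.coe_subtype]
    exact ⟨fun ⟨y, hy, e⟩ => ⟨y, e, hy⟩, fun ⟨y, e, hy⟩ => ⟨y, hy, e⟩⟩
  have h1 : Subgroup.center (SU6 F) ≤ R0 := fun g hg =>
    (hmem g).2 ⟨⟨g, center_le_sub 0 hg⟩, rfl, 1, one_mem _, by
      rw [map_one]; exact ((QuotientGroup.eq_one_iff _).2 (Subgroup.mem_subgroupOf.2 hg)).symm⟩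
  have h2 : R0 ≤ diagG := by
    intro g hg
    obtain ⟨y, rfl, x, hx, e⟩ := (hmem g).1 hg
    obtain ⟨b, hb, eb⟩ := R.mem_pull.1 (hH hx)
    have : y⁻¹ * b ∈ Z0 := QuotientGroup.eq.1 (e.symm.trans eb.symm)
    have h3 : y.1⁻¹ * b.1 ∈ diagG (F := F) := center_le_diagG this
    have := mul_mem hb (inv_mem h3)
    simpa using this
  have h3 : ∀ n ∈ monoE, ∀ g ∈ R0, n * g * n⁻¹ ∈ R0 := by
    intro n hnm g hg
    obtain ⟨y, rfl, x, hx, e⟩ := (hmem g).1 hg
    have hw := R.π_lift (QuotientGroup.mk' Z0 ⟨n, monoE_le_sub 0 hnm⟩)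
    have hwN : R.lift (QuotientGroup.mk' Z0 ⟨n, monoE_le_sub 0 hnm⟩) ∈ R.Nm :=
      R.mem_pull.2 ⟨_, hnm, hw.symm⟩
    exact (hmem _).2 ⟨⟨n, monoE_le_sub 0 hnm⟩ * y * ⟨n, monoE_le_sub 0 hnm⟩⁻¹, rfl, _, hn _ hwN x hx, by
      rw [map_mul, map_mul, map_inv, map_mul, map_mul, map_inv, hw, e]⟩
  rcases diag_irreducible R0 h1 h2 h3 with h | h
  · left
    intro x hx
    obtain ⟨y, hy⟩ := QuotientGroup.mk'_surjective Z0 (R.π x)
    have : y.1 ∈ R0 := (hmem _).2 ⟨y, rfl, x, hx, hy.symm⟩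
    rw [h] at this
    rw [← hy]
    exact (QuotientGroup.eq_one_iff _).2 this
  · right
    refine le_antisymm hH fun x hx => ?_
    obtain ⟨b, hb, eb⟩ := R.mem_pull.1 hx
    have : b.1 ∈ R0 := by rw [h]; exact hb
    obtain ⟨y, hy, x', hx', e⟩ := (hmem _).1 this
    rw [show y = b from Subtype.ext hy] at e
    have hker : R.π (x'⁻¹ * x) = 1 := by rw [map_mul, map_inv, e, ← eb, inv_mul_cancel]
    simpa using mul_mem hx' (hk _ hker)

theorem comm_ker {x y : A} (hx : x ∈ R.Ed) (hy : y ∈ R.Ed) : R.π (x * y) = R.π (y * x) := by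
  obtain ⟨a, ha, ea⟩ := R.mem_pull.1 hx
  obtain ⟨b, hb, eb⟩ := R.mem_pull.1 hy
  obtain ⟨has, had⟩ := mem_diagG.1 ha
  obtain ⟨hbs, hbd⟩ := mem_diagG.1 hb
  rw [map_mul, map_mul, ← ea, ← eb, ← map_mul, ← map_mul,
    show a * b = b * a from Subtype.ext (diag_commute had hbd)]

theorem cube_ker {x : A} (hx : x ∈ R.Ed) : R.π (x * (x * x)) = 1 := by
  obtain ⟨a, ha, ea⟩ := R.mem_pull.1 hx
  obtain ⟨has, had⟩ := mem_diagG.1 ha
  rw [map_mul, map_mul, ← ea, ← map_mul, ← map_mul, show a * (a * a) = 1 from Subtype.ext (diag_cube had),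
    map_one]

theorem dl_e_commute (a b : ℕ) (h : (a, b) ∈ invIx) : R.dl eIx * R.dl a = R.dl a * R.dl eIx := by
  have hr := rad_ok
  simp only [radOK, Bool.and_eq_true, List.all_eq_true] at hr
  obtain ⟨hpe, hpa⟩ := hr.2 _ h
  obtain ⟨y, hyN, hy⟩ := R.exists_lift_cls (monoE_le_sub 0) (real_pTab_getD (F := F) b)
  set e := R.dl eIx
  set d := R.dl a
  have e1 : R.π (y * e) = R.π (e * y) := by
    have := hy.mul (R.dl_cls eIx)
    rw [show mmC (pTab.getD b oneC) (dC eIx) = mmC (dC eIx) (pTab.getD b oneC) from Nat.eq_of_beq_eq_true hpe] at this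
    rw [map_mul, map_mul]
    exact this.eq ((R.dl_cls eIx).mul hy)
  have e2 : R.π (y * d) = R.π (d⁻¹ * y) := by
    have := hy.mul (R.dl_cls a)
    rw [show mmC (pTab.getD b oneC) (dC a) = mmC (mmC (dC a) (dC a)) (pTab.getD b oneC) from
      Nat.eq_of_beq_eq_true hpa] at this
    have h2 := this.eq (((R.dl_cls a).mul (R.dl_cls a)).mul hy)
    have h3 : R.π d⁻¹ = R.π d * R.π d := by
      rw [map_inv]
      refine inv_eq_of_mul_eq_one_right ?_
      rw [← map_mul, ← map_mul]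
      exact R.cube_ker (R.dl_mem a)
    rw [map_mul, map_mul, h3]
    exact h2
  have k1 : R.π (y * e * y⁻¹ * e⁻¹) = 1 := by rw [map_mul, map_mul, e1, map_mul, map_inv, map_inv]; group
  have k2 : R.π (y * d * y⁻¹ * d) = 1 := by rw [map_mul, map_mul, e2, map_mul, map_inv, map_inv]; group
  set z1 := y * e * y⁻¹ * e⁻¹ with hz1
  set z2 := y * d * y⁻¹ * d with hz2
  set c := e * d * e⁻¹ * d⁻¹ with hc
  have kc : R.π c = 1 := by
    have := R.comm_ker (R.dl_mem eIx) (R.dl_mem a)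
    rw [hc, show e * d * e⁻¹ * d⁻¹ = e * d * (d * e)⁻¹ by group, map_mul, map_inv, this, mul_inv_cancel]
  have hcy : y * c * y⁻¹ = c := by rw [R.ker_comm kc y, mul_inv_cancel_right]
  have hye : y * e * y⁻¹ = z1 * e := by rw [hz1]; group
  have hyd : y * d * y⁻¹ = z2 * d⁻¹ := by rw [hz2]; group
  have hkey : c = c⁻¹ := by
    calc c = (y * e * y⁻¹) * (y * d * y⁻¹) * (y * e * y⁻¹)⁻¹ * (y * d * y⁻¹)⁻¹ := by
          conv_lhs => rw [← hcy, hc]
          group
      _ = (z1 * e) * (z2 * d⁻¹) * (z1 * e)⁻¹ * (z2 * d⁻¹)⁻¹ := by rw [hye, hyd]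
      _ = z1 * (e * z2) * d⁻¹ * e⁻¹ * z1⁻¹ * (d * z2⁻¹) := by group
      _ = z1 * (z2 * e) * d⁻¹ * e⁻¹ * z1⁻¹ * (d * z2⁻¹) := by rw [R.ker_comm k2 e]
      _ = (z1 * z2) * ((e * d⁻¹ * e⁻¹ * z1⁻¹) * d * z2⁻¹) := by group
      _ = (z1 * z2) * ((z1⁻¹ * (e * d⁻¹ * e⁻¹)) * d * z2⁻¹) := by
          rw [R.ker_comm (show R.π z1⁻¹ = 1 by rw [map_inv, k1, inv_one]) (e * d⁻¹ * e⁻¹)]
      _ = (z1 * z2) * z1⁻¹ * ((e * d⁻¹ * e⁻¹ * d) * z2⁻¹) := by group
      _ = (z1 * z2) * z1⁻¹ * (z2⁻¹ * (e * d⁻¹ * e⁻¹ * d)) := by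
          rw [R.ker_comm (show R.π z2⁻¹ = 1 by rw [map_inv, k2, inv_one]) (e * d⁻¹ * e⁻¹ * d)]
      _ = (z1 * z2 * z1⁻¹) * z2⁻¹ * (e * d⁻¹ * e⁻¹ * d) := by group
      _ = e * d⁻¹ * e⁻¹ * d := by rw [R.ker_comm k2 z1]; group
      _ = d⁻¹ * c⁻¹ * d := by rw [hc]; group
      _ = c⁻¹ := by rw [R.ker_comm (show R.π c⁻¹ = 1 by rw [map_inv, kc, inv_one]) d⁻¹]; group
  have h3 := R.ker_cube kc
  have hc1 : c = 1 := by
    rw [eq_inv_iff_mul_eq_one] at hkey
    rwa [hkey, mul_one] at h3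
  rw [hc, mul_inv_eq_one, mul_inv_eq_iff_eq_mul] at hc1
  exact hc1

theorem e_not_ker : R.π (R.dl eIx) ≠ 1 := by
  intro h
  obtain ⟨g, hg, e⟩ := R.dl_cls eIx
  rw [h] at e
  have hgz : g.1 ∈ Subgroup.center (SU6 F) := Subgroup.mem_subgroupOf.1 ((QuotientGroup.eq_one_iff _).1 e)
  have hd : ∀ a, a = eIx → dC a = dTab.getD a 0 ∧ isZ (dTab.getD a 0) = false := by
    intro a ha; subst ha; decide +kernel
  obtain ⟨h1, h2⟩ := hd eIx rfl
  rw [h1] at hg
  rw [(isZ_iff (by decide) hg).1 hgz] at h2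
  exact absurd h2 (by simp)

theorem Ed_comm : ∀ x ∈ R.Ed, ∀ y ∈ R.Ed, x * y = y * x := by
  have he : ∀ x ∈ R.Ed, R.dl eIx * x = x * R.dl eIx := by
    intro x hx
    have h := R.Ed_le span_rad (Subgroup.centralizer {R.dl eIx}) (fun a ha =>
      Subgroup.mem_centralizer_singleton_iff.2 (R.ker_comm ha _).symm) (fun g hg => by
        refine Subgroup.mem_centralizer_singleton_iff.2 ?_
        simp only [radGen, List.mem_cons, List.not_mem_nil, or_false] at hg
        rcases hg with rfl | rfl | rfl | rfl | rfl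
        · have hz : R.π (R.dl zIx) = 1 := by
            obtain ⟨g, hg, e⟩ := R.dl_cls zIx
            rw [← e]
            refine (QuotientGroup.eq_one_iff _).2 (Subgroup.mem_subgroupOf.2 ?_)
            have hd : ∀ a, a = zIx → dC a = dTab.getD a 0 ∧ isZ (dTab.getD a 0) = true := by
              intro a ha; subst ha; decide +kernel
            obtain ⟨h1, h2⟩ := hd zIx rfl
            rw [h1] at hg
            exact (isZ_iff (by decide) hg).2 h2
          exact (R.ker_comm hz _).symm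
        · rfl
        · exact (R.dl_e_commute 6 150 (by decide)).symm
        · exact (R.dl_e_commute 11 163 (by decide)).symm
        · exact (R.dl_e_commute 15 150 (by decide)).symm) hx
    exact (Subgroup.mem_centralizer_singleton_iff.1 h).symm
  have hall := R.irreducible (R.Ed ⊓ Subgroup.centralizer (R.Ed : Set A))
    (fun a ha => ⟨R.ker_le_Ed ha, Subgroup.mem_centralizer_iff.2 fun b _ => R.ker_comm ha b⟩) inf_le_left
    (fun n hn x hx => ⟨R.Nm_conj hn hx.1, Subgroup.mem_centralizer_iff.2 fun y hy => by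
      have hy' : n⁻¹ * y * n ∈ R.Ed := by simpa using R.Nm_conj (inv_mem hn) hy
      have := Subgroup.mem_centralizer_iff.1 hx.2 _ hy'
      calc y * (n * x * n⁻¹) = n * (n⁻¹ * y * n * x) * n⁻¹ := by group
        _ = n * (x * (n⁻¹ * y * n)) * n⁻¹ := by rw [this]
        _ = n * x * n⁻¹ * y := by group⟩)
  rcases hall with h | h
  · exact absurd (h _ ⟨R.dl_mem eIx, Subgroup.mem_centralizer_iff.2 fun y hy => (he y hy).symm⟩) R.e_not_ker
  · intro x hx y hy
    have : y ∈ R.Ed ⊓ Subgroup.centralizer (R.Ed : Set A) := by rw [h]; exact hy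
    exact Subgroup.mem_centralizer_iff.1 this.2 x hx

theorem card_Ed [Finite A] : Nat.card R.Ed = 243 := by
  have hk : Nat.card R.π.ker = 3 := by rw [R.ker, Nat.card_zpowers, R.order_x0]
  have h1 := R.π.ker.card_mul_index
  rw [Subgroup.index_ker, MonoidHom.range_eq_top.2 R.surj, Subgroup.card_top] at h1
  have h2 := R.Ed.card_mul_index
  rw [Ed, pull, Subgroup.index_comap_of_surjective _ R.surj] at h2
  have h3 := (diagG.subgroupOf (sub (F := F) 0)).card_mul_index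
  rw [Nat.card_congr (Subgroup.subgroupOfEquivOfLe diagG_le_sub).toEquiv, card_diagG,
    ← Subgroup.index_map_eq _ (QuotientGroup.mk'_surjective (Z0 (F := F))) (by
      rw [QuotientGroup.ker_mk']; exact fun x hx => center_le_diagG hx)] at h3
  have h4 := (Z0 (F := F)).card_eq_card_quotient_mul_card_subgroup
  rw [Nat.card_congr (Subgroup.subgroupOfEquivOfLe (center_le_sub 0)).toEquiv, card_center, ← h3] at h4
  have hpos : 0 < (Subgroup.map (QuotientGroup.mk' (Z0 (F := F))) (diagG.subgroupOf (sub 0))).index :=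
    Nat.pos_of_ne_zero Subgroup.index_ne_zero_of_finite
  refine Nat.eq_of_mul_eq_mul_right hpos (h2.trans ?_)
  rw [← h1, hk, h4]
  exact Nat.mul_comm _ _

theorem Ed_cube [Finite A] : ∀ x ∈ R.Ed, x * (x * x) = 1 := by
  let H : Subgroup A :=
    { carrier := {x | x ∈ R.Ed ∧ x * (x * x) = 1}
      one_mem' := ⟨one_mem _, by simp⟩
      mul_mem' := fun {a b} ha hb => ⟨mul_mem ha.1 hb.1, by
        have h : Commute a b := R.Ed_comm a ha.1 b hb.1
        calc a * b * (a * b * (a * b)) = (a * b) ^ 3 := by simp only [pow_succ, pow_zero, one_mul, mul_assoc]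
          _ = a ^ 3 * b ^ 3 := h.mul_pow 3
          _ = a * (a * a) * (b * (b * b)) := by simp only [pow_succ, pow_zero, one_mul, mul_assoc]
          _ = 1 := by rw [ha.2, hb.2, one_mul]⟩
      inv_mem' := fun {a} ha => ⟨inv_mem ha.1, by
        calc a⁻¹ * (a⁻¹ * a⁻¹) = (a * (a * a))⁻¹ := by group
          _ = 1 := by rw [ha.2, inv_one]⟩ }
  have hall := R.irreducible H (fun a ha => ⟨R.ker_le_Ed ha, R.ker_cube ha⟩) (fun a ha => ha.1)
    (fun n hn x hx => ⟨R.Nm_conj hn hx.1, by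
      calc n * x * n⁻¹ * (n * x * n⁻¹ * (n * x * n⁻¹)) = n * (x * (x * x)) * n⁻¹ := by group
        _ = 1 := by rw [hx.2, mul_one, mul_inv_cancel]⟩)
  rcases hall with h | h
  · -- the cube map has too small a kernel
    exfalso
    let f : R.Ed →* A :=
      { toFun := fun x => x.1 ^ 3
        map_one' := one_pow _
        map_mul' := fun a b => (show Commute a.1 b.1 from R.Ed_comm _ a.2 _ b.2).mul_pow 3 }
    have hk : Nat.card R.π.ker = 3 := by rw [R.ker, Nat.card_zpowers, R.order_x0]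
    have h1 := f.ker.card_mul_index
    rw [Subgroup.index_ker, R.card_Ed] at h1
    have h2 : Nat.card f.range ≤ 3 := by
      rw [← hk]
      refine Subgroup.card_le_of_le ?_
      rintro _ ⟨x, rfl⟩
      show R.π (x.1 ^ 3) = 1
      have : x.1 ^ 3 = x.1 * (x.1 * x.1) := by simp only [pow_succ, pow_zero, one_mul, mul_assoc]
      rw [this]; exact R.cube_ker x.2
    have h3 : Nat.card f.ker ≤ 3 := by
      rw [← hk]
      refine Nat.card_le_card_of_injective (fun x => ⟨x.1.1, h x.1.1 ⟨x.1.2, ?_⟩⟩) fun a b e =>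
        Subtype.ext (Subtype.ext (congrArg Subtype.val e :))
      have := MonoidHom.mem_ker.1 x.2
      have e : x.1.1 ^ 3 = x.1.1 * (x.1.1 * x.1.1) := by simp only [pow_succ, pow_zero, one_mul, mul_assoc]
      rw [← e]; exact this
    have := Nat.mul_le_mul h3 h2
    omega
  · intro x hx
    exact (show x ∈ H from h ▸ hx).2

end Ext

end Cfsg.Agent.H8.LFT
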