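import Cfsg.Agent.H8.LFT.Fusion
import Cfsg.Agent.H18.Singular.Final

/-!
# The two-local subgroup of a conjugate of the central involution
-/

set_option autoImplicit false
set_option linter.unusedSectionVars false

namespace Cfsg.Agent.H8.LFT

open Matrix Cfsg.Agent.H8.U62 Cfsg.Agent.H8.U62.Setup

/-- Two homomorphisms onto groups with the same kernel. -/
theorem nonempty_equiv_of_ker_eq {S A B : Type*} [Group S] [Group A] [Group B] [Finite B]
    (f1 : S →* A) (f2 : S →* B) (h1 : Function.Surjective f1) (hk : f1.ker = f2.ker)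
    (hc : Nat.card B ≤ Nat.card A) : Nonempty (B ≃* A) := by
  have e1 := QuotientGroup.quotientKerEquivOfSurjective f1 h1
  have e2 := QuotientGroup.quotientKerEquivRange f2
  have hr : f2.range = ⊤ := by
    refine Subgroup.eq_top_of_le_card _ ?_
    rw [← Nat.card_congr e2.toEquiv, ← hk, Nat.card_congr e1.toEquiv]
    exact hc
  exact ⟨((Subgroup.topEquiv.symm.trans (MulEquiv.subgroupCongr hr.symm)).trans e2.symm).trans
    ((QuotientGroup.quotientMulEquivOfEq hk.symm).trans e1)⟩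

variable {G : Type*} [Group G] [Finite G] {z : G} {Q : Subgroup (Subgroup.centralizer ({z} : Set G))} [Q.Normal]
  {F : Type} [Setup F]

/-- `Q` in the group. -/
abbrev EE (Q : Subgroup (Subgroup.centralizer ({z} : Set G))) : Subgroup G :=
  Q.map (Subgroup.centralizer ({z} : Set G)).subtype

/-- `Q` of a conjugate, in the centralizer. -/
abbrev DG (Q : Subgroup (Subgroup.centralizer ({z} : Set G))) (g : G) : Subgroup (Subgroup.centralizer ({z} : Set G)) :=
  ((EE Q).map (MulAut.conj g).toMonoidHom ⊓ Subgroup.centralizer ({z} : Set G)).subgroupOf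
    (Subgroup.centralizer ({z} : Set G))

namespace Model

variable (D : Model z Q F)

/-- The elements fixing the class of `s`. -/
noncomputable def St (s : Q) : Subgroup (Subgroup.centralizer ({z} : Set G)) where
  carrier := {h | D.v (cj h s) = D.v s}
  one_mem' := by
    show D.v (cj 1 s) = D.v s
    rw [cj_one]
  mul_mem' := fun {a b} ha hb => by
    show D.v (cj (a * b) s) = D.v s
    rw [← cj_cj]
    exact (D.v_cj_congr a hb).trans ha
  inv_mem' := fun {a} ha => by
    show D.v (cj a⁻¹ s) = D.v s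
    have h := D.v_cj_congr a⁻¹ ha
    rw [cj_cj, inv_mul_cancel, cj_one] at h
    exact h.symm

theorem mem_St {s : Q} {h : Subgroup.centralizer ({z} : Set G)} : h ∈ D.St s ↔ D.v (cj h s) = D.v s := Iff.rfl

include D in
theorem Q_le_St (s : Q) {u : Subgroup.centralizer ({z} : Set G)} (hu : u ∈ Q) :
    D.v (cj u s) = D.v s := by
  have h := D.v_conj ⟨u, D.le hu⟩ s
  rw [(D.ρ_ker _).2 hu, mat_one, Matrix.one_mulVec] at h
  exact h

end Model

/-- The properties of a conjugate of the central involution in `Q`. -/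
structure Loc (Q : Subgroup (Subgroup.centralizer ({z} : Set G))) [Q.Normal] (g : G) : Prop where
  elem : Cfsg.IsElementaryAbelian 2 (EE Q ⊓ (EE Q).map (MulAut.conj g).toMonoidHom)
  card_inter : Nat.card ↥(EE Q ⊓ (EE Q).map (MulAut.conj g).toMonoidHom) = 2 ^ 7
  fix : ∀ d ∈ DG Q g, (d : G) * (g * z * g⁻¹) = g * z * g⁻¹ * (d : G)
  normalised : ∀ h : Subgroup.centralizer ({z} : Set G), (h : G) * (g * z * g⁻¹) = g * z * g⁻¹ * (h : G) →
    ∀ d ∈ DG Q g, h * d * h⁻¹ ∈ DG Q g
  card_E : Nat.card ((DG Q g).map (QuotientGroup.mk' Q)) = 32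
  elem_E : Cfsg.IsElementaryAbelian 2 ((DG Q g).map (QuotientGroup.mk' Q))

namespace Model

variable (D : Model z Q F)

include D in
theorem inter_facts (g : G) (hs : g * z * g⁻¹ ∈ EE Q) (hne : g * z * g⁻¹ ≠ z) :
    Cfsg.IsElementaryAbelian 2 (EE Q ⊓ (EE Q).map (MulAut.conj g).toMonoidHom) ∧
      z ∈ (EE Q).map (MulAut.conj g).toMonoidHom ∧
      Nat.card ↥(EE Q ⊓ (EE Q).map (MulAut.conj g).toMonoidHom) ≤ 2 ^ 7 := by
  have hE := D.sing.conj g
  have hcardE : Nat.card (EE Q) = 2 ^ 13 := by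
    rw [Subgroup.card_map_of_injective (Subgroup.subtype_injective _), D.card_Q]
  have hzE : z ∈ (EE Q).map (MulAut.conj g).toMonoidHom := by
    refine D.sing.symm_of_conj_big hE ?_ (g := g) rfl (fun a => ?_) hs
    · rw [hcardE]; norm_num
    · constructor
      · exact fun ha => ⟨a, ha, rfl⟩
      · rintro ⟨b, hb, e⟩
        rwa [← (MulAut.conj g).injective e]
  set R := EE Q ⊓ (EE Q).map (MulAut.conj g).toMonoidHom with hR
  have hcomm : ∀ a ∈ R, ∀ b ∈ R, b * a = a * b := by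
    intro a ha b hb
    have c1 := D.sing.pair (D.sing.comm hb.1 ha.1)
    have c2 := hE.pair (hE.comm hb.2 ha.2)
    have : b * a * b⁻¹ * a⁻¹ = 1 := by
      rcases c1 with e | e
      · exact e
      · rcases c2 with e' | e'
        · exact e'
        · exact absurd (e'.symm.trans e) hne
    rwa [mul_inv_eq_one, mul_inv_eq_iff_eq_mul] at this
  refine ⟨⟨⟨⟨fun a b => Subtype.ext (hcomm b.1 b.2 a.1 a.2)⟩⟩, fun a ha => ?_⟩, hzE, ?_⟩
  · have c1 := D.sing.pair (D.sing.sq ha.1)
    have c2 := hE.pair (hE.sq ha.2)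
    rw [pow_two]
    rcases c1 with e | e
    · exact e
    · rcases c2 with e' | e'
      · exact e'
      · exact absurd (e'.symm.trans e) hne
  · have hab : R ≤ EE Q ⊓ Subgroup.centralizer (R : Set G) := fun a ha =>
      ⟨ha.1, fun b hb => hcomm a ha b hb⟩
    have h := D.sing.card_mul R inf_le_left ⟨D.sing.mem, hzE⟩
    rw [hcardE] at h
    have h' := Subgroup.card_le_of_le hab
    by_contra hlt
    have hge : 2 ^ 7 + 1 ≤ Nat.card R := Nat.succ_le_of_lt (not_le.1 hlt)
    have hm := Nat.mul_le_mul hge (le_trans hge h')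
    have hh : Nat.card R * Nat.card ↥(EE Q ⊓ Subgroup.centralizer (R : Set G)) = 2 * 2 ^ 13 := h
    rw [hh] at hm
    norm_num at hm

include D in
theorem le_card_DG (g : G) (hs : g * z * g⁻¹ ∈ EE Q) (hne : g * z * g⁻¹ ≠ z) :
    2 ^ 12 ≤ Nat.card ((DG Q g).map (QuotientGroup.mk' Q)) *
      Nat.card ↥(EE Q ⊓ (EE Q).map (MulAut.conj g).toMonoidHom) := by
  have hE := D.sing.conj g
  obtain ⟨-, hzE, -⟩ := D.inter_facts g hs hne
  set E' := (EE Q).map (MulAut.conj g).toMonoidHom with hE'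
  have h1 := H18.index_centralizer_singleton_le hE.ext ⟨z, hzE⟩
  have h2 := Subgroup.card_mul_index (Subgroup.centralizer ({⟨z, hzE⟩} : Set E'))
  have h3 : Nat.card (Subgroup.centralizer ({⟨z, hzE⟩} : Set E')) ≤ Nat.card (DG Q g) := by
    refine Nat.card_le_card_of_injective (fun a => ⟨⟨((a : E') : G),
      Subgroup.mem_centralizer_singleton_iff.2
        (congrArg Subtype.val (Subgroup.mem_centralizer_singleton_iff.1 a.2))⟩,
      Subgroup.mem_inf.2 ⟨(a : E').2, Subgroup.mem_centralizer_singleton_iff.2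
        (congrArg Subtype.val (Subgroup.mem_centralizer_singleton_iff.1 a.2))⟩⟩) ?_
    intro a b h
    exact Subtype.ext (Subtype.ext (congrArg (fun t : DG Q g => ((t : Subgroup.centralizer ({z} : Set G)) : G)) h))
  have h4 : Nat.card E' = 2 ^ 13 := by
    rw [hE', Subgroup.card_map_of_injective (MulAut.conj g).injective,
      Subgroup.card_map_of_injective (Subgroup.subtype_injective _), D.card_Q]
  rw [h4] at h2
  have h12 : 2 ^ 12 ≤ Nat.card (DG Q g) := by
    have := Nat.mul_le_mul h3 h1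
    rw [h2] at this
    omega
  refine le_trans h12 ?_
  have hker := Subgroup.card_mul_index (((QuotientGroup.mk' Q).comp (DG Q g).subtype).ker)
  rw [Subgroup.index_ker, MonoidHom.range_comp, Subgroup.range_subtype] at hker
  rw [← hker, Nat.mul_comm]
  refine Nat.mul_le_mul_left _ ?_
  refine Nat.card_le_card_of_injective (fun a => ⟨((a.1 : DG Q g) : Subgroup.centralizer ({z} : Set G)), ?_⟩) ?_
  · refine Subgroup.mem_inf.2 ⟨⟨_, ?_, rfl⟩, (Subgroup.mem_inf.1 (Subgroup.mem_subgroupOf.1 a.1.2)).1⟩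
    exact (QuotientGroup.eq_one_iff _).1 (MonoidHom.mem_ker.1 a.2)
  · intro a b h
    exact Subtype.ext (Subtype.ext (Subtype.ext (congrArg (fun t : ↥(EE Q ⊓ E') => (t : G)) h)))

/-- The structure of the two-local subgroup of a conjugate of `z`. -/
theorem local_structure (g : G) (s : Q) (hgs : g * z * g⁻¹ = gv s) (hne : gv s ≠ z) :
    D.Cls 1 s ∧ Loc Q g ∧ ∀ (X : Subgroup (Subgroup.centralizer ({z} : Set G) ⧸ Q)),
      X = (D.St s).map (QuotientGroup.mk' Q) → (DG Q g).map (QuotientGroup.mk' Q) ≤ X ∧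
      (∀ x ∈ X, ∀ y ∈ (DG Q g).map (QuotientGroup.mk' Q), x * y * x⁻¹ ∈ (DG Q g).map (QuotientGroup.mk' Q)) ∧
      ∃ _ : (((DG Q g).map (QuotientGroup.mk' Q)).subgroupOf X).Normal,
        Nonempty (↥X ⧸ ((DG Q g).map (QuotientGroup.mk' Q)).subgroupOf X ≃* alternatingGroup (Fin 6)) := by
  classical
  have hE := D.sing.conj g
  have hs : g * z * g⁻¹ ∈ EE Q := ⟨_, s.2, hgs.symm⟩
  have hne' : g * z * g⁻¹ ≠ z := hgs ▸ hne
  obtain ⟨helem, hzE, hR⟩ := D.inter_facts g hs hne'
  have hlb := D.le_card_DG g hs hne'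
  have hs1 : gv s ≠ 1 := fun e => hE.xne (by rw [hgs]; exact e)
  have hss : gv s * gv s = 1 := by rw [← hgs]; exact hE.xx
  set E := (DG Q g).map (QuotientGroup.mk' Q) with hEdef
  -- elements of the two-local subgroup
  have hfix : ∀ d ∈ DG Q g, (d : G) * (g * z * g⁻¹) = g * z * g⁻¹ * (d : G) := fun d hd =>
    hE.comm_x _ (Subgroup.mem_inf.1 (Subgroup.mem_subgroupOf.1 hd)).1
  have hnorm : ∀ h : Subgroup.centralizer ({z} : Set G), (h : G) * (g * z * g⁻¹) = g * z * g⁻¹ * (h : G) →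
      ∀ d ∈ DG Q g, h * d * h⁻¹ ∈ DG Q g := fun h hh d hd => by
    refine Subgroup.mem_subgroupOf.2 (Subgroup.mem_inf.2 ⟨?_, (h * d * h⁻¹).2⟩)
    exact hE.norm (h : G) hh _ (Subgroup.mem_inf.1 (Subgroup.mem_subgroupOf.1 hd)).1
  have hsQ : ∀ c : Subgroup.centralizer ({z} : Set G),
      (c : G) ∈ Subgroup.zpowers (g * z * g⁻¹) → (QuotientGroup.mk' Q) c = 1 := by
    intro c hc
    refine (QuotientGroup.eq_one_iff c).2 ?_
    rcases hE.pair hc with e | e
    · rw [show c = 1 from Subtype.ext e]; exact one_mem _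
    · rw [show c = s.1 from Subtype.ext (e.trans hgs)]; exact s.2
  have hElem : Cfsg.IsElementaryAbelian 2 E := by
    refine ⟨⟨⟨fun a b => ?_⟩⟩, fun a ha => ?_⟩
    · obtain ⟨a', ha', ea⟩ := a.2
      obtain ⟨b', hb', eb⟩ := b.2
      refine Subtype.ext ?_
      show a.1 * b.1 = b.1 * a.1
      rw [← ea, ← eb, ← mul_inv_eq_one, ← map_mul, ← map_mul, ← map_inv, ← map_mul]
      refine hsQ _ ?_
      have := hE.comm (Subgroup.mem_inf.1 (Subgroup.mem_subgroupOf.1 ha')).1
        (Subgroup.mem_inf.1 (Subgroup.mem_subgroupOf.1 hb')).1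
      simp only [Subgroup.coe_mul, Subgroup.coe_inv, _root_.mul_inv_rev]
      rwa [← mul_assoc]
    · obtain ⟨a', ha', rfl⟩ := ha
      rw [pow_two, ← map_mul]
      refine hsQ _ ?_
      exact hE.sq (Subgroup.mem_inf.1 (Subgroup.mem_subgroupOf.1 ha')).1
  -- the stabiliser of the class and its normal two-subgroup
  set DQ := E.comap (QuotientGroup.mk' Q) with hDQ
  have memDQ : ∀ y, y ∈ DQ ↔ (QuotientGroup.mk' Q) y ∈ E := fun y => Iff.rfl
  have hexact : ∀ h ∈ D.St s, ∃ u ∈ Q, cj (u * h) s = s := by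
    intro h hh
    obtain ⟨u, hu, e⟩ := D.exists_exact (a := cj h s) (r := s) hh hs1 hne
    exact ⟨u, hu, by rw [← cj_cj, e]⟩
  have hnormE : ∀ h ∈ D.St s, ∀ y ∈ E, (QuotientGroup.mk' Q) h * y * ((QuotientGroup.mk' Q) h)⁻¹ ∈ E := by
    intro h hh y hy
    obtain ⟨u, hu, e⟩ := hexact h hh
    obtain ⟨d, hd, rfl⟩ := hy
    have hc : ((u * h : Subgroup.centralizer ({z} : Set G)) : G) * (g * z * g⁻¹) =
        g * z * g⁻¹ * ((u * h : Subgroup.centralizer ({z} : Set G)) : G) := by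
      rw [hgs]
      have := congrArg gv e
      rw [gv_cj] at this
      exact mul_inv_eq_iff_eq_mul.1 this
    have hmk : (QuotientGroup.mk' Q) (u * h) = (QuotientGroup.mk' Q) h := by
      rw [map_mul, show (QuotientGroup.mk' Q) u = 1 from (QuotientGroup.eq_one_iff u).2 hu, one_mul]
    rw [← hmk, ← map_mul, ← map_inv, ← map_mul]
    exact ⟨_, hnorm _ hc d hd, rfl⟩
  have hQSt : Q ≤ D.St s := fun u hu => D.Q_le_St s hu
  have hDSt : DG Q g ≤ D.St s := by
    intro d hd
    refine congrArg D.v (gv_injective ?_)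
    rw [gv_cj, ← hgs, hfix d hd, mul_inv_cancel_right]
  have hDQSt : DQ ≤ D.St s := by
    intro y hy
    obtain ⟨d, hd, e⟩ := (memDQ y).1 hy
    have hq : d⁻¹ * y ∈ Q := QuotientGroup.eq.1 e
    have := (D.St s).mul_mem (hDSt hd) (hQSt hq)
    rwa [mul_inv_cancel_left] at this
  have hDQ2 : IsPGroup 2 DQ := by
    refine IsPGroup.comap_of_ker_isPGroup (fun x => ⟨1, Subtype.ext ?_⟩ : IsPGroup 2 E) _ ?_
    · rw [pow_one]; exact hElem.2 x.1 x.2
    · rw [QuotientGroup.ker_mk']
      exact IsPGroup.of_card D.card_Q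
  -- move the class to a seed
  obtain ⟨o, γ, hγ, hγs⟩ := D.exists_cls hss hs1 hne
  let f : D.M →* SU6 F := (MulAut.conj γ⁻¹).toMonoidHom.comp D.ρ
  have hfv : ∀ m : D.M, f m = γ⁻¹ * D.ρ m * γ := fun m => by simp [f]
  have hfker : ∀ m : D.M, f m = 1 ↔ (m : Subgroup.centralizer ({z} : Set G)) ∈ Q := fun m => by
    rw [← D.ρ_ker m, hfv]
    constructor
    · intro h
      calc D.ρ m = γ * (γ⁻¹ * D.ρ m * γ) * γ⁻¹ := by group
        _ = 1 := by rw [h]; group
    · intro h; rw [h]; group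
  have hfsub : ∀ m : D.M, f m ∈ sub (F := F) 0 := fun m => by
    rw [hfv]; exact mul_mem (mul_mem (inv_mem hγ) (D.ρ_range ▸ ⟨m, rfl⟩)) hγ
  have hfsurj : ∀ x ∈ sub (F := F) 0, ∃ m, f m = x := fun x hx => by
    obtain ⟨m, hm⟩ := D.exists_rho (mul_mem (mul_mem hγ hx) (inv_mem hγ))
    exact ⟨m, by rw [hfv, hm]; group⟩
  have hfst : ∀ m : D.M, (m : Subgroup.centralizer ({z} : Set G)) ∈ D.St s ↔ f m ∈ vst o.1 := fun m => by
    rw [mem_vst, mem_St, D.v_conj, ← smul_def, ← hγs, hfv, mul_smul, mul_smul, inv_smul_eq_iff]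
    exact ⟨fun h => ⟨hfv m ▸ hfsub m, h⟩, fun h => h.2⟩
  let DM : Subgroup D.M := DQ.subgroupOf D.M
  let P : Subgroup (SU6 F) := DM.map f
  have hPle : P ≤ vst o.1 := by
    rintro _ ⟨m, hm, rfl⟩
    exact (hfst m).1 (hDQSt hm)
  have hP2 : IsPGroup 2 P :=
    (IsPGroup.comap_of_injective hDQ2 D.M.subtype (Subgroup.subtype_injective _)).map _
  have hPn : ∀ x ∈ vst o.1, ∀ p ∈ P, x * p * x⁻¹ ∈ P := by
    intro x hx p hp
    obtain ⟨m, hm, rfl⟩ := hp
    obtain ⟨k, rfl⟩ := hfsurj x (mem_vst.1 hx).1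
    refine ⟨k * m * k⁻¹, ?_, by rw [map_mul, map_mul, map_inv]⟩
    show (((k * m * k⁻¹ : D.M)) : Subgroup.centralizer ({z} : Set G)) ∈ DQ
    rw [memDQ, Subgroup.coe_mul, Subgroup.coe_mul, Subgroup.coe_inv, map_mul, map_mul, map_inv]
    exact hnormE _ ((hfst k).2 hx) _ hm
  -- the comparison of orders
  have hcards : Nat.card E * 2 ^ 13 ≤ 2 * (Nat.card P * 2 ^ 13) := by
    have h1 : Nat.card E * 2 ^ 13 = Nat.card DQ := by
      have h := DQ.card_mul_index
      rw [hDQ, Subgroup.index_comap_of_surjective _ (QuotientGroup.mk'_surjective Q)] at h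
      have h' := E.card_mul_index
      have h'' := Q.card_eq_card_quotient_mul_card_subgroup
      rw [D.card_Q, ← h', ← h] at h''
      refine Nat.eq_of_mul_eq_mul_right (Nat.pos_of_ne_zero (Subgroup.index_ne_zero_of_finite (H := E))) ?_
      rw [h'']; ring
    have h2 : Nat.card DM = Nat.card P * 2 ^ 13 := by
      have h := ((f.comp DM.subtype).ker).card_mul_index
      rw [Subgroup.index_ker, MonoidHom.range_comp, Subgroup.range_subtype] at h
      rw [← h, mul_comm]
      congr 1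
      rw [← D.card_Q]
      refine (Nat.card_congr ?_).symm
      exact
        { toFun := fun q => ⟨⟨⟨q.1, D.le q.2⟩, by
              show q.1 ∈ DQ
              rw [memDQ, show (QuotientGroup.mk' Q) q.1 = 1 from (QuotientGroup.eq_one_iff _).2 q.2]
              exact one_mem _⟩, (hfker _).2 q.2⟩
          invFun := fun m => ⟨m.1.1.1, (hfker _).1 (MonoidHom.mem_ker.1 m.2)⟩
          left_inv := fun _ => rfl
          right_inv := fun _ => rfl }
    have h3 : Nat.card DM = Nat.card ↥(DQ ⊓ D.M) := Nat.card_congr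
      { toFun := fun m => ⟨m.1.1, m.2, m.1.2⟩
        invFun := fun m => ⟨⟨m.1, m.2.2⟩, m.2.1⟩
        left_inv := fun _ => rfl
        right_inv := fun _ => rfl }
    rw [h1, ← h2, h3]
    refine H18.card_le_two_mul fun a ha b hb haM hbM => ⟨DQ.mul_mem (DQ.inv_mem ha) hb, ?_⟩
    have ha' : a ∉ D.M := fun h => haM ⟨ha, h⟩
    have hb' : b ∉ D.M := fun h => hbM ⟨hb, h⟩
    refine (Subgroup.mul_mem_iff_of_index_two D.index).2 ?_
    simp [Subgroup.inv_mem_iff, ha', hb']
  have h32 : 32 ≤ Nat.card E := by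
    by_contra hlt
    have := Nat.mul_le_mul (le_of_lt (not_le.1 hlt)) hR
    have h31 : Nat.card E * Nat.card ↥(EE Q ⊓ (EE Q).map (MulAut.conj g).toMonoidHom) ≤ 31 * 2 ^ 7 :=
      Nat.mul_le_mul (by omega) hR
    omega
  have ho : o = 1 := by
    fin_cases o
    · exfalso
      have hb := normal_two_zero hPle hP2 hPn
      rw [hb, Subgroup.card_bot] at hcards
      omega
    · rfl
  subst ho
  obtain ⟨h16, -, hfree⟩ := normal_two_one hPle hP2 hPn
  have hE32 : Nat.card E = 32 := by omega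
  have hR7 : Nat.card ↥(EE Q ⊓ (EE Q).map (MulAut.conj g).toMonoidHom) = 2 ^ 7 := by
    rw [hE32] at hlb
    omega
  refine ⟨⟨γ, hγ, hγs⟩, ⟨helem, hR7, hfix, hnorm, hE32, hElem⟩, fun X hX => ?_⟩
  have hEX : E ≤ X := hX ▸ Subgroup.map_mono hDSt
  have hXE : ∀ x ∈ X, ∀ y ∈ E, x * y * x⁻¹ ∈ E := by
    intro x hx y hy
    rw [hX] at hx
    obtain ⟨h, hh, rfl⟩ := hx
    exact hnormE h hh y hy
  have hnormal : (E.subgroupOf X).Normal := ⟨fun n hn x => by
    simpa [Subgroup.mem_subgroupOf] using hXE x.1 x.2 n.1 hn⟩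
  refine ⟨hEX, hXE, hnormal, ?_⟩
  obtain ⟨iso⟩ := mst_iso (F := F) 1
  let MS : Subgroup D.M := (mst (F := F) ((1 : Fin 2) : ℕ)).comap f
  let f1 : MS →* mst (F := F) ((1 : Fin 2) : ℕ) :=
    (f.comp MS.subtype).codRestrict (mst (F := F) ((1 : Fin 2) : ℕ)) fun m => m.2
  have hinX : ∀ m : MS, (QuotientGroup.mk' Q) ((m : D.M) : Subgroup.centralizer ({z} : Set G)) ∈ X := fun m => by
    rw [hX]
    exact ⟨_, (hfst m.1).2 (mst_le_vst _ m.2), rfl⟩
  let f2 : MS →* ↥X ⧸ E.subgroupOf X := (QuotientGroup.mk' (E.subgroupOf X)).comp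
    ((((QuotientGroup.mk' Q).comp D.M.subtype).comp MS.subtype).codRestrict X hinX)
  have h1 : Function.Surjective f1 := fun x => by
    obtain ⟨m, hm⟩ := hfsurj x.1 (monoE_le_sub 0 (Subgroup.mem_inf.1 x.2).1)
    exact ⟨⟨m, show f m ∈ mst (F := F) ((1 : Fin 2) : ℕ) by rw [hm]; exact x.2⟩, Subtype.ext hm⟩
  have hk : f1.ker = f2.ker := by
    ext m
    rw [MonoidHom.mem_ker, MonoidHom.mem_ker]
    have e1 : f1 m = 1 ↔ f m.1 = 1 := Subtype.ext_iff
    have e2 : f2 m = 1 ↔ (QuotientGroup.mk' Q) ((m : D.M) : Subgroup.centralizer ({z} : Set G)) ∈ E :=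
      (QuotientGroup.eq_one_iff _).trans Subgroup.mem_subgroupOf
    rw [e1, e2]
    constructor
    · intro h
      rw [show (QuotientGroup.mk' Q) ((m : D.M) : Subgroup.centralizer ({z} : Set G)) = 1 from
        (QuotientGroup.eq_one_iff _).2 ((hfker _).1 h)]
      exact one_mem _
    · intro h
      exact hfree _ ⟨m.1, (memDQ _).2 h, rfl⟩ (monoE_le_stab (Subgroup.mem_inf.1 m.2).1)
  have hmst : Nat.card (mst (F := F) ((1 : Fin 2) : ℕ)) = 360 := by
    rw [Nat.card_congr iso.toEquiv, nat_card_alternatingGroup, Nat.card_fin]; rfl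
  have hXc : Nat.card (↥X ⧸ E.subgroupOf X) ≤ 360 := by
    have hq := (E.subgroupOf X).card_eq_card_quotient_mul_card_subgroup
    rw [Nat.card_congr (Subgroup.subgroupOfEquivOfLe hEX).toEquiv, hE32] at hq
    have hX2 : Nat.card X ≤ 11520 := by
      let SM : Subgroup D.M := (D.St s).subgroupOf D.M
      have hsm : Nat.card (SM.map f) ≤ 5760 := by
        refine le_trans (Subgroup.card_le_of_le (?_ : SM.map f ≤ vst ((1 : Fin 2) : ℕ))) (le_of_eq (card_vst 1))
        rintro _ ⟨m, hm, rfl⟩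
        exact (hfst m).1 hm
      have h2 : Nat.card SM = Nat.card (SM.map f) * 2 ^ 13 := by
        have h := ((f.comp SM.subtype).ker).card_mul_index
        rw [Subgroup.index_ker, MonoidHom.range_comp, Subgroup.range_subtype] at h
        rw [← h, mul_comm]
        congr 1
        rw [← D.card_Q]
        refine (Nat.card_congr ?_).symm
        exact
          { toFun := fun q => ⟨⟨⟨q.1, D.le q.2⟩, hQSt q.2⟩, (hfker _).2 q.2⟩
            invFun := fun m => ⟨m.1.1.1, (hfker _).1 (MonoidHom.mem_ker.1 m.2)⟩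
            left_inv := fun _ => rfl
            right_inv := fun _ => rfl }
      have h3 : Nat.card SM = Nat.card ↥(D.St s ⊓ D.M) := Nat.card_congr
        { toFun := fun m => ⟨m.1.1, m.2, m.1.2⟩
          invFun := fun m => ⟨⟨m.1, m.2.2⟩, m.2.1⟩
          left_inv := fun _ => rfl
          right_inv := fun _ => rfl }
      have h4 : Nat.card (D.St s) ≤ 2 * Nat.card ↥(D.St s ⊓ D.M) :=
        H18.card_le_two_mul fun a ha b hb haM hbM => ⟨(D.St s).mul_mem ((D.St s).inv_mem ha) hb, by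
          refine (Subgroup.mul_mem_iff_of_index_two D.index).2 ?_
          simp [Subgroup.inv_mem_iff, show a ∉ D.M from fun h => haM ⟨ha, h⟩,
            show b ∉ D.M from fun h => hbM ⟨hb, h⟩]⟩
      have h5 : Nat.card X * 2 ^ 13 = Nat.card (D.St s) := by
        have h := ((QuotientGroup.mk' Q).comp (D.St s).subtype).ker.card_mul_index
        rw [Subgroup.index_ker, MonoidHom.range_comp, Subgroup.range_subtype, ← hX] at h
        rw [← h, mul_comm]
        congr 1
        rw [← D.card_Q]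
        refine Nat.card_congr ?_
        exact
          { toFun := fun q => ⟨⟨q.1, hQSt q.2⟩, (QuotientGroup.eq_one_iff _).2 q.2⟩
            invFun := fun m => ⟨m.1.1, (QuotientGroup.eq_one_iff _).1 (MonoidHom.mem_ker.1 m.2)⟩
            left_inv := fun _ => rfl
            right_inv := fun _ => rfl }
      rw [← h3, h2] at h4
      omega
    omega
  obtain ⟨e⟩ := nonempty_equiv_of_ker_eq f1 f2 h1 hk (by rw [hmst]; exact hXc)
  exact ⟨e.trans iso⟩

end Model

end Cfsg.Agent.H8.LFT
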