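import Cfsg.Agent.H8.U62.Subs
import Cfsg.Agent.H8.LFT.Check

/-!
# Monomial changes of the orthonormal basis between the three subgroups
-/

set_option autoImplicit false
set_option linter.unusedSectionVars false
set_option maxRecDepth 20000

namespace Cfsg.Agent.H8.LFT

open Matrix Cfsg.Agent.H8.U62 Cfsg.Agent.H8.U62.Setup

variable {F : Type} [Setup F]

/-- The code of the change of basis. -/
def twC (i : Fin 3) : ℕ := (twists.getD i.1 (0, 0, [])).1

/-- The code of the inverse change of basis. -/
def twE (i : Fin 3) : ℕ := (twists.getD i.1 (0, 0, [])).2.1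

/-- The exponent of the change of basis. -/
def twPow (i : Fin 3) : ℕ := if i.1 = 0 then 0 else if i.1 = 1 then 2 else 1

theorem twist_facts (i : Fin 3) : mmC (twC i) (twE i) = oneC ∧
    ∀ g : Fin 4, ∃ q : ℕ × ℕ × ℕ, q.1 < 112 ∧
      mmC (twC i) ((subGenC i.1).getD g.1 0) = mmC (subElC 0 q) (twC i) := by
  have h := gen_ok
  simp only [genOK, subIdxOK, force_eq, Bool.and_eq_true, List.all_eq_true, List.mem_range] at h
  obtain ⟨⟨h1, -⟩, h2⟩ := h.2 i.1 i.2
  exact ⟨Nat.eq_of_beq_eq_true h1, fun g => ⟨_, Nat.le_of_ble_eq_true (h2 g.1 g.2).1.1.1,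
    Nat.eq_of_beq_eq_true (h2 g.1 g.2).2⟩⟩

theorem tw_bits : ∀ (i : Fin 3) (r c : Fin 6),
    ((twC i).testBit (12 * c.1 + 2 * r.1), (twC i).testBit (12 * c.1 + 2 * r.1 + 1)) =
      if r = c then (if r.1 = 0 then [(true, false), (false, true), (true, true)].getD (twPow i) (false, false)
        else (true, false)) else (false, false) := by
  decide +kernel

/-- The change of basis is diagonal. -/
theorem matF_twC (i : Fin 3) :
    matF (om : F) (twC i) = Matrix.diagonal fun j : Fin 6 => if j.1 = 0 then (om : F) ^ twPow i else 1 := by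
  ext r c
  have h := tw_bits i r c
  simp only [Prod.ext_iff] at h
  simp only [matF, Matrix.of_apply, Matrix.diagonal_apply]
  rw [h.1, h.2]
  by_cases hrc : r = c
  · subst hrc
    by_cases h0 : r.1 = 0
    · simp only [if_true, h0]
      fin_cases i <;> simp [twPow, fe, bF, pow_two, hom, add_comm]
    · simp [h0, fe, bF]
  · simp [hrc, fe, bF]

theorem herm_twC (i : Fin 3) (x y : Fin 6 → F) :
    hermForm 6 F 2 (matF (om : F) (twC i) *ᵥ x) (matF (om : F) (twC i) *ᵥ y) = hermForm 6 F 2 x y := by
  rw [matF_twC]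
  simp only [hermForm, Matrix.mulVec_diagonal]
  refine Finset.sum_congr rfl fun j _ => ?_
  split
  · have := cube_eq_one (pow_ne_zero (twPow i) (om_ne_zero (F := F)))
    linear_combination (x j * y j ^ 2) * this
  · ring

theorem twC_inv (i : Fin 3) : matF (om : F) (twE i) * matF om (twC i) = 1 := by
  refine mul_eq_one_comm.1 ?_
  rw [← matF_mmC _ hom two, (twist_facts i).1, matF_oneC _ hom two]

/-- The change of basis moves each subgroup into the first. -/
theorem exists_twist (i : Fin 3) {x : SU6 F} (hx : x ∈ sub i) :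
    ∃ y ∈ sub (F := F) 0, mat y * matF om (twC i) = matF om (twC i) * mat x := by
  have hx' : x ∈ (sub (F := F) i).toSubmonoid := hx
  rw [U62.sub, Subgroup.closure_toSubmonoid_of_finite] at hx'
  induction hx' using Submonoid.closure_induction_left with
  | one => exact ⟨1, one_mem _, by rw [mat_one, one_mul, mul_one]⟩
  | mul_left a ha b hb ih =>
    obtain ⟨g, rfl⟩ := ha
    obtain ⟨y, hy, e⟩ := ih (by
      show b ∈ (sub (F := F) i).toSubmonoid
      rw [U62.sub, Subgroup.closure_toSubmonoid_of_finite]; exact hb)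
    obtain ⟨q, hq, hq'⟩ := (twist_facts i).2 g
    obtain ⟨c, hc, hcA⟩ := (real_subT (F := F) 0 _ (subT_mem hq)).mmC ((real_monC q.2.1 q.2.2).mono (monoE_le_sub 0))
    refine ⟨c * y, mul_mem hc hy, ?_⟩
    rw [mat_mul, mat_mul, mul_assoc, e, hcA, mat_subGen, ← mul_assoc, ← mul_assoc]
    congr 1
    rw [← matF_mmC _ hom two, ← matF_mmC _ hom two, hq', subElC]
    rfl

end Cfsg.Agent.H8.LFT
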