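import Cfsg.Agent.H8.LFT.Herm
import Cfsg.Agent.H8.LFT.Twist
import Cfsg.Agent.H8.U62.SubIso

/-!
# The extension as the first subgroup of the unitary group
-/

set_option autoImplicit false
set_option linter.unusedSectionVars false
set_option maxRecDepth 20000

namespace Cfsg.Agent.H8.LFT

open Matrix Cfsg.Agent.H8.U62 Cfsg.Agent.H8.U62.Setup

variable {F : Type} [Setup F] {A : Type*} [Group A] [Finite A]

theorem center_eq_ker (R : Ext F A) : Subgroup.center A = R.π.ker := by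
  refine le_antisymm (fun a ha => MonoidHom.mem_ker.2 (S0_center_trivial fun t => ?_))
    (fun a ha => Subgroup.mem_center_iff.2 fun b => R.ker_comm ha b)
  obtain ⟨b, rfl⟩ := R.surj t
  rw [← map_mul, ← map_mul, Subgroup.mem_center_iff.1 ha b]

/-- The extension is the first subgroup acting on a hermitian space. -/
theorem exists_repr {L : Type} [Setup9 L] (R : Ext F A) (τ : A →* Matrix (Fin 12) (Fin 12) (ZMod 2))
    (hτ : Function.Injective τ) (q : W12 → ZMod 2) (hq0 : q 0 = 0)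
    (hadd : ∀ u u' v, q (u + u' + v) + q (u + u') + q v = (q (u + v) + q u + q v) + (q (u' + v) + q u' + q v))
    (hnd : ∀ u, (∀ v, q (u + v) + q u + q v = 0) → u = 0) (hq : ∀ a u, q (τ a *ᵥ u) = q u) :
    ∃ (φ : W12 → (Fin 6 → F)) (ρ : A →* SU6 F), Function.Bijective φ ∧ (∀ u v, φ (u + v) = φ u + φ v) ∧
      (∀ u, hermForm 6 F 2 (φ u) (φ u) = Turn.cst (q u)) ∧ Function.Injective ρ ∧ ρ.range = sub 0 ∧
      ∀ a u, φ (τ a *ᵥ u) = mat (ρ a) *ᵥ φ u := by
  classical
  have hrel := Ext.x0_rel (R := R) hτ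
  let T : Turn :=
    { q := q
      w := AddMonoidHom.mk' (fun u => τ R.x0 *ᵥ u) fun u v => Matrix.mulVec_add _ u v
      q_zero := hq0
      add_left := hadd
      nondeg := hnd
      q_w := fun u => hq R.x0 u
      rel := fun u => by
        show τ R.x0 *ᵥ (τ R.x0 *ᵥ u) + τ R.x0 *ᵥ u + u = 0
        have := congrArg (· *ᵥ u) hrel
        simpa [Matrix.add_mulVec, Matrix.mulVec_mulVec] using this }
  obtain ⟨φ, hbij, hφadd, hφw, hφh⟩ := T.exists_coord (F := F)
  have hφw' : ∀ u, φ (τ R.x0 *ᵥ u) = (om : F) • φ u := hφw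
  have hφh' : ∀ u, hermForm 6 F 2 (φ u) (φ u) = Turn.cst (q u) := hφh
  have hφ0 : φ 0 = 0 := by
    have := hφadd 0 0
    rwa [add_zero, left_eq_add] at this
  let ψ := Equiv.ofBijective φ hbij
  have hψ : ∀ u, ψ.symm (φ u) = u := fun u => ψ.symm_apply_apply u
  have hψ' : ∀ x, φ (ψ.symm x) = x := fun x => ψ.apply_symm_apply x
  let Lf : A → (Fin 6 → F) → (Fin 6 → F) := fun a x => φ (τ a *ᵥ ψ.symm x)
  have hLφ : ∀ a u, Lf a (φ u) = φ (τ a *ᵥ u) := fun a u => by simp only [Lf, hψ]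
  have hLadd : ∀ a x y, Lf a (x + y) = Lf a x + Lf a y := by
    intro a x y
    obtain ⟨u, rfl⟩ := hbij.2 x
    obtain ⟨v, rfl⟩ := hbij.2 y
    rw [← hφadd, hLφ, hLφ, hLφ, Matrix.mulVec_add, hφadd]
  have hLom : ∀ a x, Lf a ((om : F) • x) = (om : F) • Lf a x := by
    intro a x
    obtain ⟨u, rfl⟩ := hbij.2 x
    rw [← hφw', hLφ, hLφ, Matrix.mulVec_mulVec, ← map_mul, R.central, map_mul, ← Matrix.mulVec_mulVec, hφw']
  have hLsmul : ∀ a (c : F) x, Lf a (c • x) = c • Lf a x := by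
    intro a c x
    obtain ⟨b, b', rfl⟩ := exists_fe c
    have h0 : Lf a 0 = 0 := by
      show φ (τ a *ᵥ ψ.symm 0) = 0
      rw [show ψ.symm 0 = 0 from ψ.symm_apply_eq.2 hφ0.symm, Matrix.mulVec_zero, hφ0]
    cases b <;> cases b' <;> simp [fe, bF, h0, hLadd, hLom, add_smul]
  let M : A → Matrix (Fin 6) (Fin 6) F := fun a =>
    LinearMap.toMatrix' { toFun := Lf a, map_add' := hLadd a, map_smul' := hLsmul a }
  have hM : ∀ a u, M a *ᵥ φ u = φ (τ a *ᵥ u) := fun a u => by
    show LinearMap.toMatrix' _ *ᵥ φ u = _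
    rw [← Matrix.toLin'_apply, Matrix.toLin'_toMatrix']
    exact hLφ a u
  have hMext : ∀ X Y : Matrix (Fin 6) (Fin 6) F, (∀ u, X *ᵥ φ u = Y *ᵥ φ u) → X = Y := fun X Y h =>
    Matrix.ext_of_mulVec_single fun i => by
      obtain ⟨u, hu⟩ := hbij.2 (Pi.single i 1)
      rw [← hu]; exact h u
  have hMone : M 1 = 1 := hMext _ _ fun u => by rw [hM, map_one, Matrix.one_mulVec, Matrix.one_mulVec]
  have hMmul : ∀ a b, M (a * b) = M a * M b := fun a b => hMext _ _ fun u => by
    rw [hM, map_mul, ← Matrix.mulVec_mulVec, ← Matrix.mulVec_mulVec, hM, hM]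
  let Mh : A →* Matrix (Fin 6) (Fin 6) F := { toFun := M, map_one' := hMone, map_mul' := hMmul }
  let χ : A →* Fˣ := (Matrix.detMonoidHom.comp Mh).toHomUnits
  have hMx : M R.x0 = (om : F) • (1 : Matrix (Fin 6) (Fin 6) F) := hMext _ _ fun u => by
    rw [hM, hφw', Matrix.smul_mulVec, Matrix.one_mulVec]
  have hχ : ∀ a, χ a = 1 := hom_trivial R.π R.surj χ (by
    rw [R.ker, Subgroup.zpowers_le, MonoidHom.mem_ker]
    refine Units.ext ?_
    show (M R.x0).det = 1
    rw [hMx, Matrix.det_smul, Matrix.det_one, mul_one, Fintype.card_fin]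
    linear_combination ((om : F) * om * om + 1) * cube_eq_one (om_ne_zero (F := F))) (m := 3) (by norm_num)
    (fun c => Units.ext (by
      rw [Units.val_pow_eq_pow_val, Units.val_one]
      have := cube_eq_one c.ne_zero
      linear_combination this))
  have hdet : ∀ a, (M a).det = 1 := fun a => congrArg Units.val (hχ a)
  have hherm : ∀ a x y, hermForm 6 F 2 (M a *ᵥ x) (M a *ᵥ y) = hermForm 6 F 2 x y := by
    intro a
    have hself : ∀ x, hermForm 6 F 2 (M a *ᵥ x) (M a *ᵥ x) = hermForm 6 F 2 x x := fun x => by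
      obtain ⟨u, rfl⟩ := hbij.2 x
      rw [hM, hφh', hφh', hq]
    intro x y
    have e1 : ∀ x y : Fin 6 → F, hermForm 6 F 2 (x + y) (x + y) =
        hermForm 6 F 2 x x + hermForm 6 F 2 y y + (hermForm 6 F 2 x y + hermForm 6 F 2 y x) := by
      intro x y
      have := charP_two (F := F)
      simp only [hermForm, Pi.add_apply, add_pow_char, ← Finset.sum_add_distrib]
      exact Finset.sum_congr rfl fun i _ => by ring
    have e2 : ∀ (c : F) (x y : Fin 6 → F), hermForm 6 F 2 (c • x) y = c * hermForm 6 F 2 x y := fun c x y => by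
      simp only [hermForm, Pi.smul_apply, smul_eq_mul, Finset.mul_sum, mul_assoc]
    have e3 : ∀ (c : F) (x y : Fin 6 → F), hermForm 6 F 2 x (c • y) = c ^ 2 * hermForm 6 F 2 x y := fun c x y => by
      simp only [hermForm, Pi.smul_apply, smul_eq_mul, Finset.mul_sum, mul_pow]
      exact Finset.sum_congr rfl fun i _ => by ring
    have k1 := hself (x + y)
    rw [Matrix.mulVec_add, e1, e1, hself x, hself y] at k1
    have k2 := hself ((om : F) • x + y)
    rw [Matrix.mulVec_add, e1, e1, hself y, hself ((om : F) • x), Matrix.mulVec_smul] at k2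
    simp only [e2, e3] at k2
    have hω : (om : F) ^ 2 = om + 1 := by rw [pow_two, hom]
    linear_combination -k2 + (om + 1) * k1 +
      (hermForm 6 F 2 (M a *ᵥ y) (M a *ᵥ x) - hermForm 6 F 2 y x) * hω
  let ρ0 : A →* SU6 F :=
    { toFun := fun a => ⟨⟨M a, hdet a⟩, H3.mem_SU_iff.2 (hherm a)⟩
      map_one' := ext_mat hMone
      map_mul' := fun a b => ext_mat (hMmul a b) }
  have hρ0 : ∀ a u, φ (τ a *ᵥ u) = mat (ρ0 a) *ᵥ φ u := fun a u => (hM a u).symm
  have hinj : Function.Injective ρ0 := fun a b h => hτ (Matrix.ext_of_mulVec_single fun i => hbij.1 (by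
    rw [hρ0, hρ0, h]))
  let e0 : A ≃* ρ0.range := MonoidHom.ofInjective hinj
  have hkc : (Subgroup.center A).map e0.toMonoidHom = Subgroup.center ρ0.range := by
    ext k
    constructor
    · rintro ⟨a, ha, rfl⟩
      refine Subgroup.mem_center_iff.2 fun y => ?_
      obtain ⟨b, rfl⟩ := e0.surjective y
      exact (map_mul e0 b a).symm.trans ((congrArg e0 (Subgroup.mem_center_iff.1 ha b)).trans (map_mul e0 a b))
    · intro hk
      obtain ⟨a, rfl⟩ := e0.surjective k
      refine ⟨a, Subgroup.mem_center_iff.2 fun b => e0.injective ?_, rfl⟩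
      rw [map_mul, map_mul]; exact Subgroup.mem_center_iff.1 hk (e0 b)
  have hZc : Nat.card (Subgroup.center ρ0.range) = 3 := by
    rw [← hkc, Subgroup.card_map_of_injective (f := e0.toMonoidHom) e0.injective, center_eq_ker R, R.ker, Nat.card_zpowers, R.order_x0]
  obtain ⟨iso0⟩ := sub_mod_center_iso (F := F) (L := L) 0
  have hiso : Nonempty (ρ0.range ⧸ Subgroup.center ρ0.range ≃* PSU 4 L 3) :=
    ⟨(((QuotientGroup.congr _ _ e0 hkc).symm.trans (QuotientGroup.quotientMulEquivOfEq (center_eq_ker R))).trans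
      (QuotientGroup.quotientKerEquivOfSurjective R.π R.surj)).trans iso0⟩
  obtain ⟨g, i, hg⟩ := exists_conj_eq_sub (L := L) ρ0.range hZc hiso
  let ρ1 : A →* SU6 F := (MulAut.conj g).toMonoidHom.comp ρ0
  have hρ1 : ∀ a, ρ1 a ∈ sub (F := F) i := fun a => hg ▸ ⟨ρ0 a, ⟨a, rfl⟩, rfl⟩
  choose y hy hyD using fun a => exists_twist (F := F) i (hρ1 a)
  set D := matF (om : F) (twC i) with hD
  have hDE : matF (om : F) (twE i) * D = 1 := twC_inv i
  have hED : D * matF (om : F) (twE i) = 1 := mul_eq_one_comm.1 hDE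
  have hcancel : ∀ X Y : Matrix (Fin 6) (Fin 6) F, X * D = Y * D → X = Y := fun X Y h => by
    rw [← mul_one X, ← hED, ← mul_assoc, h, mul_assoc, hED, mul_one]
  let ρ : A →* SU6 F :=
    { toFun := y
      map_one' := ext_mat (hcancel _ _ (by rw [hyD, map_one, mat_one, one_mul, mul_one]))
      map_mul' := fun a b => ext_mat (hcancel _ _ (by
        rw [hyD, map_mul, mat_mul, mat_mul, mul_assoc, hyD, ← mul_assoc, ← mul_assoc, hyD])) }
  have hρinj : Function.Injective ρ := fun a b h => by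
    refine hinj ((MulAut.conj g).injective (ext_mat ?_ : ρ1 a = ρ1 b))
    have : D * mat (ρ1 a) = D * mat (ρ1 b) := by rw [← hyD, ← hyD]; exact congrArg (fun z => mat z * D) h
    have h' := congrArg (matF (om : F) (twE i) * ·) this
    simp only [← mul_assoc, hDE, one_mul] at h'
    exact h'
  refine ⟨fun u => D *ᵥ (mat g *ᵥ φ u), ρ, ?_, fun u v => ?_, fun u => ?_, hρinj, ?_, fun a u => ?_⟩
  · refine Function.Bijective.comp (g := fun x => D *ᵥ (mat g *ᵥ x)) ?_ hbij
    refine (Nat.bijective_iff_injective_and_card _).2 ⟨fun x x' h => ?_, rfl⟩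
    have h' := congrArg (matF (om : F) (twE i) *ᵥ ·) h
    simp only [Matrix.mulVec_mulVec, ← mul_assoc, hDE, one_mul] at h'
    have h'' := congrArg (mat g⁻¹ *ᵥ ·) h'
    simp only [Matrix.mulVec_mulVec, ← mat_mul, inv_mul_cancel, mat_one, Matrix.one_mulVec] at h''
    exact h''
  · show D *ᵥ (mat g *ᵥ φ (u + v)) = D *ᵥ (mat g *ᵥ φ u) + D *ᵥ (mat g *ᵥ φ v)
    rw [hφadd, Matrix.mulVec_add, Matrix.mulVec_add]
  · show hermForm 6 F 2 (matF (om : F) (twC i) *ᵥ (mat g *ᵥ φ u)) (matF (om : F) (twC i) *ᵥ (mat g *ᵥ φ u)) = _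
    rw [herm_twC, herm_mulVec, hφh']
  · refine Subgroup.eq_of_le_of_card_ge ?_ ?_
    · rintro _ ⟨a, rfl⟩; exact hy a
    · have h1 : Nat.card ρ.range = Nat.card ρ0.range := by
        rw [← Nat.card_congr (MonoidHom.ofInjective hρinj).toEquiv, Nat.card_congr e0.toEquiv]
      have h2 : Nat.card ρ0.range = Nat.card (sub (F := F) i) := by
        rw [← hg, Subgroup.card_map_of_injective (MulAut.conj g).injective]
      rw [h1, h2, card_sub, card_sub]
  · show D *ᵥ (mat g *ᵥ φ (τ a *ᵥ u)) = mat (y a) *ᵥ (D *ᵥ (mat g *ᵥ φ u))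
    rw [hρ0, Matrix.mulVec_mulVec (M := mat (y a)), hyD]
    simp only [Matrix.mulVec_mulVec, ← mul_assoc]
    congr 1
    rw [mul_assoc, mul_assoc, ← mat_mul, ← mat_mul]
    congr 2
    show g * ρ0 a = g * ρ0 a * g⁻¹ * g
    group

end Cfsg.Agent.H8.LFT
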