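import Cfsg.Agent.H8.LFT.Coord
import Cfsg.Agent.H8.LFT.Repr

/-!
# The model of a centralizer of large Fischer type
-/

set_option autoImplicit false
set_option linter.unusedSectionVars false
set_option maxRecDepth 20000

namespace Cfsg.Agent.H8.LFT

open Matrix Cfsg.Agent.H8.U62 Cfsg.Agent.H8.U62.Setup

/-- The field with four elements. -/
noncomputable instance setupGalois : Setup (GaloisField 2 2) :=
  letI : Fintype (GaloisField 2 2) := Fintype.ofFinite _
  have hF : Fintype.card (GaloisField 2 2) = 4 := by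
    rw [← Nat.card_eq_fintype_card, GaloisField.card 2 2 (by norm_num)]; norm_num
  { (inferInstance : Field (GaloisField 2 2)) with
    om := (exists_om hF).choose
    hom := (exists_om hF).choose_spec.1
    two := (exists_om hF).choose_spec.2
    fin := inferInstance
    card := hF }

variable {G : Type*} [Group G] [Finite G]

open Classical in
/-- The centralizer acts on `Q` modulo the centre through the first subgroup of the unitary group. -/
structure Model (z : G) (Q : Subgroup (Subgroup.centralizer ({z} : Set G))) [Q.Normal] (F : Type) [Setup F] where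
  /-- The index two subgroup. -/
  M : Subgroup (Subgroup.centralizer ({z} : Set G))
  normal : M.Normal
  le : Q ≤ M
  index : M.index = 2
  sing : H18.SingPt (Q.map (Subgroup.centralizer ({z} : Set G)).subtype) z
  card_Q : Nat.card Q = 2 ^ 13
  /-- Coordinates. -/
  v : Q → (Fin 6 → F)
  v_surj : Function.Surjective v
  v_mul : ∀ a b, v (a * b) = v a + v b
  v_eq_zero : ∀ a, v a = 0 ↔ gv a = 1 ∨ gv a = z
  v_sq : ∀ a, hermForm 6 F 2 (v a) (v a) = if gv a * gv a = 1 then 0 else 1
  /-- The representation. -/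
  ρ : M →* SU6 F
  ρ_ker : ∀ m : M, ρ m = 1 ↔ (m : Subgroup.centralizer ({z} : Set G)) ∈ Q
  ρ_range : ρ.range = sub 0
  v_conj : ∀ (m : M) (a : Q), v (cj (m : Subgroup.centralizer ({z} : Set G)) a) = mat (ρ m) *ᵥ v a

variable {z : G} {Q : Subgroup (Subgroup.centralizer ({z} : Set G))} [Q.Normal]

theorem exists_action (hs : Cfsg.IsExtraspecialCentralizerSetting z Q 6) :
    ∃ (v : Q → W12) (q : W12 → ZMod 2)
      (τ : Subgroup.centralizer ({z} : Set G) →* Matrix (Fin 12) (Fin 12) (ZMod 2)),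
      Function.Surjective v ∧ (∀ a b, v (a * b) = v a + v b) ∧ (∀ a, v a = 0 ↔ gv a = 1 ∨ gv a = z) ∧
      (∀ a, q (v a) = 0 ↔ gv a * gv a = 1) ∧ q 0 = 0 ∧
      (∀ u u' w, q (u + u' + w) + q (u + u') + q w = (q (u + w) + q u + q w) + (q (u' + w) + q u' + q w)) ∧
      (∀ u, (∀ w, q (u + w) + q u + q w = 0) → u = 0) ∧ (∀ h u, q (τ h *ᵥ u) = q u) ∧
      (∀ h a, τ h *ᵥ v a = v (cj h a)) ∧ ∀ h, τ h = 1 ↔ h ∈ Q := by
  classical
  have hS := singPt_of_setting hs
  obtain ⟨v, hsurj, hmul, hzero⟩ := exists_vec hs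
  choose lft hlft using hsurj
  have hv1 : v 1 = 0 := (hzero 1).2 (one_mem _)
  have hinv : ∀ a, v a⁻¹ = v a := fun a => by
    have h := hmul a⁻¹ a
    rw [inv_mul_cancel, hv1] at h
    calc v a⁻¹ = v a⁻¹ + (v a + v a) := by rw [Turn.two_self, add_zero]
      _ = (v a⁻¹ + v a) + v a := (add_assoc _ _ _).symm
      _ = v a := by rw [← h, zero_add]
  have hv_eq : ∀ a b, v a = v b → ∃ c ∈ Subgroup.center Q, b = a * c := fun a b e =>
    ⟨a⁻¹ * b, (hzero _).1 (by rw [hmul, hinv, e, Turn.two_self]), (mul_inv_cancel_left a b).symm⟩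
  let q : W12 → ZMod 2 := fun w => bit hs (lft w * lft w)
  have hsqc : ∀ a c : Q, c ∈ Subgroup.center Q → a * c * (a * c) = a * a := by
    intro a c hc
    have hcc : c * c = 1 := gv_injective (by
      show gv c * gv c = 1
      rcases (central_iff hs c).1 hc with e | e <;> simp [e, hS.xx])
    calc a * c * (a * c) = a * (c * a) * c := by group
      _ = a * a * (c * c) := by rw [← Subgroup.mem_center_iff.1 hc a]; group
      _ = a * a := by rw [hcc, mul_one]
  have hqv : ∀ a, q (v a) = bit hs (a * a) := fun a => by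
    obtain ⟨c, hc, e⟩ := hv_eq a (lft (v a)) (hlft (v a)).symm
    show bit hs (lft (v a) * lft (v a)) = _
    rw [e, hsqc a c hc]
  let β : Q → Q → ZMod 2 := fun a b => bit hs (a⁻¹ * b * a * b⁻¹)
  have hκ : ∀ a b : Q, a⁻¹ * b * a * b⁻¹ ∈ Subgroup.center Q := fun a b => by
    have := H18.commutator_mem_center hs.2.2.1 a⁻¹ b
    rwa [commutatorElement_def, inv_inv] at this
  have hqadd : ∀ a b, q (v a + v b) = q (v a) + q (v b) + β a b := by
    intro a b
    rw [← hmul, hqv, hqv, hqv]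
    have e : a * b * (a * b) = a * a * (a⁻¹ * b * a * b⁻¹) * (b * b) := by group
    rw [e, bit_mul hs (mul_mem (sq_central hs a) (hκ a b)) (sq_central hs b),
      bit_mul hs (sq_central hs a) (hκ a b)]
    ring
  have hpol : ∀ a b, q (v a + v b) + q (v a) + q (v b) = β a b := fun a b => by
    rw [hqadd]
    calc q (v a) + q (v b) + β a b + q (v a) + q (v b)
        = (q (v a) + q (v a)) + (q (v b) + q (v b)) + β a b := by ring
      _ = _ := by rw [CharTwo.add_self_eq_zero, CharTwo.add_self_eq_zero, zero_add, zero_add]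
  have hβ : ∀ a a' b, β (a * a') b = β a b + β a' b := by
    intro a a' b
    have hc := Subgroup.mem_center_iff.1 (hκ a b)
    have e : (a * a')⁻¹ * b * (a * a') * b⁻¹ = (a⁻¹ * b * a * b⁻¹) * (a'⁻¹ * b * a' * b⁻¹) := by
      calc (a * a')⁻¹ * b * (a * a') * b⁻¹ = a'⁻¹ * (a⁻¹ * b * a * b⁻¹) * (b * a' * b⁻¹) := by group
        _ = (a⁻¹ * b * a * b⁻¹) * a'⁻¹ * (b * a' * b⁻¹) := by rw [hc a'⁻¹]
        _ = _ := by group
    simp only [β]
    rw [e, bit_mul hs (hκ a b) (hκ a' b)]
  let Lh : Subgroup.centralizer ({z} : Set G) → W12 → W12 := fun h w => v (cj h (lft w))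
  have hcen : ∀ h c, c ∈ Subgroup.center Q → cj h c ∈ Subgroup.center Q := fun h c hc =>
    (central_iff hs _).2 (by
      rw [gv_cj]
      rcases (central_iff hs c).1 hc with e | e <;> rw [e]
      · exact Or.inl (by group)
      · exact Or.inr (by rw [Subgroup.mem_centralizer_singleton_iff.1 h.2, mul_inv_cancel_right]))
  have hLv : ∀ h a, Lh h (v a) = v (cj h a) := fun h a => by
    obtain ⟨c, hc, e⟩ := hv_eq a (lft (v a)) (hlft (v a)).symm
    show v (cj h (lft (v a))) = _
    rw [e, cj_mul, hmul, (hzero _).2 (hcen h c hc), add_zero]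
  have hLadd : ∀ h u w, Lh h (u + w) = Lh h u + Lh h w := fun h u w => by
    conv_lhs => rw [← hlft u, ← hlft w, ← hmul, hLv, cj_mul, hmul, ← hLv, ← hLv, hlft, hlft]
  let T : Subgroup.centralizer ({z} : Set G) → Matrix (Fin 12) (Fin 12) (ZMod 2) := fun h =>
    LinearMap.toMatrix' ((AddMonoidHom.mk' (Lh h) (hLadd h)).toZModLinearMap 2)
  have hT : ∀ h a, T h *ᵥ v a = v (cj h a) := fun h a => by
    show LinearMap.toMatrix' _ *ᵥ v a = _
    rw [← Matrix.toLin'_apply, Matrix.toLin'_toMatrix']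
    exact hLv h a
  have hText : ∀ X Y : Matrix (Fin 12) (Fin 12) (ZMod 2), (∀ a, X *ᵥ v a = Y *ᵥ v a) → X = Y := fun X Y h =>
    Matrix.ext_of_mulVec_single fun i => by rw [← hlft (Pi.single i 1)]; exact h _
  let τ : Subgroup.centralizer ({z} : Set G) →* Matrix (Fin 12) (Fin 12) (ZMod 2) :=
    { toFun := T
      map_one' := hText _ _ fun a => by rw [hT, Matrix.one_mulVec, cj_one]
      map_mul' := fun h k => hText _ _ fun a => by rw [hT, ← Matrix.mulVec_mulVec, hT, hT, cj_cj] }
  have hτ : ∀ h a, τ h *ᵥ v a = v (cj h a) := hT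
  refine ⟨v, q, τ, fun w => ⟨lft w, hlft w⟩, hmul, fun a => (hzero a).trans (central_iff hs a), fun a => ?_, ?_,
    fun u u' w => ?_, fun u hu => ?_, fun h u => ?_, hτ, fun h => ?_⟩
  · rw [hqv]
    show bit hs (a * a) = 0 ↔ _
    constructor
    · intro h
      exact congrArg gv (bit_eq_zero hs (sq_central hs a) h)
    · intro h
      simp [bit, show gv (a * a) = gv a * gv a from rfl, h]
  · rw [← hv1, hqv]
    simp [bit, show gv (1 : Q) = 1 from rfl]
  · rw [← hlft u, ← hlft u', ← hlft w, ← hmul (lft u) (lft u'), hpol, hpol, hpol, hβ]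
  · obtain ⟨a, rfl⟩ : ∃ a, v a = u := ⟨lft u, hlft u⟩
    refine (hzero a).2 (Subgroup.mem_center_iff.2 fun b => ?_)
    have h1 : β a b = 0 := by rw [← hpol]; exact hu (v b)
    have h2 := bit_eq_zero hs (hκ a b) h1
    calc b * a = a * (a⁻¹ * b * a * b⁻¹) * b := by group
      _ = a * b := by rw [h2, mul_one]
  · rw [← hlft u, hτ, hqv, hqv, ← cj_mul]
    obtain e | e := (central_iff hs _).1 (sq_central hs (lft u))
    · simp [bit, gv_cj, e]
    · have e' : gv (cj h (lft u * lft u)) = z := by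
        rw [gv_cj, e, Subgroup.mem_centralizer_singleton_iff.1 h.2, mul_inv_cancel_right]
      simp [bit, e, e', hS.xne]
  · constructor
    · intro hh
      have hd : (h : G) ∈ Q.map (Subgroup.centralizer ({z} : Set G)).subtype := by
        refine hS.mem_of_disp (Subgroup.mem_centralizer_singleton_iff.1 h.2) fun g hg => ?_
        obtain ⟨a, ha, rfl⟩ := hg
        have e : v (cj h ⟨a, ha⟩) = v ⟨a, ha⟩ := by rw [← hτ, hh, Matrix.one_mulVec]
        obtain ⟨c, hc, e'⟩ := hv_eq _ _ e.symm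
        have e'' : gv (cj h ⟨a, ha⟩) = (a : G) * gv c := congrArg gv e'
        rw [gv_cj] at e''
        rw [H18.mem_zpowers_iff_pair hS.xx, Subgroup.coe_subtype]
        rw [show (a : G)⁻¹ * ((h : G) * (a : G) * (h : G)⁻¹) = gv c by rw [e'', inv_mul_cancel_left]]
        exact (central_iff hs c).1 hc
      obtain ⟨y, hy, e⟩ := hd
      rwa [Subtype.ext (e : (y : G) = h)] at hy
    · intro hh
      refine hText _ _ fun a => ?_
      rw [hτ, Matrix.one_mulVec]
      have e : cj h a = a * ((a⁻¹ * ⟨h, hh⟩ * a * (⟨h, hh⟩ : Q)⁻¹)) := Subtype.ext (by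
        show h * a.1 * h⁻¹ = a.1 * (a.1⁻¹ * h * a.1 * h⁻¹); group)
      rw [e, hmul, (hzero _).2 (hκ a ⟨h, hh⟩), add_zero]

/-- A model exists. -/
theorem exists_model (hF : Cfsg.IsOfLargeFischerTypeAt z Q) : Nonempty (Model z Q (GaloisField 2 2)) := by
  classical
  obtain ⟨hs, N, M, hNn, hMn, hQN, hNM, hNc, ⟨K, fK, ftK, hK, ⟨iso⟩⟩, hidx⟩ := hF
  obtain ⟨im, him⟩ := exists_im hK
  letI : Setup9 K := { fK with im := im, him := him, fin := ftK, card := hK }
  obtain ⟨v, q, τ, hvs, hvm, hv0, hqv, hq0, hadd, hnd, hqi, hτv, hτk⟩ := exists_action hs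
  let F := GaloisField 2 2
  let Q' : Subgroup M := Q.subgroupOf M
  let N' : Subgroup M := N.subgroupOf M
  have hQN' : Q' ≤ N' := fun x hx => hQN hx
  have hτQ : Q' ≤ (τ.comp M.subtype).ker := fun x hx => MonoidHom.mem_ker.2 ((hτk _).2 hx)
  let τA : M ⧸ Q' →* Matrix (Fin 12) (Fin 12) (ZMod 2) := QuotientGroup.lift Q' (τ.comp M.subtype) hτQ
  have hτA : Function.Injective τA := by
    intro a b hab
    obtain ⟨a, rfl⟩ := QuotientGroup.mk'_surjective Q' a
    obtain ⟨b, rfl⟩ := QuotientGroup.mk'_surjective Q' b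
    refine QuotientGroup.eq.2 (Subgroup.mem_subgroupOf.2 ((hτk _).1 ?_))
    have hab' : τ a.1 = τ b.1 := hab
    rw [Subgroup.coe_mul, map_mul, ← hab', ← map_mul, Subgroup.coe_inv, inv_mul_cancel, map_one]
  obtain ⟨sub0iso⟩ := sub_mod_center_iso (F := F) (L := K) 0
  let π : M ⧸ Q' →* S0 F := (iso.trans sub0iso.symm).toMonoidHom.comp
    (QuotientGroup.map Q' N' (MonoidHom.id M) (by rw [Subgroup.comap_id]; exact hQN'))
  have hπ : ∀ a : M, π (QuotientGroup.mk a) = (iso.trans sub0iso.symm) (QuotientGroup.mk a) := fun a => rfl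
  have hπs : Function.Surjective π := fun s => by
    obtain ⟨a, ha⟩ := QuotientGroup.mk_surjective ((iso.trans sub0iso.symm).symm s)
    exact ⟨QuotientGroup.mk a, by rw [hπ, ha, MulEquiv.apply_symm_apply]⟩
  have hker : π.ker = N'.map (QuotientGroup.mk' Q') := by
    ext x
    obtain ⟨a, rfl⟩ := QuotientGroup.mk'_surjective Q' x
    rw [MonoidHom.mem_ker, Subgroup.mem_map]
    constructor
    · intro h
      rw [show π (QuotientGroup.mk' Q' a) = _ from hπ a, MulEquiv.map_eq_one_iff] at h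
      exact ⟨a, (QuotientGroup.eq_one_iff a).1 h, rfl⟩
    · rintro ⟨b, hb, e⟩
      rw [← e, show π (QuotientGroup.mk' Q' b) = _ from hπ b, (QuotientGroup.eq_one_iff b).2 hb, map_one]
  have hk3 : Nat.card π.ker = 3 := by
    rw [hker]
    have h1 := N'.card_mul_index
    have h2 := (N'.map (QuotientGroup.mk' Q')).card_mul_index
    rw [Subgroup.index_map_eq _ (QuotientGroup.mk'_surjective _) (by rw [QuotientGroup.ker_mk']; exact hQN')] at h2
    have h3 := Q'.card_eq_card_quotient_mul_card_subgroup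
    have hQc : Nat.card Q' = Nat.card Q := Nat.card_congr (Subgroup.subgroupOfEquivOfLe (hQN.trans hNM)).toEquiv
    have hNc' : Nat.card N' = Nat.card N := Nat.card_congr (Subgroup.subgroupOfEquivOfLe hNM).toEquiv
    rw [← h2, ← h1, hQc, hNc', hNc] at h3
    have hpos : 0 < N'.index * Nat.card Q := Nat.mul_pos (Nat.pos_of_ne_zero Subgroup.index_ne_zero_of_finite) Nat.card_pos
    refine Nat.eq_of_mul_eq_mul_right hpos ?_
    calc Nat.card (Subgroup.map (QuotientGroup.mk' Q') N') * (N'.index * Nat.card Q)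
        = Nat.card (Subgroup.map (QuotientGroup.mk' Q') N') * N'.index * Nat.card Q := (Nat.mul_assoc _ _ _).symm
      _ = 3 * Nat.card Q * N'.index := h3.symm
      _ = 3 * (N'.index * Nat.card Q) := by ring
  haveI : Fact (Nat.Prime 3) := ⟨Nat.prime_three⟩
  haveI hcyc : IsCyclic π.ker := isCyclic_of_prime_card hk3
  obtain ⟨⟨x0, hx0⟩, hgen⟩ := IsCyclic.exists_generator (α := π.ker)
  have hx03 : x0 * (x0 * x0) = 1 := by
    have := pow_card_eq_one' (x := (⟨x0, hx0⟩ : π.ker))
    rw [hk3] at this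
    have h' : x0 ^ 3 = 1 := congrArg Subtype.val this
    rw [← h']; simp only [pow_succ, pow_zero, one_mul, mul_assoc]
  have hzp : π.ker = Subgroup.zpowers x0 := by
    refine le_antisymm (fun x hx => ?_) (Subgroup.zpowers_le.2 hx0)
    obtain ⟨n, hn⟩ := Subgroup.mem_zpowers_iff.1 (hgen ⟨x, hx⟩)
    exact Subgroup.mem_zpowers_iff.2 ⟨n, congrArg Subtype.val hn⟩
  have hx01 : x0 ≠ 1 := by
    intro h
    rw [h, Subgroup.zpowers_one_eq_bot] at hzp
    rw [hzp, Subgroup.card_bot] at hk3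
    omega
  have horb : ∀ a : M ⧸ Q', a * x0 * a⁻¹ = x0 ∨ a * x0 * a⁻¹ = x0⁻¹ := by
    intro a
    have hm : a * x0 * a⁻¹ ∈ π.ker := (MonoidHom.normal_ker π).conj_mem _ hx0 a
    rw [hzp] at hm
    obtain ⟨n, hn⟩ := Subgroup.mem_zpowers_iff.1 hm
    have h3 : x0 ^ (3 : ℤ) = 1 := by
      rw [show (3 : ℤ) = ((3 : ℕ) : ℤ) from rfl, zpow_natCast]
      rw [← hx03]; simp only [pow_succ, pow_zero, one_mul, mul_assoc]
    have hmod : x0 ^ n = x0 ^ (n % 3) := by
      conv_lhs => rw [← Int.emod_add_mul_ediv n 3, _root_.zpow_add, _root_.zpow_mul, h3, _root_.one_zpow, mul_one]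
    have h0 := Int.emod_nonneg n (by norm_num : (3 : ℤ) ≠ 0)
    have h1 := Int.emod_lt_of_pos n (by norm_num : (0 : ℤ) < 3)
    rw [← hn, hmod]
    interval_cases hh : n % 3
    · exfalso
      rw [zpow_zero] at hmod
      rw [hmod] at hn
      exact hx01 (by
        calc x0 = a⁻¹ * (a * x0 * a⁻¹) * a := by group
          _ = 1 := by rw [← hn]; group)
    · exact Or.inl (zpow_one _)
    · refine Or.inr (eq_inv_of_mul_eq_one_left ?_)
      rw [← _root_.zpow_add_one]; exact h3
  let χ : M ⧸ Q' →* ℤˣ := MonoidHom.mk' (fun a => if a * x0 * a⁻¹ = x0 then 1 else -1) (by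
    intro a b
    have hne : x0⁻¹ ≠ x0 := fun e => hx01 (by
      rw [inv_eq_iff_mul_eq_one] at e
      rwa [e, mul_one] at hx03)
    have e : a * b * x0 * (a * b)⁻¹ = a * (b * x0 * b⁻¹) * a⁻¹ := by group
    rw [e]
    have e' : a * x0⁻¹ * a⁻¹ = (a * x0 * a⁻¹)⁻¹ := by group
    rcases horb a with ha | ha <;> rcases horb b with hb | hb <;> simp [ha, hb, e', hne] <;> exact _root_.inv_inv x0)
  have hχ := hom_trivial π hπs χ (by
    intro a ha
    rw [hzp] at ha
    obtain ⟨n, rfl⟩ := Subgroup.mem_zpowers_iff.1 ha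
    refine MonoidHom.mem_ker.2 ?_
    show (if _ then (1 : ℤˣ) else -1) = 1
    rw [if_pos]; group) (m := 2) (by norm_num) (fun c => Int.units_sq c)
  have hcentral : ∀ a, a * x0 = x0 * a := fun a => by
    have h := hχ a
    have h' : (if a * x0 * a⁻¹ = x0 then (1 : ℤˣ) else -1) = 1 := h
    split at h'
    · rename_i hc; rwa [mul_inv_eq_iff_eq_mul] at hc
    · exact absurd h' (by decide)
  let R : Ext F (M ⧸ Q') :=
    { π := π, surj := hπs, x0 := x0, x0_cube := hx03, x0_ne := hx01, central := hcentral, ker := hzp }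
  obtain ⟨φ, ρ, hbij, hφadd, hφh, hρinj, hρr, hρv⟩ := exists_repr (L := K) R τA hτA q hq0 hadd hnd (fun a u => by
    obtain ⟨a, rfl⟩ := QuotientGroup.mk'_surjective Q' a
    exact hqi a.1 u)
  refine ⟨{ M := M, normal := hMn, le := hQN.trans hNM, index := hidx, sing := singPt_of_setting hs
            card_Q := by rw [hs.2.2.2.1]
            v := fun a => φ (v a)
            v_surj := hbij.2.comp hvs
            v_mul := fun a b => by rw [hvm, hφadd]
            v_eq_zero := fun a => ?_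
            v_sq := fun a => ?_
            ρ := ρ.comp (QuotientGroup.mk' Q')
            ρ_ker := fun m => ?_
            ρ_range := ?_
            v_conj := fun m a => ?_ }⟩
  · rw [← hv0]
    have h0 : φ 0 = 0 := by
      have h := hφadd 0 0
      rwa [add_zero, left_eq_add] at h
    exact ⟨fun h => hbij.1 (h.trans h0.symm), fun h => by rw [h, h0]⟩
  · rw [hφh]
    by_cases h : gv a * gv a = 1
    · rw [if_pos h, (hqv a).2 h, map_zero]
    · rw [if_neg h]
      have h1 : q (v a) ≠ 0 := fun e => h ((hqv a).1 e)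
      have h01 : ∀ x : ZMod 2, x ≠ 0 → x = 1 := by decide
      rw [h01 _ h1, map_one]
  · rw [MonoidHom.comp_apply, map_eq_one_iff _ hρinj]
    exact (QuotientGroup.eq_one_iff m).trans Subgroup.mem_subgroupOf
  · rw [MonoidHom.range_comp, MonoidHom.range_eq_top.2 (QuotientGroup.mk'_surjective Q'), ← MonoidHom.range_eq_map, hρr]
  · rw [← hτv]
    exact hρv (QuotientGroup.mk m) (v a)

end Cfsg.Agent.H8.LFT
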