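import Cfsg.Agent.H8.U62.Subs
import Cfsg.Agent.H8.LFT.Check

/-!
# The two orbits on isotropic vectors
-/

set_option autoImplicit false
set_option linter.unusedSectionVars false

namespace Cfsg.Agent.H8.LFT

open Matrix Cfsg.Agent.H8.U62 Cfsg.Agent.H8.U62.Setup

variable {F : Type} [Setup F]

theorem smul_def (g : SU6 F) (x : Fin 6 → F) : g • x = mat g *ᵥ x := rfl

/-- The seed vector. -/
def seedF (o : ℕ) : Fin 6 → F := vecF om (seedC o)

theorem testBit_maskL : ∀ (l : List ℕ) (n : ℕ), (maskL l).testBit n = true ↔ n ∈ l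
  | [], n => by simp [maskL]
  | a :: l, n => by
    rw [show maskL (a :: l) = Nat.lor (1 <<< a) (maskL l) from rfl,
      show ∀ a b, Nat.lor a b = a ||| b from fun _ _ => rfl, Nat.testBit_or, Nat.one_shiftLeft,
      Nat.testBit_two_pow, Bool.or_eq_true, testBit_maskL l, List.mem_cons, decide_eq_true_eq, eq_comm]

theorem closed_facts {gens : List ℕ} {l : List ℕ} {s n : ℕ} (h : closedOK gens l s n = true) :
    l.length = n ∧ l.Nodup ∧ s ∈ l ∧ ∀ v ∈ l, v < 4096 ∧ ∀ g ∈ gens, mvC g v ∈ l := by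
  simp only [closedOK, forceL_eq, force_eq, Bool.and_eq_true, List.all_eq_true, testBit_maskL] at h
  exact ⟨Nat.eq_of_beq_eq_true h.1.1, (keysOK_sound _ _ h.1.2).1, h.2.1, fun v hv =>
    ⟨Nat.le_of_ble_eq_true (h.2.2 v hv).1, (h.2.2 v hv).2⟩⟩

theorem orbit_ok (o : Fin 2) : orbitOK o.1 = true := by
  match o with
  | ⟨0, _⟩ => exact orbit_ok0
  | ⟨1, _⟩ => exact orbit_ok1

theorem orbL_facts (o : Fin 2) : (orbL o.1).length = orbLen o.1 ∧ (orbL o.1).Nodup ∧ seedC o.1 ∈ orbL o.1 ∧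
    ∀ v ∈ orbL o.1, v < 4096 ∧ ∀ g ∈ subGenC 0, mvC g v ∈ orbL o.1 := by
  have h := orbit_ok o
  simp only [orbitOK, Bool.and_eq_true] at h
  exact closed_facts h.1

theorem monoOrb_facts (o : Fin 2) : (monoOrb.getD o.1 []).length = 243 ∧ (monoOrb.getD o.1 []).Nodup ∧
    seedC o.1 ∈ monoOrb.getD o.1 [] ∧
    ∀ v ∈ monoOrb.getD o.1 [], v < 4096 ∧ ∀ g ∈ genC, mvC g v ∈ monoOrb.getD o.1 [] := by
  have h := orbit_ok o
  simp only [orbitOK, Bool.and_eq_true] at h
  exact closed_facts h.2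

theorem real_smul {H : Subgroup (SU6 F)} {A : ℕ} (hA : Real H A) (v : ℕ) :
    ∃ g ∈ H, g • vecF (om : F) v = vecF om (mvC A v) := by
  obtain ⟨g, hg, e⟩ := hA
  exact ⟨g, hg, by rw [smul_def, e, vecF_mvC _ hom two]⟩

/-- Each step of a tree refers to an earlier one. -/
def treeRefs : List (ℕ × ℕ) → ℕ → Bool
  | [], _ => true
  | (p, _) :: t, n => Nat.blt p n && treeRefs t (n + 1)

theorem bldV_mem {H : Subgroup (SU6 F)} {gens : List ℕ} (hg : ∀ A ∈ gens, Real H A) (x : Fin 6 → F) :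
    ∀ (t : List (ℕ × ℕ)) (n N : ℕ), N < 2 ^ (12 * n) →
      (∀ i < n, ∃ g ∈ H, g • x = vecF (om : F) (N / 2 ^ (12 * i) % 4096)) →
      treeRefs t n = true → ∀ v ∈ bldV gens t n N, ∃ g ∈ H, g • x = vecF (om : F) v
  | [], _, _, _, _, _ => fun v hv => by simp [bldV] at hv
  | (p, k) :: t, n, N, hN, ha, h => by
    simp only [treeRefs, Bool.and_eq_true] at h
    have hp : p < n := Nat.le_of_ble_eq_true h.1
    simp only [bldV, force_eq]
    set w := mvC (gens.getD k oneC) (N / 2 ^ (12 * p) % 4096) with hw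
    have hw12 : w < 4096 := mvN_lt _ (hom (F := F)) two 6 _ _
    obtain ⟨g, hgH, e⟩ := ha p hp
    obtain ⟨g', hg', e'⟩ := real_smul (Real.getD hg k) (N / 2 ^ (12 * p) % 4096)
    have hwg : ∃ g ∈ H, g • x = vecF (om : F) w := ⟨g' * g, H.mul_mem hg' hgH, by rw [mul_smul, e, e']⟩
    intro v hv
    rcases List.mem_cons.1 hv with rfl | hv
    · exact hwg
    have hN' : N + w * 2 ^ (12 * n) < 2 ^ (12 * (n + 1)) := by
      calc N + w * 2 ^ (12 * n) < 2 ^ (12 * n) + w * 2 ^ (12 * n) := by omega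
        _ = (w + 1) * 2 ^ (12 * n) := by ring
        _ ≤ 4096 * 2 ^ (12 * n) := Nat.mul_le_mul_right _ hw12
        _ = 2 ^ (12 * (n + 1)) := by rw [mul_add, pow_add]; ring
    refine bldV_mem hg x t (n + 1) _ hN' (fun i hi => ?_) h.2 v hv
    rcases Nat.lt_succ_iff_lt_or_eq.1 hi with hi | rfl
    · obtain ⟨d, rfl⟩ : ∃ d, n = i + (d + 1) := ⟨n - i - 1, by omega⟩
      rw [show w * 2 ^ (12 * (i + (d + 1))) = w * 2 ^ (12 * d) * 4096 * 2 ^ (12 * i) by
          rw [mul_add, mul_add, pow_add, pow_add]; ring,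
        Nat.add_mul_div_right _ _ (Nat.two_pow_pos _), Nat.add_mul_mod_self_right]
      exact ha i hi
    · rw [Nat.add_mul_div_right _ _ (Nat.two_pow_pos _), Nat.div_eq_of_lt hN, zero_add, Nat.mod_eq_of_lt hw12]
      exact hwg

theorem orbit_tree_ok : ∀ o : Fin 2, treeRefs (orbTree.getD o.1 []) 1 = true := by
  decide +kernel

theorem exists_smul_eq (o : Fin 2) {v : ℕ} (hv : v ∈ orbL o.1) :
    ∃ g ∈ sub (F := F) 0, g • (seedF o.1 : Fin 6 → F) = vecF om v :=
  by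
    rcases List.mem_cons.1 hv with rfl | hv
    · exact ⟨1, one_mem _, by rw [one_smul]; rfl⟩
    refine bldV_mem (real_subGenC 0) _ _ 1 _ ?_ (fun i hi => ⟨1, one_mem _, ?_⟩) (orbit_tree_ok o) v hv
    · show seedC o.1 < 2 ^ (12 * 1)
      unfold seedC; split <;> norm_num
    · obtain rfl : i = 0 := by omega
      rw [one_smul]
      refine congrArg (vecF (om : F)) ?_
      rw [mul_zero, pow_zero, Nat.div_one, Nat.mod_eq_of_lt (show seedC o.1 < 4096 by unfold seedC; split <;> norm_num)]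

theorem mem_orb_of_gen {ι : Type} [Finite ι] (gen : ι → SU6 F) (code : ι → ℕ)
    (hc : ∀ i, mat (gen i) = matF om (code i)) {l : List ℕ} (hl : ∀ v ∈ l, ∀ i, mvC (code i) v ∈ l) {g : SU6 F}
    (hg : g ∈ Subgroup.closure (Set.range gen)) :
    ∀ v ∈ l, ∃ w ∈ l, g • vecF (om : F) v = vecF om w := by
  have hg' : g ∈ (Subgroup.closure (Set.range gen)).toSubmonoid := hg
  rw [Subgroup.closure_toSubmonoid_of_finite] at hg'
  induction hg' using Submonoid.closure_induction_left with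
  | one => exact fun v hv => ⟨v, hv, one_smul _ _⟩
  | mul_left a ha b hb ih =>
    obtain ⟨i, rfl⟩ := ha
    intro v hv
    obtain ⟨w, hw, e⟩ := ih (by rw [← Subgroup.closure_toSubmonoid_of_finite] at hb; exact hb) v hv
    exact ⟨_, hl w hw i, by rw [mul_smul, e, smul_def, hc, vecF_mvC _ hom two]⟩

theorem sub_smul_mem (o : Fin 2) {g : SU6 F} (hg : g ∈ sub 0) :
    ∀ v ∈ orbL o.1, ∃ w ∈ orbL o.1, g • vecF (om : F) v = vecF om w := by
  refine mem_orb_of_gen (subGen 0) (fun i => (subGenC 0).getD i.1 0) (mat_subGen 0) (fun v hv i => ?_) hg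
  refine ((orbL_facts o).2.2.2 v hv).2 _ ?_
  have : ∀ i : Fin 4, (subGenC 0).getD i.1 0 ∈ subGenC 0 := by decide +kernel
  exact this i

theorem monoE_smul_mem (o : Fin 2) {g : SU6 F} (hg : g ∈ monoE) :
    ∀ v ∈ monoOrb.getD o.1 [], ∃ w ∈ monoOrb.getD o.1 [], g • vecF (om : F) v = vecF om w := by
  refine mem_orb_of_gen _ (fun i : Fin 3 => genC.getD i.1 oneC) (fun i => ?_) (fun v hv i => ?_) hg
  · rw [genC_getD]; exact mat_wordG _
  · refine ((monoOrb_facts o).2.2.2 v hv).2 _ ?_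
    have : ∀ i : Fin 3, genC.getD i.1 oneC ∈ genC := by decide +kernel
    exact this i

theorem code_inj {v w : ℕ} (hv : v < 4096) (hw : w < 4096) (h : vecF (om : F) v = vecF om w) : v = w := by
  have := low_eq_of_vecF_eq h
  have e : ∀ u < 4096, Nat.land u 4095 = u := fun u hu => by
    show u &&& 4095 = u
    rw [show (4095 : ℕ) = 2 ^ 12 - 1 by norm_num, Nat.and_two_pow_sub_one_eq_mod]
    exact Nat.mod_eq_of_lt hu
  rwa [e v hv, e w hw] at this

theorem ncard_image {l : List ℕ} (hn : l.Nodup) (hl : ∀ v ∈ l, v < 4096) :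
    ((vecF (om : F)) '' {v | v ∈ l}).ncard = l.length := by
  classical
  have e : {v | v ∈ l} = (l.toFinset : Set ℕ) := by ext; simp
  rw [Set.InjOn.ncard_image (f := vecF (om : F)) (s := {v | v ∈ l}) fun v hv w hw e => code_inj (hl v hv) (hl w hw) e,
    e, Set.ncard_coe_finset, List.toFinset_card_of_nodup hn]

theorem orbit_eq (o : Fin 2) :
    MulAction.orbit (sub (F := F) 0) (seedF o.1 : Fin 6 → F) = vecF om '' {v | v ∈ orbL o.1} := by
  ext x
  constructor
  · rintro ⟨⟨g, hg⟩, rfl⟩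
    obtain ⟨w, hw, e⟩ := sub_smul_mem o hg _ (orbL_facts o).2.2.1
    exact ⟨w, hw, e.symm⟩
  · rintro ⟨v, hv, rfl⟩
    obtain ⟨g, hg, e⟩ := exists_smul_eq (F := F) o hv
    exact ⟨⟨g, hg⟩, e⟩

theorem ncard_orbit (o : Fin 2) :
    (MulAction.orbit (sub (F := F) 0) (seedF o.1 : Fin 6 → F)).ncard = orbLen o.1 := by
  rw [orbit_eq, ncard_image (orbL_facts o).2.1 fun v hv => ((orbL_facts o).2.2.2 v hv).1, (orbL_facts o).1]

/-- Two different orbits. -/
theorem no_fusion {g : SU6 F} (hg : g ∈ sub 0) : g • (seedF 0 : Fin 6 → F) ≠ seedF 1 := by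
  intro e
  have h : MulAction.orbit (sub (F := F) 0) (seedF (1 : Fin 2).1 : Fin 6 → F) =
      MulAction.orbit (sub (F := F) 0) (seedF (0 : Fin 2).1 : Fin 6 → F) :=
    MulAction.orbit_eq_iff.2 ⟨⟨g, hg⟩, e⟩
  have := congrArg Set.ncard h
  rw [ncard_orbit, ncard_orbit] at this
  exact absurd this (by decide)

theorem seedC_sing : ∀ o : Fin 2, orthC (seedC o.1) (seedC o.1) = true ∧ seedC o.1 < 4096 ∧ seedC o.1 ≠ 0 := by
  decide

theorem seedF_ne_zero (o : Fin 2) : (seedF o.1 : Fin 6 → F) ≠ 0 := fun e =>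
  (seedC_sing o).2.2 (code_inj (F := F) (seedC_sing o).2.1 (by norm_num)
    (e.trans (vecF_zero _ hom two).symm))

theorem seedF_sing (o : Fin 2) : hermForm 6 F 2 (seedF o.1 : Fin 6 → F) (seedF o.1) = 0 :=
  (hermForm_eq_zero_iff _ hom two).2 (seedC_sing o).1

/-- Every singular vector is in one of the two orbits. -/
theorem exists_orbit {x : Fin 6 → F} (hx : x ≠ 0) (hh : hermForm 6 F 2 x x = 0) :
    ∃ o : Fin 2, ∃ g ∈ sub (F := F) 0, g • (seedF o.1 : Fin 6 → F) = x := by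
  obtain ⟨v, hv, rfl⟩ := exists_vecF x
  have ho := (hermForm_eq_zero_iff _ hom two).1 hh
  have hv0 : v ≠ 0 := by rintro rfl; exact hx (vecF_zero _ hom two)
  have h := cover_ok
  simp only [coverOK, force_eq, List.all_eq_true, List.mem_range, Bool.or_eq_true, Bool.not_eq_true',
    testBit_maskL] at h
  rcases h v hv with ((e | e) | e) | e
  · exact absurd (Nat.eq_of_beq_eq_true e) hv0
  · rw [ho] at e; exact absurd e (by simp)
  · exact ⟨0, exists_smul_eq 0 e⟩
  · exact ⟨1, exists_smul_eq 1 e⟩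

end Cfsg.Agent.H8.LFT
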