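import Cfsg.Agent.H8.U62.Subs
import Cfsg.Agent.H8.U62.Final
import Cfsg.Agent.H8.LFT.Check

/-!
# The first subgroup modulo scalars has no small abelian quotient
-/

set_option autoImplicit false
set_option linter.unusedSectionVars false
set_option maxRecDepth 20000

namespace Cfsg.Agent.H8.LFT

open Matrix Cfsg.Agent.H8.U62 Cfsg.Agent.H8.U62.Setup

variable {F : Type} [Setup F]

/-- The scalars inside the first subgroup. -/
noncomputable abbrev Z0 : Subgroup (sub (F := F) 0) := (Subgroup.center (SU6 F)).subgroupOf (sub 0)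

/-- The simple quotient. -/
abbrev S0 (F : Type) [Setup F] : Type := sub (F := F) 0 ⧸ Z0 (F := F)

theorem gen_facts :
    (∀ c ∈ conjW, ∃ m : ℕ × ℕ, mmC c.2.2 (monC m.1 m.2) = mmC (monC m.1 m.2) (genC.getD 2 0)) ∧
    mmC (conjW.getD 0 (0, 0, 0)).2.2 (conjW.getD 1 (0, 0, 0)).2.2 = genC.getD 0 0 ∧
    mmC (conjW.getD 2 (0, 0, 0)).2.2 (conjW.getD 3 (0, 0, 0)).2.2 = genC.getD 1 0 ∧
    (∀ x ∈ [genC.getD 2 0, mmC (subG.getD 0 0) (monC 121 203)],
      mmC x (mmC x (mmC x (mmC x x))) = oneC) := by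
  have h := gen_ok
  simp only [genOK, force_eq, Bool.and_eq_true, List.all_eq_true] at h
  obtain ⟨⟨⟨⟨⟨⟨⟨⟨-, hc⟩, h01⟩, h23⟩, -⟩, h5⟩, hk⟩, -⟩, -⟩ := h
  refine ⟨fun c hc' => ⟨(c.1, c.2.1), Nat.eq_of_beq_eq_true (hc c hc').2⟩, Nat.eq_of_beq_eq_true h01,
    Nat.eq_of_beq_eq_true h23, fun x hx => ?_⟩
  simp only [List.mem_cons, List.not_mem_nil, or_false] at hx
  rcases hx with rfl | rfl
  · exact Nat.eq_of_beq_eq_true h5
  · exact Nat.eq_of_beq_eq_true hk

theorem pow_five_of_code {g : SU6 F} {x : ℕ} (hg : mat g = matF om x)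
    (h : mmC x (mmC x (mmC x (mmC x x))) = oneC) : g ^ 5 = 1 := by
  have e : g ^ 5 = g * (g * (g * (g * g))) := by simp only [pow_succ, pow_zero, one_mul, mul_assoc]
  refine ext_mat ?_
  rw [e]
  simp only [mat_mul, hg, ← matF_mmC _ hom two, h, matF_oneC _ hom two, mat_one]

/-- The elements of order five generate the first subgroup. -/
theorem five_gen (H : Subgroup (SU6 F)) (h : ∀ g ∈ sub 0, g ^ 5 = 1 → g ∈ H) : sub 0 ≤ H := by
  obtain ⟨hcw, h01, h23, h5⟩ := gen_facts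
  have hW : ∀ n < 3, genC.getD n oneC = genC.getD n 0 := by decide +kernel
  have hbw : Real H (genC.getD 2 0) := by
    have e : mat (wordG (genW.getD (2 : Fin 3).1 []) : SU6 F) = matF om (genC.getD 2 0) := by
      rw [mat_wordG, ← genC_getD, hW _ (by norm_num)]; rfl
    refine ⟨_, h _ ?_ (pow_five_of_code e (h5 _ (by simp))), e⟩
    exact monoE_le_sub 0 (Subgroup.subset_closure ⟨2, rfl⟩)
  have hX : ∀ c ∈ conjW, Real H c.2.2 := by
    intro c hc
    obtain ⟨q, hq⟩ := hcw c hc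
    obtain ⟨m, hm, hmA⟩ := real_monC (F := F) q.1 q.2
    obtain ⟨b, -, hbA⟩ := hbw
    have hb0 : b ∈ sub (F := F) 0 := by
      have e : mat (wordG (genW.getD (2 : Fin 3).1 []) : SU6 F) = matF om (genC.getD 2 0) := by
        rw [mat_wordG, ← genC_getD, hW _ (by norm_num)]; rfl
      rw [show b = wordG (genW.getD (2 : Fin 3).1 []) from ext_mat (hbA.trans e.symm)]
      exact monoE_le_sub 0 (Subgroup.subset_closure ⟨2, rfl⟩)
    have hx : mat (m * b * m⁻¹) = matF om c.2.2 := by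
      have e1 : mat (m * b * m⁻¹) * matF om (monC q.1 q.2) = matF om c.2.2 * matF om (monC q.1 q.2) := by
        rw [← hmA, ← mat_mul, inv_mul_cancel_right, mat_mul, hbA, hmA, ← matF_mmC _ hom two, ← hq,
          matF_mmC _ hom two]
      have hu : matF (om : F) (monC q.1 q.2) * mat m⁻¹ = 1 := by rw [← hmA, ← mat_mul, mul_inv_cancel, mat_one]
      calc mat (m * b * m⁻¹) = mat (m * b * m⁻¹) * (matF om (monC q.1 q.2) * mat m⁻¹) := by rw [hu, mul_one]
        _ = _ := by rw [← mul_assoc, e1, mul_assoc, hu, mul_one]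
    refine ⟨m * b * m⁻¹, h _ (mul_mem (mul_mem (monoE_le_sub 0 hm) hb0) (inv_mem (monoE_le_sub 0 hm))) ?_, hx⟩
    rw [conj_pow, pow_five_of_code hbA (h5 _ (by simp)), mul_one, mul_inv_cancel]
  have hcm : ∀ n : Fin 4, conjW.getD n.1 (0, 0, 0) ∈ conjW := by decide +kernel
  have hmono : monoE (F := F) ≤ H := by
    rw [monoE, Subgroup.closure_le]
    rintro _ ⟨i, rfl⟩
    have hA : Real H (genC.getD i.1 0) := by
      match i with
      | ⟨0, _⟩ => rw [← h01]; exact (hX _ (hcm 0)).mmC (hX _ (hcm 1))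
      | ⟨1, _⟩ => rw [← h23]; exact (hX _ (hcm 2)).mmC (hX _ (hcm 3))
      | ⟨2, _⟩ => exact hbw
    refine hA.mem ?_
    rw [mat_wordG, ← genC_getD, hW _ i.2]
  rw [U62.sub, Subgroup.closure_le]
  rintro _ ⟨g, rfl⟩
  have key : ∀ g : Fin 4, (g.1 < 3 ∧ (subGenW 0).getD g.1 [] = genW.getD g.1 []) ∨ g = 3 := by decide +kernel
  rcases key g with ⟨hg, e⟩ | rfl
  · refine hmono ?_
    show wordG ((subGenW 0).getD g.1 []) ∈ monoE
    rw [e]
    exact Subgroup.subset_closure ⟨⟨g.1, hg⟩, rfl⟩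
  · obtain ⟨m, hm, hmA⟩ := real_monC (F := F) 121 203
    have e3 : mat (subGen 0 3 : SU6 F) = matF om (subG.getD 0 0) := by
      rw [mat_subGen]
      have : (subGenC 0).getD (3 : Fin 4).1 0 = subG.getD 0 0 := by decide +kernel
      exact congrArg _ this
    have hk : subGen 0 3 * m ∈ H := h _ (mul_mem (Subgroup.subset_closure ⟨3, rfl⟩) (monoE_le_sub 0 hm))
      (pow_five_of_code (by rw [mat_mul, e3, hmA, matF_mmC _ hom two]) (h5 _ (by simp)))
    simpa using mul_mem hk (inv_mem (hmono hm))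

/-- A map into an abelian group of exponent prime to five that factors through the quotient is trivial. -/
theorem hom_trivial {A C : Type*} [Group A] [CommGroup C] (π : A →* S0 F) (hπ : Function.Surjective π)
    (χ : A →* C) (hk : π.ker ≤ χ.ker) {m : ℕ} (hm : Nat.Coprime m 5) (hC : ∀ c : C, c ^ m = 1) :
    ∀ a, χ a = 1 := by
  have h5 : ∀ g ∈ sub (F := F) 0, g ^ 5 = 1 →
      g ∈ ((χ.ker.map π).comap (QuotientGroup.mk' (Z0 (F := F)))).map (sub (F := F) 0).subtype := by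
    intro g hg hg5
    obtain ⟨a, ha⟩ := hπ (QuotientGroup.mk' _ ⟨g, hg⟩)
    refine ⟨⟨g, hg⟩, ⟨a, ?_, ha⟩, rfl⟩
    have h1 : a ^ 5 ∈ χ.ker := hk (MonoidHom.mem_ker.2 (by
      rw [map_pow, ha, ← map_pow, show (⟨g, hg⟩ : sub (F := F) 0) ^ 5 = 1 from Subtype.ext hg5, map_one]))
    rw [MonoidHom.mem_ker, map_pow] at h1
    refine MonoidHom.mem_ker.2 (orderOf_eq_one_iff.1 (Nat.dvd_one.1 ?_))
    exact hm ▸ Nat.dvd_gcd (orderOf_dvd_of_pow_eq_one (hC _)) (orderOf_dvd_of_pow_eq_one h1)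
  have hall := five_gen _ h5
  intro a
  obtain ⟨b, hb⟩ := QuotientGroup.mk'_surjective (Z0 (F := F)) (π a)
  obtain ⟨b', hb', e⟩ := Subgroup.mem_map.1 (hall b.2)
  rw [Subgroup.coe_subtype] at e
  rw [show b' = b from Subtype.ext e] at hb'
  obtain ⟨a', ha', e'⟩ := Subgroup.mem_comap.1 hb'
  have h2 : a'⁻¹ * a ∈ χ.ker := hk (MonoidHom.mem_ker.2 (by rw [map_mul, map_inv, e', hb, inv_mul_cancel]))
  simpa using mul_mem ha' h2

/-- The quotient has trivial centre. -/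
theorem S0_center_trivial {s : S0 F} (hs : ∀ t, t * s = s * t) : s = 1 := by
  obtain ⟨a, rfl⟩ := QuotientGroup.mk'_surjective (Z0 (F := F)) s
  have hc : ∀ t : sub (F := F) 0, a * t * a⁻¹ * t⁻¹ ∈ Z0 (F := F) := fun t => by
    refine (QuotientGroup.eq_one_iff _).1 ?_
    show QuotientGroup.mk' (Z0 (F := F)) (a * t * a⁻¹ * t⁻¹) = 1
    rw [map_mul, map_mul, map_mul, map_inv, map_inv, ← hs (QuotientGroup.mk' _ t)]
    group
  have hzc : ∀ z ∈ Z0 (F := F), ∀ x : sub (F := F) 0, x * z = z * x := fun z hz x =>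
    Subtype.ext (Subgroup.mem_center_iff.1 hz x.1)
  let Zc : Subgroup (sub (F := F) 0) := Z0
  letI hcomm : CommGroup Zc := { (inferInstance : Group Zc) with
    mul_comm := fun x y => Subtype.ext (hzc _ y.2 x.1) }
  let χ : sub (F := F) 0 →* Zc := MonoidHom.mk' (fun t => ⟨a * t * a⁻¹ * t⁻¹, hc t⟩) fun t u => Subtype.ext (by
    show a * (t * u) * a⁻¹ * (t * u)⁻¹ = a * t * a⁻¹ * t⁻¹ * (a * u * a⁻¹ * u⁻¹)
    calc a * (t * u) * a⁻¹ * (t * u)⁻¹ = a * t * a⁻¹ * (a * u * a⁻¹ * u⁻¹) * t⁻¹ := by group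
      _ = _ := by rw [mul_assoc (a * t * a⁻¹), ← hzc _ (hc u) t⁻¹, ← mul_assoc])
  have h := hom_trivial (F := F) (C := Zc) (QuotientGroup.mk' Z0) (QuotientGroup.mk'_surjective _) χ (fun t ht => by
    rw [QuotientGroup.ker_mk'] at ht
    refine MonoidHom.mem_ker.2 (Subtype.ext ?_)
    show a * t * a⁻¹ * t⁻¹ = 1
    rw [hzc t ht a, mul_inv_cancel_right, mul_inv_cancel]) (m := 3) (by norm_num) (fun c => by
      have hc3 : Nat.card Zc = 3 := by
        rw [Nat.card_congr (Subgroup.subgroupOfEquivOfLe (center_le_sub 0)).toEquiv, card_center]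
      have hp : c ^ Nat.card Zc = 1 := pow_card_eq_one'
      rwa [hc3] at hp)
  have ha : a ∈ Subgroup.center (sub (F := F) 0) := Subgroup.mem_center_iff.2 fun t => by
    have e : a * t * a⁻¹ * t⁻¹ = 1 := congrArg Subtype.val (h t)
    rw [mul_inv_eq_one, mul_inv_eq_iff_eq_mul] at e
    exact e.symm
  refine (QuotientGroup.eq_one_iff _).2 ?_
  rw [show Z0 (F := F) = Subgroup.center (sub (F := F) 0) from (center_le_center_sub 0).symm]
  exact ha

end Cfsg.Agent.H8.LFT
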