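/-!
# Data for the largest elementary abelian subgroup
-/

set_option autoImplicit false

namespace Cfsg.Agent.H8.LFT

/-- The sixteen codes. -/
def kL : List Nat :=
  [1180663682709764194305,295436135830651142145,1358257208839449567045,1299443675917431749304,1180663678586360954928,1472424209623913145852,473029666083269992308,587196666868203333069,414216133161721936521,1299443680040834988681,587196670991136810492,473029661960336514885,295436139953584619568,1472424213747316385229,1358257204716046327668,414216137284655413944]

/-- The sixty four common fixed vectors. -/
def wL : List Nat :=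
  [0,18,35,49,68,86,103,117,136,154,171,185,204,222,239,253,1280,1298,1315,1329,1348,1366,1383,1397,1416,1434,1451,1465,1484,1502,1519,1533,2560,2578,2595,2609,2628,2646,2663,2677,2696,2714,2731,2745,2764,2782,2799,2813,3840,3858,3875,3889,3908,3926,3943,3957,3976,3994,4011,4025,4044,4062,4079,4093]

/-- Normalising elements. -/
def nL : List (Nat × Nat × Nat) :=
  [(0,0,0),(105,89,94),(1,7,199),(0,242,95),(6,1,0),(95,26,179),(53,5,66),(57,6,190),(78,25,5),(41,6,2),(3,95,229),(3,0,9),(87,103,196),(2,6,0),(95,223,22)]

end Cfsg.Agent.H8.LFT
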