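import Cfsg.Agent.H8.LFT.Check
import Cfsg.Agent.H8.LFT.TopData

/-!
# Checks for the largest elementary abelian subgroup
-/

set_option autoImplicit false

namespace Cfsg.Agent.H8.LFT

open Cfsg.Agent.H8.U62

/-- The sixteen codes form an elementary abelian group inside the Sylow list. -/
def kOK : Bool :=
  forceL ((sylL 2).map nrmC) fun ks => forceL kL fun k =>
    Nat.beq k.length 16 && keysOK k 0 && (k.any fun a => Nat.beq a oneC) &&
    k.all fun a => (ks.any fun x => Nat.beq x a) && Nat.beq (nrmC a) a && Nat.beq (nrmC (mmC a a)) oneC &&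
      k.all fun b => force (nrmC (mmC a b)) fun c => Nat.beq c (nrmC (mmC b a)) && (k.any fun x => Nat.beq x c)

/-- The common fixed vectors. -/
def wOK : Bool :=
  forceL kL fun k => forceL wL fun w => force (maskL w) fun m =>
    Nat.beq w.length 64 && keysOK w 0 &&
    ((List.range 4096).all fun x => (m.testBit x == k.all fun a => Nat.beq (mvC a x) x)) &&
    w.all fun x => Nat.blt x 4096 && orthC x x && m.testBit (sW x) && w.all fun y => m.testBit (Nat.xor x y)

/-- The elementary subgroups of order sixteen in the Sylow list. -/
def maxOK : Bool :=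
  forceL ((sylL 2).map nrmC) fun ks =>
    forceL (ks.filter fun k => Nat.beq (nrmC (mmC k k)) oneC && !(Nat.beq k oneC)) fun iv =>
      iv.all fun p =>
        !(Nat.ble 15 (iv.filter fun q => Nat.beq (nrmC (mmC p q)) (nrmC (mmC q p))).length) ||
          (kL.any fun a => Nat.beq a p) || (e16.any fun a => Nat.beq a p)

/-- Few vectors are fixed by the other one, and by any involution. -/
def fewOK : Bool :=
  forceL e16 fun e =>
    Nat.blt ((List.range 4096).filter fun x => e.all fun A => Nat.beq (mvC A x) x).length 64 &&
    (e.all fun A => e.all fun B => e.any fun C => Nat.beq (nrmC (mmC A B)) (nrmC C)) &&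
    e.all fun A => Nat.beq A oneC || Nat.ble ((List.range 4096).filter fun x => Nat.beq (mvC A x) x).length 256

/-- Transitivity of the normaliser. -/
def nrOK : Bool :=
  Nat.beq nL.length 15 && (nL.all subIdxOK) &&
    forceL kL fun k => (List.range 15).all fun i => force (subElC 0 (nL.getD i (0, 0, 0))) fun w =>
      Nat.beq (nrmC (mmC w (k.getD 1 0))) (nrmC (mmC (k.getD (i + 1) 0) w)) &&
      k.all fun a => k.any fun b => Nat.beq (nrmC (mmC w a)) (nrmC (mmC b w))

theorem k_ok : kOK = true := by decide +kernel

theorem w_ok : wOK = true := by decide +kernel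

theorem max_ok : maxOK = true := by decide +kernel

theorem few_ok : fewOK = true := by decide +kernel

theorem nr_ok : nrOK = true := by decide +kernel

end Cfsg.Agent.H8.LFT
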