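import Cfsg.Agent.H8.LFT.FuseVec
import Cfsg.Agent.H8.LFT.TopCheck
import Cfsg.Prelude.Def_Transfer

/-!
# The elementary abelian group of order sixteen and its fixed vectors
-/

set_option autoImplicit false
set_option linter.unusedSectionVars false
set_option maxRecDepth 20000

namespace Cfsg.Agent.H8.LFT

open Matrix Cfsg.Agent.H8.U62 Cfsg.Agent.H8.U62.Setup

variable {F : Type} [Setup F]

/-- The common fixed vectors. -/
def InW (x : Fin 6 → F) : Prop := ∃ w ∈ wL, vecF (om : F) w = x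

theorem k_facts : kL.length = 16 ∧ kL.Nodup ∧ oneC ∈ kL ∧ ∀ a ∈ kL, a ∈ (sylL 2).map nrmC ∧ nrmC a = a ∧
    nrmC (mmC a a) = oneC ∧ ∀ b ∈ kL, nrmC (mmC a b) = nrmC (mmC b a) ∧ nrmC (mmC a b) ∈ kL := by
  have h := k_ok
  simp only [kOK, forceL_eq, force_eq, Bool.and_eq_true, List.all_eq_true, List.any_eq_true] at h
  obtain ⟨⟨⟨hl, hn⟩, o, ho, hoe⟩, hall⟩ := h
  refine ⟨Nat.eq_of_beq_eq_true hl, (keysOK_sound _ _ hn).1, Nat.eq_of_beq_eq_true hoe ▸ ho, fun a ha => ?_⟩
  obtain ⟨⟨⟨⟨x, hx, hxe⟩, hna⟩, hsq⟩, hb⟩ := hall a ha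
  refine ⟨Nat.eq_of_beq_eq_true hxe ▸ hx, Nat.eq_of_beq_eq_true hna, Nat.eq_of_beq_eq_true hsq, fun b hb' => ?_⟩
  obtain ⟨h1, y, hy, hye⟩ := hb b hb'
  exact ⟨Nat.eq_of_beq_eq_true h1, Nat.eq_of_beq_eq_true hye ▸ hy⟩

theorem w_facts : wL.length = 64 ∧ wL.Nodup ∧
    (∀ x < 4096, x ∈ wL ↔ ∀ a ∈ kL, mvC a x = x) ∧
    ∀ x ∈ wL, x < 4096 ∧ orthC x x = true ∧ sW x ∈ wL ∧ ∀ y ∈ wL, Nat.xor x y ∈ wL := by
  have h := w_ok
  simp only [wOK, forceL_eq, force_eq, Bool.and_eq_true, List.all_eq_true, List.mem_range, testBit_maskL,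
    beq_iff_eq] at h
  obtain ⟨⟨⟨hl, hn⟩, hiff⟩, hall⟩ := h
  refine ⟨Nat.eq_of_beq_eq_true hl, (keysOK_sound _ _ hn).1, fun x hx => ?_, fun x hx => ?_⟩
  · rw [← testBit_maskL, hiff x hx, List.all_eq_true]
    exact ⟨fun h a ha => Nat.eq_of_beq_eq_true (h a ha), fun h a ha => by rw [h a ha]; exact Nat.beq_refl x⟩
  · obtain ⟨⟨⟨h1, h2⟩, h3⟩, h4⟩ := hall x hx
    exact ⟨Nat.le_of_ble_eq_true h1, h2, h3, h4⟩

theorem matF_key {A B : ℕ} (h : nrmC A = nrmC B) : matF (om : F) A = matF om B := by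
  rw [← matF_nrmC A, h, matF_nrmC]

/-- The chosen Sylow subgroup. -/
noncomputable def sylP : Subgroup (SU6 F) := (exists_syl (F := F) 2).choose

theorem sylP_le : sylP (F := F) ≤ sub 0 := fun p hp =>
  (mem_vst.1 ((exists_syl (F := F) 2).choose_spec.1 hp)).1

theorem card_sylP : Nat.card (sylP (F := F)) = 128 := (exists_syl (F := F) 2).choose_spec.2.1

theorem mem_sylP {p : SU6 F} (hp : p ∈ sylP) : ∃ a ∈ sylL 2, mat p = matF om a :=
  (exists_syl (F := F) 2).choose_spec.2.2 p hp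

theorem length_sylL : (sylL 2).length = 128 := by
  have h := syl_ok2
  simp only [sylOK, forceL_eq, Bool.and_eq_true] at h
  exact Nat.eq_of_beq_eq_true h.1.1.1.1

theorem real_sylP {a : ℕ} (ha : a ∈ (sylL 2).map nrmC) : Real (sylP (F := F)) a := by
  classical
  have key : ∀ p : sylP (F := F), ∃ i : Fin (sylL 2).length, mat p.1 = matF (om : F) (sylL 2)[i.1] := fun p => by
    obtain ⟨b, hb, e⟩ := mem_sylP p.2
    obtain ⟨i, hi, rfl⟩ := List.getElem_of_mem hb
    exact ⟨⟨i, hi⟩, e⟩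
  choose f hf using key
  have hinj : Function.Injective f := fun x y e => Subtype.ext (ext_mat (by rw [hf, hf, e]))
  have hbij : Function.Bijective f := (Nat.bijective_iff_injective_and_card f).2
    ⟨hinj, by rw [card_sylP, Nat.card_fin, length_sylL]⟩
  obtain ⟨b, hb, rfl⟩ := List.mem_map.1 ha
  obtain ⟨i, hi, rfl⟩ := List.getElem_of_mem hb
  obtain ⟨p, hp⟩ := hbij.2 ⟨i, hi⟩
  refine ⟨p.1, p.2, ?_⟩
  rw [matF_nrmC, hf, hp]

/-- The elementary abelian subgroup of order sixteen. -/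
def E0 : Subgroup (SU6 F) where
  carrier := {g | ∃ a ∈ kL, mat g = matF (om : F) a}
  one_mem' := ⟨oneC, k_facts.2.2.1, by rw [matF_oneC _ hom two, mat_one]⟩
  mul_mem' := by
    rintro g h ⟨a, ha, e⟩ ⟨b, hb, e'⟩
    exact ⟨_, ((k_facts.2.2.2 a ha).2.2.2 b hb).2, by
      rw [matF_nrmC, matF_mmC _ hom two, mat_mul, e, e']⟩
  inv_mem' := by
    rintro g ⟨a, ha, e⟩
    refine ⟨a, ha, ?_⟩
    have : g * g = 1 := ext_mat (by
      rw [mat_mul, e, ← matF_mmC _ hom two, ← matF_nrmC (mmC a a), (k_facts.2.2.2 a ha).2.2.1,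
        matF_oneC _ hom two, mat_one])
    rw [inv_eq_of_mul_eq_one_right this]
    exact e

theorem mem_E0 {g : SU6 F} : g ∈ E0 ↔ ∃ a ∈ kL, mat g = matF (om : F) a := Iff.rfl

theorem E0_le_sylP : E0 (F := F) ≤ sylP := by
  rintro g ⟨a, ha, e⟩
  exact (real_sylP (k_facts.2.2.2 a ha).1).mem e

theorem E0_le_sub : E0 (F := F) ≤ sub 0 := E0_le_sylP.trans sylP_le

theorem E0_elem : Cfsg.IsElementaryAbelian 2 (E0 (F := F)) := by
  refine ⟨⟨⟨?_⟩⟩, ?_⟩
  · rintro ⟨g, a, ha, e⟩ ⟨h, b, hb, e'⟩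
    refine Subtype.ext (ext_mat ?_)
    show mat (g * h) = mat (h * g)
    rw [mat_mul, mat_mul, e, e', ← matF_mmC _ hom two, ← matF_mmC _ hom two]
    exact matF_key ((k_facts.2.2.2 a ha).2.2.2 b hb).1
  · rintro g ⟨a, ha, e⟩
    refine ext_mat ?_
    rw [pow_two, mat_mul, e, ← matF_mmC _ hom two, ← matF_nrmC (mmC a a), (k_facts.2.2.2 a ha).2.2.1,
      matF_oneC _ hom two, mat_one]

theorem card_E0 : Nat.card (E0 (F := F)) = 16 := by
  classical
  have key : ∀ g : E0 (F := F), ∃ i : Fin kL.length, mat g.1 = matF (om : F) kL[i.1] := by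
    rintro ⟨g, a, ha, e⟩
    obtain ⟨i, hi, rfl⟩ := List.getElem_of_mem ha
    exact ⟨⟨i, hi⟩, e⟩
  choose f hf using key
  have hinj : Function.Injective f := fun x y e => Subtype.ext (ext_mat (by rw [hf, hf, e]))
  have hsurj : Function.Surjective f := by
    intro i
    obtain ⟨g, hg, e⟩ := real_sylP (F := F) (k_facts.2.2.2 _ (List.getElem_mem i.2)).1
    refine ⟨⟨g, _, List.getElem_mem i.2, e⟩, ?_⟩
    have hh := hf ⟨g, _, List.getElem_mem i.2, e⟩
    have he := code_col_eq (F := F) (hh.symm.trans e)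
    rw [(k_facts.2.2.2 _ (List.getElem_mem _)).2.1, (k_facts.2.2.2 _ (List.getElem_mem _)).2.1] at he
    exact Fin.ext ((k_facts.2.1.getElem_inj_iff).1 he)
  rw [Nat.card_congr (Equiv.ofBijective f ⟨hinj, hsurj⟩), Nat.card_fin, k_facts.1]

theorem inW_iff {x : Fin 6 → F} : InW x ↔ ∀ g ∈ E0 (F := F), g • x = x := by
  constructor
  · rintro ⟨w, hw, rfl⟩ g ⟨a, ha, e⟩
    rw [smul_def, e, ← vecF_mvC _ hom two, ((w_facts.2.2.1 w (w_facts.2.2.2 w hw).1).1 hw) a ha]
  · intro h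
    obtain ⟨v, hv, rfl⟩ := exists_vecF x
    refine ⟨v, (w_facts.2.2.1 v hv).2 fun a ha => ?_, rfl⟩
    obtain ⟨g, -, e⟩ := real_sylP (F := F) (k_facts.2.2.2 a ha).1
    have := h g ⟨a, ha, e⟩
    rw [smul_def, e, ← vecF_mvC _ hom two] at this
    exact code_inj (F := F) (mvN_lt _ (hom (F := F)) two 6 a v) hv this

theorem InW.herm {x : Fin 6 → F} (h : InW x) : hermForm 6 F 2 x x = 0 := by
  obtain ⟨w, hw, rfl⟩ := h
  exact (hermForm_eq_zero_iff _ hom two).2 (w_facts.2.2.2 w hw).2.1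

theorem InW.add {x y : Fin 6 → F} (h : InW x) (h' : InW y) : InW (x + y) := by
  obtain ⟨w, hw, rfl⟩ := h
  obtain ⟨u, hu, rfl⟩ := h'
  exact ⟨_, (w_facts.2.2.2 w hw).2.2.2 u hu, vecF_xor _ hom two w u⟩

theorem InW.smul {x : Fin 6 → F} (h : InW x) : InW ((om : F) • x) := by
  obtain ⟨w, hw, rfl⟩ := h
  exact ⟨_, (w_facts.2.2.2 w hw).2.2.1, vecF_sW _ hom two w⟩

theorem InW.zero : InW (0 : Fin 6 → F) := inW_iff.2 fun g _ => by rw [smul_def, Matrix.mulVec_zero]

theorem ncard_inW : {x : Fin 6 → F | InW x}.ncard = 64 := by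
  classical
  have : {x : Fin 6 → F | InW x} = ↑(wL.toFinset.image (vecF (om : F))) := by
    ext x; simp [InW]
  rw [this, Set.ncard_coe_finset, Finset.card_image_of_injOn, List.toFinset_card_of_nodup w_facts.2.1, w_facts.1]
  intro u hu v hv e
  exact code_inj (F := F) (w_facts.2.2.2 u (List.mem_toFinset.1 hu)).1 (w_facts.2.2.2 v (List.mem_toFinset.1 hv)).1 e

theorem few_facts : ((List.range 4096).filter fun x => e16.all fun A => Nat.beq (mvC A x) x).length < 64 ∧
    (∀ A ∈ e16, ∀ B ∈ e16, ∃ C ∈ e16, nrmC (mmC A B) = nrmC C) ∧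
    ∀ A ∈ e16, A = oneC ∨ ((List.range 4096).filter fun x => Nat.beq (mvC A x) x).length ≤ 256 := by
  have h := few_ok
  simp only [fewOK, forceL_eq, Bool.and_eq_true] at h
  obtain ⟨⟨h1, h2⟩, h3⟩ := h
  refine ⟨Nat.le_of_ble_eq_true h1, fun A hA B hB => ?_, fun A hA => ?_⟩
  · simp only [List.all_eq_true, List.any_eq_true] at h2
    obtain ⟨C, hC, e⟩ := h2 A hA B hB
    exact ⟨C, hC, Nat.eq_of_beq_eq_true e⟩
  · simp only [List.all_eq_true, Bool.or_eq_true] at h3
    rcases h3 A hA with e | e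
    · exact Or.inl (Nat.eq_of_beq_eq_true e)
    · exact Or.inr (Nat.le_of_ble_eq_true e)

/-- An involution fixes at most 256 vectors. -/
theorem ncard_fix_le {x : SU6 F} (hx : x ∈ sub 0) (h2 : x * x = 1) (h1 : x ≠ 1) :
    {y : Fin 6 → F | x • y = y}.ncard ≤ 256 := by
  classical
  obtain ⟨w, hw, i, hi, hm⟩ := conj_into_e16 hx h2 h1
  have hlen : e16.length = 16 := rfl
  have hmem : e16.getD i 0 ∈ e16 := by
    rw [List.getD_eq_getElem _ _ (hlen.symm ▸ hi)]; exact List.getElem_mem _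
  rcases few_facts.2.2 _ hmem with e | e
  · exfalso
    rw [e, matF_oneC _ hom two] at hm
    exact h1 (conj_eq_one_iff.1 (ext_mat (hm.trans mat_one.symm)))
  · have hsub : (fun y : Fin 6 → F => w • y) '' {y | x • y = y} ⊆
        ↑((((List.range 4096).filter fun v => Nat.beq (mvC (e16.getD i 0) v) v)).toFinset.image (vecF (om : F))) := by
      rintro _ ⟨y, hy, rfl⟩
      obtain ⟨v, hv, ev⟩ := exists_vecF (w • y)
      show w • y ∈ _
      rw [← ev, Finset.coe_image]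
      refine ⟨v, List.mem_toFinset.2 (List.mem_filter.2 ⟨List.mem_range.2 hv, ?_⟩), rfl⟩
      have e' : mvC (e16.getD i 0) v = v := code_inj (F := F) (mvN_lt _ (hom (F := F)) two 6 _ v) hv (by
        rw [vecF_mvC _ hom two, ← hm, ev, ← smul_def, mul_smul, mul_smul, inv_smul_smul]
        exact congrArg (w • ·) hy)
      rw [e']; exact Nat.beq_refl v
    have := Set.ncard_le_ncard hsub (Finset.finite_toSet _)
    rw [Set.ncard_image_of_injective _ (MulAction.injective w), Set.ncard_coe_finset] at this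
    exact this.trans (Finset.card_image_le.trans ((List.toFinset_card_le _).trans e))

/-- In the chosen Sylow subgroup there is only one such group with sixty four fixed vectors. -/
theorem unique_in_syl {E : Subgroup (SU6 F)} (hE : E ≤ sylP) (hel : Cfsg.IsElementaryAbelian 2 E)
    (hc : Nat.card E = 16) (hfix : 64 ≤ {x : Fin 6 → F | ∀ g ∈ E, g • x = x}.ncard) : E = E0 := by
  classical
  refine Subgroup.eq_of_le_of_card_ge ?_ (by rw [hc, card_E0])
  choose a ha hea using fun x : E => mem_sylP (hE x.2)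
  have hk : ∀ x : E, matF (om : F) (nrmC (a x)) = mat x.1 := fun x => by rw [matF_nrmC, hea]
  have hinj : Function.Injective fun x : E => nrmC (a x) := fun x y e =>
    Subtype.ext (ext_mat (by rw [← hk, ← hk]; exact congrArg (matF (om : F)) e))
  have hcode : ∀ A B : ℕ, matF (om : F) A = matF om B → Nat.beq (nrmC A) (nrmC B) = true := fun A B e => by
    rw [code_col_eq (F := F) e]; exact Nat.beq_refl _
  have hsq : ∀ x : E, x.1 * x.1 = 1 := fun x => by rw [← pow_two]; exact hel.2 x.1 x.2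
  have hcases : ∀ x : E, x.1 ∈ E0 ∨ ∃ A ∈ e16, mat x.1 = matF (om : F) A := by
    intro x
    by_cases hx1 : x = 1
    · subst hx1; exact Or.inl (one_mem _)
    set iv := ((sylL 2).map nrmC).filter fun k => Nat.beq (nrmC (mmC k k)) oneC && !(Nat.beq k oneC) with hiv
    have hin : ∀ y : E, y ≠ 1 → nrmC (a y) ∈ iv := by
      intro y hy
      refine List.mem_filter.2 ⟨List.mem_map_of_mem (ha y), ?_⟩
      rw [Bool.and_eq_true, Bool.not_eq_true']
      constructor
      · rw [← nrmC_oneC]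
        refine hcode _ _ ?_
        rw [matF_mmC _ hom two, hk, ← mat_mul, hsq, matF_oneC _ hom two, mat_one]
      · by_contra e
        rw [Bool.not_eq_false] at e
        exact hy (Subtype.ext (ext_mat (by rw [← hk, Nat.eq_of_beq_eq_true e, matF_oneC _ hom two]; rfl)))
    let S : Finset ℕ := (Finset.univ.filter fun y : E => y ≠ 1).image fun y => nrmC (a y)
    have hS : 15 ≤ S.card := by
      rw [Finset.card_image_of_injective _ hinj, Finset.filter_ne', Finset.card_erase_of_mem (Finset.mem_univ _),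
        Finset.card_univ, ← Nat.card_eq_fintype_card, hc]
    have hdeg : 15 ≤ (iv.filter fun q =>
        Nat.beq (nrmC (mmC (nrmC (a x)) q)) (nrmC (mmC q (nrmC (a x))))).length := by
      refine le_trans hS (le_trans (Finset.card_le_card ?_) (List.toFinset_card_le _))
      intro q hq
      obtain ⟨y, hy, rfl⟩ := Finset.mem_image.1 hq
      refine List.mem_toFinset.2 (List.mem_filter.2 ⟨hin y (Finset.mem_filter.1 hy).2, hcode _ _ ?_⟩)
      rw [matF_mmC _ hom two, matF_mmC _ hom two, hk, hk, ← mat_mul, ← mat_mul]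
      exact congrArg (fun g : E => mat g.1) (hel.1.1.1 x y)
    have h := max_ok
    simp only [maxOK, forceL_eq, ← hiv, List.all_eq_true, Bool.or_eq_true, List.any_eq_true, Bool.not_eq_true'] at h
    rcases h _ (hin x hx1) with (e | ⟨b, hb, e⟩) | ⟨b, hb, e⟩
    · rw [Nat.ble_eq_true_of_le hdeg] at e; cases e
    · exact Or.inl ⟨b, hb, by rw [Nat.eq_of_beq_eq_true e, hk]⟩
    · exact Or.inr ⟨b, hb, by rw [Nat.eq_of_beq_eq_true e, hk]⟩
  intro g0 hg0
  by_contra hg
  obtain ⟨A, hA, hAe⟩ := (hcases ⟨g0, hg0⟩).resolve_left hg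
  have hall : ∀ g ∈ E, ∃ B ∈ e16, mat g = matF (om : F) B := by
    intro h hh
    rcases hcases ⟨h, hh⟩ with e | e
    · obtain ⟨B, hB, hBe⟩ := (hcases ⟨g0 * h, mul_mem hg0 hh⟩).resolve_left fun e' => hg (by
        have h3 := E0.mul_mem e' (E0.inv_mem e)
        rwa [mul_inv_cancel_right] at h3)
      obtain ⟨C, hC, hCe⟩ := few_facts.2.1 A hA B hB
      refine ⟨C, hC, ?_⟩
      rw [← matF_key hCe, matF_mmC _ hom two, ← hAe, ← hBe, ← mat_mul,
        show g0 * (g0 * h) = (g0 * g0) * h by group, hsq ⟨g0, hg0⟩, one_mul]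
    · exact e
  choose b hb hbe using fun x : E => hall x.1 x.2
  have hlen : e16.length = 16 := rfl
  have hsurj : ∀ B ∈ e16, ∃ g ∈ E, mat g = matF (om : F) B := by
    have key : ∀ x : E, ∃ i : Fin 16, e16[i.1]'(hlen.symm ▸ i.2) = b x := fun x => by
      obtain ⟨i, hi, e⟩ := List.getElem_of_mem (hb x)
      exact ⟨⟨i, hlen ▸ hi⟩, e⟩
    choose f hf using key
    have hfi : Function.Injective f := fun x y e => Subtype.ext (ext_mat (by
      rw [hbe, hbe, ← hf x, ← hf y]; simp only [e]))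
    have hfb := (Nat.bijective_iff_injective_and_card f).2 ⟨hfi, by rw [hc, Nat.card_fin]⟩
    intro B hB
    obtain ⟨i, hi, rfl⟩ := List.getElem_of_mem hB
    obtain ⟨x, hx⟩ := hfb.2 ⟨i, hlen ▸ hi⟩
    exact ⟨x.1, x.2, by rw [hbe, ← hf x]; simp only [hx]⟩
  have hle : {x : Fin 6 → F | ∀ g ∈ E, g • x = x}.ncard ≤
      ((List.range 4096).filter fun x => e16.all fun A => Nat.beq (mvC A x) x).length := by
    refine le_trans (Set.ncard_le_ncard (t := ↑(((List.range 4096).filter fun x =>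
      e16.all fun A => Nat.beq (mvC A x) x).toFinset.image (vecF (om : F)))) ?_ (Finset.finite_toSet _)) ?_
    · intro y hy
      obtain ⟨v, hv, rfl⟩ := exists_vecF y
      rw [Finset.coe_image]
      refine ⟨v, List.mem_toFinset.2 (List.mem_filter.2 ⟨List.mem_range.2 hv, List.all_eq_true.2 fun B hB => ?_⟩), rfl⟩
      obtain ⟨g, hg', e⟩ := hsurj B hB
      have e2 := hy g hg'
      rw [smul_def, e, ← vecF_mvC _ hom two] at e2
      rw [show mvC B v = v from code_inj (F := F) (mvN_lt _ (hom (F := F)) two 6 B v) hv e2]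
      exact Nat.beq_refl v
    · rw [Set.ncard_coe_finset]
      exact Finset.card_image_le.trans (List.toFinset_card_le _)
  have := few_facts.1
  omega

/-- The normaliser of the group of sixteen is transitive on its involutions. -/
theorem exists_normaliser {g h : SU6 F} (hg : g ∈ E0) (hh : h ∈ E0) (hg1 : g ≠ 1) (hh1 : h ≠ 1) :
    ∃ w ∈ sub (F := F) 0, w * g * w⁻¹ = h ∧ ∀ e ∈ E0 (F := F), w * e * w⁻¹ ∈ E0 := by
  classical
  have hn := nr_ok
  simp only [nrOK, forceL_eq, force_eq, Bool.and_eq_true, List.all_eq_true, List.mem_range, List.any_eq_true] at hn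
  obtain ⟨⟨hl, hidx⟩, hall⟩ := hn
  have hk0 : kL.getD 0 0 = oneC := rfl
  have key : ∀ x : SU6 F, x ∈ E0 → x ≠ 1 → ∃ w ∈ sub (F := F) 0, (∀ e ∈ E0 (F := F), w * e * w⁻¹ ∈ E0) ∧
      mat w * matF (om : F) (kL.getD 1 0) = mat x * mat w := by
    intro x hx hx1
    obtain ⟨a, ha, hxa⟩ := hx
    obtain ⟨j, hj, rfl⟩ := List.getElem_of_mem ha
    have hj0 : j ≠ 0 := by
      rintro rfl
      refine hx1 (ext_mat ?_)
      rw [hxa, ← List.getD_eq_getElem _ 0 hj, hk0, matF_oneC _ hom two, mat_one]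
    have hj16 : j - 1 < 15 := by have := k_facts.1; omega
    have hlen : j - 1 < nL.length := by rw [Nat.eq_of_beq_eq_true hl]; exact hj16
    set q := nL.getD (j - 1) (0, 0, 0) with hq
    have hqi : subIdxOK q = true := hidx q (by rw [hq, List.getD_eq_getElem _ _ hlen]; exact List.getElem_mem _)
    simp only [subIdxOK, Bool.and_eq_true] at hqi
    obtain ⟨w, hw, hwm⟩ := (real_subT (F := F) 0 _ (subT_mem (Nat.le_of_ble_eq_true hqi.1.1))).mmC
      ((real_monC q.2.1 q.2.2).mono (monoE_le_sub 0))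
    have hwm' : mat w = matF (om : F) (subElC 0 q) := hwm
    obtain ⟨h1, h2⟩ := hall (j - 1) hj16
    rw [show j - 1 + 1 = j by omega, List.getD_eq_getElem _ _ hj] at h1
    refine ⟨w, hw, ?_, ?_⟩
    · rintro e ⟨b, hb, he⟩
      obtain ⟨b', hb', e'⟩ := h2 b hb
      refine ⟨b', hb', ?_⟩
      have e2 : mat w * mat e = matF (om : F) b' * mat w := by
        rw [hwm', he, ← matF_mmC _ hom two, ← matF_mmC _ hom two]
        exact matF_key (Nat.eq_of_beq_eq_true e')
      rw [mat_mul, mat_mul, e2, mul_assoc, ← mat_mul, mul_inv_cancel, mat_one, mul_one]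
    · rw [hwm', hxa, ← matF_mmC _ hom two, ← matF_mmC _ hom two]
      exact matF_key (Nat.eq_of_beq_eq_true h1)
  obtain ⟨u, hu, hun, hue⟩ := key g hg hg1
  obtain ⟨w, hw, hwn, hwe⟩ := key h hh hh1
  have k1 : kL.getD 1 0 ∈ kL := by
    rw [List.getD_eq_getElem _ _ (show 1 < kL.length by rw [k_facts.1]; norm_num)]; exact List.getElem_mem _
  obtain ⟨p, -, hp⟩ := real_sylP (F := F) (k_facts.2.2.2 _ k1).1
  have e1 : u * p = g * u := ext_mat (by rw [mat_mul, mat_mul, hp, hue])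
  have e2 : w * p = h * w := ext_mat (by rw [mat_mul, mat_mul, hp, hwe])
  refine ⟨w * u⁻¹, mul_mem hw (inv_mem hu), ?_, fun e he => ?_⟩
  · rw [show g = u * p * u⁻¹ by rw [e1]; group, show w * u⁻¹ * (u * p * u⁻¹) * (w * u⁻¹)⁻¹ = w * p * w⁻¹ by group, e2]
    group
  · have hinv : u⁻¹ * e * u ∈ E0 (F := F) := by
      have hfin : (E0 (F := F)).map (MulAut.conj u).toMonoidHom = E0 := Subgroup.eq_of_le_of_card_ge
        (by rintro _ ⟨y, hy, rfl⟩; exact hun y hy)
        (by rw [Subgroup.card_map_of_injective (MulAut.conj u).injective])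
      obtain ⟨y, hy, rfl⟩ := hfin.symm ▸ he
      simpa [mul_assoc] using hy
    rw [show w * u⁻¹ * e * (w * u⁻¹)⁻¹ = w * (u⁻¹ * e * u) * w⁻¹ by group]
    exact hwn _ hinv

end Cfsg.Agent.H8.LFT
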