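import Cfsg.Agent.H8.LFT.FuseTop
import Cfsg.Agent.H8.LFT.TopVec

/-!
# The elementary abelian subgroup of order 2^11 of the centralizer
-/

set_option autoImplicit false
set_option linter.unusedSectionVars false
set_option maxRecDepth 20000

namespace Cfsg.Agent.H8.LFT

open Matrix Cfsg.Agent.H8.U62 Cfsg.Agent.H8.U62.Setup

variable {G : Type*} [Group G] [Finite G] {z : G} {Q : Subgroup (Subgroup.centralizer ({z} : Set G))} [Q.Normal]
  {F : Type} [Setup F]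

namespace Model

variable (D : Model z Q F)

/-- The part in `Q`: the classes of the common fixed vectors. -/
noncomputable def Rq : Subgroup Q where
  carrier := {q | InW (D.v q)}
  one_mem' := by show InW (D.v 1); rw [D.v_one]; exact InW.zero
  mul_mem' := fun {a b} ha hb => by show InW (D.v (a * b)); rw [D.v_mul]; exact InW.add ha hb
  inv_mem' := fun {a} ha => by show InW (D.v a⁻¹); rw [D.v_inv]; exact ha

theorem mem_Rq {q : Q} : q ∈ D.Rq ↔ InW (D.v q) := Iff.rfl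

theorem Rq_sq {q : Q} (hq : q ∈ D.Rq) : q * q = 1 := by
  refine gv_injective ?_
  show gv q * gv q = 1
  by_contra h
  have := InW.herm (D.mem_Rq.1 hq)
  rw [D.v_sq, if_neg h] at this
  exact one_ne_zero this

theorem Rq_comm {a b : Q} (ha : a ∈ D.Rq) (hb : b ∈ D.Rq) : a * b = b * a := by
  calc a * b = (a * b)⁻¹ := (inv_eq_of_mul_eq_one_right (D.Rq_sq (mul_mem ha hb))).symm
    _ = b * a := by
      rw [_root_.mul_inv_rev, inv_eq_of_mul_eq_one_right (D.Rq_sq ha), inv_eq_of_mul_eq_one_right (D.Rq_sq hb)]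

theorem card_Rq : Nat.card D.Rq = 2 ^ 7 := by
  classical
  obtain ⟨c, hc⟩ := D.exists_zQ
  have hc0 : D.v c = 0 := (D.v_eq_zero c).2 (Or.inr hc)
  have hcne : c ≠ 1 := fun e => D.sing.xne (by rw [← hc, e]; rfl)
  let f : {x : Fin 6 → F | InW x} × Bool → D.Rq := fun p =>
    ⟨D.lift p.1.1 * bif p.2 then c else 1, by
      show InW (D.v _)
      rw [D.v_mul, D.v_lift]
      cases p.2 <;> simp [hc0, D.v_one] <;> exact p.1.2⟩
  have hv : ∀ p, D.v (f p).1 = p.1.1 := fun p => by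
    show D.v (D.lift p.1.1 * bif p.2 then c else 1) = p.1.1
    rw [D.v_mul, D.v_lift]
    cases p.2 <;> simp [hc0, D.v_one]
  have hf : Function.Bijective f := by
    constructor
    · rintro ⟨x, b⟩ ⟨y, b'⟩ e
      have e1 : x = y := Subtype.ext (by rw [← hv (x, b), ← hv (y, b'), e])
      subst e1
      have e2 := mul_left_cancel (congrArg Subtype.val e : D.lift x.1 * _ = D.lift x.1 * _)
      cases b <;> cases b' <;> first | rfl | exact absurd e2.symm hcne | exact absurd e2 hcne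
    · rintro ⟨q, hq⟩
      obtain ⟨d, hd, e⟩ := (D.v_eq_iff (D.lift (D.v q)) q).1 (D.v_lift _)
      rcases hd with hd | hd
      · exact ⟨(⟨D.v q, hq⟩, false), Subtype.ext (by
          show D.lift (D.v q) * 1 = q
          rw [show d = 1 from gv_injective hd] at e
          exact e.symm)⟩
      · exact ⟨(⟨D.v q, hq⟩, true), Subtype.ext (by
          show D.lift (D.v q) * c = q
          rw [show d = c from gv_injective (hd.trans hc.symm)] at e
          exact e.symm)⟩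
  rw [← Nat.card_congr (Equiv.ofBijective f hf), Nat.card_prod, Nat.card_coe_set_eq, ncard_inW,
    show Nat.card Bool = 2 by simp]
  rfl

/-- The part in `Q` inside the whole group. -/
noncomputable def RG : Subgroup G := (D.Rq.map Q.subtype).map (Subgroup.centralizer ({z} : Set G)).subtype

theorem mem_RG {a : G} : a ∈ D.RG ↔ ∃ q : Q, q ∈ D.Rq ∧ gv q = a := by
  constructor
  · rintro ⟨b, ⟨q, hq, rfl⟩, rfl⟩; exact ⟨q, hq, rfl⟩
  · rintro ⟨q, hq, rfl⟩; exact ⟨q.1, ⟨q, hq, rfl⟩, rfl⟩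

theorem RG_le : D.RG ≤ EE Q := fun a ha => by
  obtain ⟨q, -, rfl⟩ := D.mem_RG.1 ha
  exact ⟨q.1, q.2, rfl⟩

theorem card_RG : Nat.card D.RG = 2 ^ 7 := by
  rw [RG, Subgroup.card_map_of_injective (Subgroup.subtype_injective _),
    Subgroup.card_map_of_injective (Subgroup.subtype_injective _), D.card_Rq]

theorem z_mem_RG : z ∈ D.RG := by
  obtain ⟨c, hc⟩ := D.exists_zQ
  exact D.mem_RG.2 ⟨c, by rw [D.mem_Rq, (D.v_eq_zero c).2 (Or.inr hc)]; exact InW.zero, hc⟩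

theorem RG_self {q : Q} (hq : ∀ b ∈ D.RG, b * gv q = gv q * b) : q ∈ D.Rq := by
  have h := D.sing.card_mul D.RG D.RG_le D.z_mem_RG
  rw [Subgroup.card_map_of_injective (Subgroup.subtype_injective _), D.card_Q, D.card_RG] at h
  have hCR : D.RG = EE Q ⊓ Subgroup.centralizer (D.RG : Set G) := by
    refine Subgroup.eq_of_le_of_card_ge (fun b hb => ⟨D.RG_le hb, Subgroup.mem_centralizer_iff.2 fun b' hb' => ?_⟩)
      (by rw [D.card_RG]; norm_num at h ⊢; omega)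
    obtain ⟨p, hp, rfl⟩ := D.mem_RG.1 hb
    obtain ⟨p', hp', rfl⟩ := D.mem_RG.1 hb'
    exact congrArg gv (D.Rq_comm hp' hp)
  have : gv q ∈ D.RG := by rw [hCR]; exact ⟨⟨q.1, q.2, rfl⟩, Subgroup.mem_centralizer_iff.2 hq⟩
  obtain ⟨q', hq', e⟩ := D.mem_RG.1 this
  rwa [← gv_injective e]

/-- The subgroup over the group of sixteen centralizing the part in `Q`. -/
noncomputable def CT : Subgroup (Subgroup.centralizer ({z} : Set G)) :=
  ((E0 (F := F)).comap D.ρ).map D.M.subtype ⊓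
    (Subgroup.centralizer (D.RG : Set G)).comap (Subgroup.centralizer ({z} : Set G)).subtype

theorem mem_CT {h : Subgroup.centralizer ({z} : Set G)} :
    h ∈ D.CT ↔ (∃ hm : h ∈ D.M, D.ρ ⟨h, hm⟩ ∈ E0) ∧ ∀ b ∈ D.RG, b * (h : G) = (h : G) * b := by
  constructor
  · rintro ⟨⟨m, hm, rfl⟩, h2⟩
    exact ⟨⟨m.2, hm⟩, Subgroup.mem_centralizer_iff.1 h2⟩
  · rintro ⟨⟨hm, he⟩, h2⟩
    exact ⟨⟨⟨h, hm⟩, he, rfl⟩, Subgroup.mem_centralizer_iff.2 h2⟩

theorem CT_le : D.CT ≤ D.M := fun _ hh => (D.mem_CT.1 hh).1.1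

theorem mem_CT_Q {q : Q} : q.1 ∈ D.CT ↔ q ∈ D.Rq := by
  constructor
  · exact fun h => D.RG_self (D.mem_CT.1 h).2
  · intro hq
    refine D.mem_CT.2 ⟨⟨D.le q.2, ?_⟩, fun b hb => ?_⟩
    · rw [(D.ρ_ker ⟨q.1, D.le q.2⟩).2 q.2]; exact one_mem _
    · obtain ⟨p, hp, rfl⟩ := D.mem_RG.1 hb
      exact congrArg gv (D.Rq_comm hp hq)

theorem cj_class (m : D.M) (hm : D.ρ m ∈ E0) {q : Q} (hq : q ∈ D.Rq) :
    D.v (cj (m : Subgroup.centralizer ({z} : Set G)) q) = D.v q := by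
  rw [D.v_conj, ← smul_def]
  exact inW_iff.1 hq _ hm

/-- Every element of the group of sixteen lifts. -/
theorem exists_lift_CT {e : SU6 F} (he : e ∈ E0) :
    ∃ m : D.M, D.ρ m = e ∧ (m : Subgroup.centralizer ({z} : Set G)) ∈ D.CT := by
  classical
  obtain ⟨d, rfl⟩ := D.exists_rho (E0_le_sub he)
  by_cases hall : ∀ b ∈ D.RG, b * ((d : Subgroup.centralizer ({z} : Set G)) : G) =
      ((d : Subgroup.centralizer ({z} : Set G)) : G) * b
  · exact ⟨d, rfl, D.mem_CT.2 ⟨⟨d.2, he⟩, hall⟩⟩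
  push Not at hall
  obtain ⟨b0, hb0, hne⟩ := hall
  set x : G := ((d : Subgroup.centralizer ({z} : Set G)) : G) with hx
  have hpair : ∀ b ∈ D.RG, x * b * x⁻¹ = b ∨ x * b * x⁻¹ = b * z := by
    intro b hb
    obtain ⟨q, hq, rfl⟩ := D.mem_RG.1 hb
    obtain ⟨ζ, hζ, e⟩ := (D.v_eq_iff q (cj (d : Subgroup.centralizer ({z} : Set G)) q)).1 (D.cj_class d he hq).symm
    have e' : x * gv q * x⁻¹ = gv q * gv ζ := by rw [hx, ← gv_cj, e]; rfl
    rcases hζ with h | h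
    · exact Or.inl (by rw [e', h, mul_one])
    · exact Or.inr (by rw [e', h])
  let R' : Subgroup G := D.RG ⊓ Subgroup.centralizer ({x} : Set G)
  have hzR' : z ∈ R' := ⟨D.z_mem_RG, Subgroup.mem_centralizer_singleton_iff.2
    (Subgroup.mem_centralizer_singleton_iff.1 (d : Subgroup.centralizer ({z} : Set G)).2).symm⟩
  have hout : ∀ b ∈ D.RG, b ∉ R' → x * b * x⁻¹ = b * z := fun b hb hb' =>
    (hpair b hb).resolve_left fun e => hb' ⟨hb, Subgroup.mem_centralizer_singleton_iff.2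
      (mul_inv_eq_iff_eq_mul.1 e).symm⟩
  have hzc : ∀ b ∈ D.RG, b * z = z * b := fun b hb => D.sing.comm_x b (D.RG_le hb)
  have hdiff : ∀ a ∈ D.RG, a ∉ R' → ∀ b ∈ D.RG, b ∉ R' → a⁻¹ * b ∈ R' := by
    intro a ha ha' b hb hb'
    refine ⟨D.RG.mul_mem (D.RG.inv_mem ha) hb, Subgroup.mem_centralizer_singleton_iff.2 (mul_inv_eq_iff_eq_mul.1 ?_).symm⟩
    have h1 := hout a ha ha'
    have h2 := hout b hb hb'
    calc x * (a⁻¹ * b) * x⁻¹ = (x * a * x⁻¹)⁻¹ * (x * b * x⁻¹) := by group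
      _ = (a * z)⁻¹ * (b * z) := by rw [h1, h2]
      _ = a⁻¹ * b := by
        rw [hzc b hb, hzc a ha, _root_.mul_inv_rev]
        group
  have hb0' : b0 ∉ R' := fun h => hne (Subgroup.mem_centralizer_singleton_iff.1 h.2)
  have hR'2 : 2 * Nat.card R' ≤ Nat.card D.RG := by
    have h := Subgroup.card_mul_index (R'.subgroupOf D.RG)
    rw [Nat.card_congr (Subgroup.subgroupOfEquivOfLe (inf_le_left : R' ≤ D.RG)).toEquiv] at h
    rw [← h, mul_comm]
    refine Nat.mul_le_mul_left _ ?_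
    have h1 : (R'.subgroupOf D.RG).index ≠ 1 := fun e => hb0' (by
      have := Subgroup.index_eq_one.1 e
      exact (Subgroup.mem_subgroupOf (h := (⟨b0, hb0⟩ : D.RG))).1 (this ▸ Subgroup.mem_top _))
    have h0 := Subgroup.index_ne_zero_of_finite (H := R'.subgroupOf D.RG)
    omega
  have hR'le : R' ≤ EE Q := inf_le_left.trans D.RG_le
  have h := D.sing.card_mul R' hR'le hzR'
  rw [Subgroup.card_map_of_injective (Subgroup.subtype_injective _), D.card_Q] at h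
  obtain ⟨y, hy, hyR⟩ : ∃ y ∈ EE Q ⊓ Subgroup.centralizer (R' : Set G), y ∉ D.RG := by
    by_contra hno
    push Not at hno
    have hle := Subgroup.card_le_of_le (hno : EE Q ⊓ Subgroup.centralizer (R' : Set G) ≤ D.RG)
    rw [D.card_RG] at hle
    rw [D.card_RG] at hR'2
    norm_num at hR'2 hle h
    nlinarith
  obtain ⟨q0, hq0, rfl⟩ := hy.1
  let q : Q := ⟨q0, hq0⟩
  have hqy : ∀ b ∈ R', b * gv q = gv q * b := Subgroup.mem_centralizer_iff.1 hy.2
  have hanti : ∀ b ∈ D.RG, b ∉ R' → gv q * b * (gv q)⁻¹ = b * z := by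
    intro b hb hb'
    have hcomm := D.sing.pair (D.sing.comm (show gv q ∈ EE Q from hy.1) (D.RG_le hb))
    rcases hcomm with e | e
    · exfalso
      refine hyR (D.mem_RG.2 ⟨q, D.RG_self fun c hc => ?_, rfl⟩)
      have hqb : b * gv q = gv q * b := by
        rw [← mul_inv_eq_iff_eq_mul]
        rw [mul_inv_eq_one, mul_inv_eq_iff_eq_mul] at e
        rw [← e]; group
      by_cases hc' : c ∈ R'
      · exact hqy c hc'
      · have h1 := hqy _ (hdiff b hb hb' c hc hc')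
        rw [show c = b * (b⁻¹ * c) by group, mul_assoc, h1, ← mul_assoc, hqb, mul_assoc]
    · rw [mul_inv_eq_iff_eq_mul] at e
      rw [e, hzc b hb]
  let m : D.M := ⟨q.1, D.le q.2⟩
  refine ⟨m * d, by rw [map_mul, show D.ρ m = 1 from (D.ρ_ker m).2 q.2, one_mul], D.mem_CT.2 ⟨⟨(m * d).2, ?_⟩, ?_⟩⟩
  · show D.ρ (m * d) ∈ E0
    rw [map_mul, show D.ρ m = 1 from (D.ρ_ker m).2 q.2, one_mul]
    exact he
  · intro b hb
    show b * (gv q * x) = gv q * x * b
    refine (mul_inv_eq_iff_eq_mul.1 ?_).symm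
    rw [show gv q * x * b * (gv q * x)⁻¹ = gv q * (x * b * x⁻¹) * (gv q)⁻¹ by group]
    by_cases hb' : b ∈ R'
    · rw [show x * b * x⁻¹ = b by rw [← Subgroup.mem_centralizer_singleton_iff.1 hb'.2, mul_inv_cancel_right],
        ← hqy b hb', mul_inv_cancel_right]
    · rw [hout b hb hb', show gv q * (b * z) * (gv q)⁻¹ = gv q * b * (gv q)⁻¹ * (gv q * z * (gv q)⁻¹) by group,
        hanti b hb hb', D.sing.comm_x (gv q) hy.1, mul_inv_cancel_right, mul_assoc, D.sing.xx, mul_one]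

theorem card_CT : Nat.card D.CT = 2 ^ 11 ∧ Nat.card ↥(D.CT ⊓ Q) = 2 ^ 7 ∧
    Nat.card (D.CT.map (QuotientGroup.mk' Q)) = 16 := by
  have hI : D.CT ⊓ Q = D.Rq.map Q.subtype := by
    ext h
    constructor
    · rintro ⟨h1, h2⟩
      exact ⟨⟨h, h2⟩, D.mem_CT_Q.1 h1, rfl⟩
    · rintro ⟨q, hq, rfl⟩
      exact ⟨D.mem_CT_Q.2 hq, q.2⟩
  have h7 : Nat.card ↥(D.CT ⊓ Q) = 2 ^ 7 := by
    rw [hI, Subgroup.card_map_of_injective (Subgroup.subtype_injective _), D.card_Rq]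
  have h16 : Nat.card (D.CT.map (QuotientGroup.mk' Q)) = 16 := by
    choose f hf1 hf2 using fun e : E0 (F := F) => D.exists_lift_CT e.2
    rw [← card_E0 (F := F)]
    refine (Nat.card_congr (Equiv.ofBijective
      (fun e => (⟨QuotientGroup.mk' Q (f e : Subgroup.centralizer ({z} : Set G)), _, hf2 e, rfl⟩ :
        D.CT.map (QuotientGroup.mk' Q))) ⟨fun e e' h => ?_, ?_⟩)).symm
    · refine Subtype.ext ?_
      have hq := (D.ρ_ker ((f e)⁻¹ * f e')).2 (QuotientGroup.eq.1 (congrArg Subtype.val h))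
      rw [map_mul, map_inv, hf1, hf1, inv_mul_eq_one] at hq
      exact hq
    · rintro ⟨_, c, hc, rfl⟩
      obtain ⟨⟨hm, he⟩, -⟩ := D.mem_CT.1 hc
      refine ⟨⟨_, he⟩, Subtype.ext ?_⟩
      refine QuotientGroup.eq.2 ((D.ρ_ker ((f ⟨_, he⟩)⁻¹ * ⟨c, hm⟩)).1 ?_)
      rw [map_mul, map_inv, hf1, inv_mul_cancel]
  refine ⟨?_, h7, h16⟩
  have h := ((QuotientGroup.mk' Q).comp D.CT.subtype).ker.card_mul_index
  rw [Subgroup.index_ker, MonoidHom.range_comp, Subgroup.range_subtype, h16] at h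
  rw [← h, show Nat.card ↥((QuotientGroup.mk' Q).comp D.CT.subtype).ker = 2 ^ 7 by
    rw [← h7]
    exact Nat.card_congr
      { toFun := fun c => ⟨c.1.1, c.1.2, (QuotientGroup.eq_one_iff _).1 c.2⟩
        invFun := fun c => ⟨⟨c.1, c.2.1⟩, (QuotientGroup.eq_one_iff _).2 c.2.2⟩
        left_inv := fun _ => rfl
        right_inv := fun _ => rfl }]
  norm_num

theorem CT_conj {m : D.M} (hm : ∀ e ∈ E0 (F := F), D.ρ m * e * (D.ρ m)⁻¹ ∈ E0)
    {c : Subgroup.centralizer ({z} : Set G)} (hc : c ∈ D.CT) :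
    (m : Subgroup.centralizer ({z} : Set G)) * c * (m : Subgroup.centralizer ({z} : Set G))⁻¹ ∈ D.CT := by
  obtain ⟨⟨hcm, he⟩, hcR⟩ := D.mem_CT.1 hc
  refine D.mem_CT.2 ⟨⟨(m * ⟨c, hcm⟩ * m⁻¹).2, ?_⟩, ?_⟩
  · show D.ρ (m * ⟨c, hcm⟩ * m⁻¹) ∈ E0
    rw [map_mul, map_mul, map_inv]
    exact hm _ he
  · have hfin : (E0 (F := F)).map (MulAut.conj (D.ρ m)).toMonoidHom = E0 := Subgroup.eq_of_le_of_card_ge
      (by rintro _ ⟨y, hy, rfl⟩; exact hm y hy)
      (by rw [Subgroup.card_map_of_injective (MulAut.conj (D.ρ m)).injective])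
    intro b hb
    obtain ⟨q, hq, rfl⟩ := D.mem_RG.1 hb
    have hq' : cj (m : Subgroup.centralizer ({z} : Set G))⁻¹ q ∈ D.Rq := by
      rw [D.mem_Rq, inW_iff]
      intro e he'
      have e1 : D.v q = D.ρ m • D.v (cj (m : Subgroup.centralizer ({z} : Set G))⁻¹ q) := by
        rw [smul_def, ← D.v_conj, cj_cj, mul_inv_cancel, cj_one]
      have e2 := inW_iff.1 hq _ (hm e he')
      rw [e1, ← mul_smul, show D.ρ m * e * (D.ρ m)⁻¹ * D.ρ m = D.ρ m * e by group, mul_smul] at e2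
      exact smul_left_cancel _ e2
    have h := hcR _ (D.mem_RG.2 ⟨_, hq', rfl⟩)
    rw [gv_cj] at h
    set x := ((m : Subgroup.centralizer ({z} : Set G)) : G)
    set y := (c : G)
    have h' : x⁻¹ * gv q * x * y = y * (x⁻¹ * gv q * x) := by
      simpa using h
    show gv q * (x * y * x⁻¹) = x * y * x⁻¹ * gv q
    calc gv q * (x * y * x⁻¹) = x * (x⁻¹ * gv q * x * y) * x⁻¹ := by group
      _ = x * (y * (x⁻¹ * gv q * x)) * x⁻¹ := by rw [h']
      _ = x * y * x⁻¹ * gv q := by group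

theorem CT_mem_Q {c : Subgroup.centralizer ({z} : Set G)} (hc : c ∈ D.CT) (hm : c ∈ D.M)
    (h : D.ρ ⟨c, hm⟩ = 1) : ∃ q : Q, q ∈ D.Rq ∧ q.1 = c :=
  ⟨⟨c, (D.ρ_ker _).1 h⟩, D.mem_CT_Q.1 hc, rfl⟩

theorem CT_elem : Cfsg.IsElementaryAbelian 2 D.CT := by
  classical
  have hcomm : ∀ c ∈ D.CT, ∀ q ∈ D.Rq, c * q.1 = q.1 * c := fun c hc q hq =>
    Subtype.ext ((D.mem_CT.1 hc).2 _ (D.mem_RG.2 ⟨q, hq, rfl⟩)).symm
  obtain ⟨γ, hγ, hγm⟩ := (Ext.real_dC (F := F) zIx).mono Ext.diagG_le_sub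
  rw [matF_scalar] at hγm
  obtain ⟨ξ, hξ⟩ := D.exists_rho hγ
  have hξc : ∀ g : SU6 F, D.ρ ξ * g = g * D.ρ ξ := fun g => ext_mat (by
    rw [mat_mul, mat_mul, hξ, hγm, smul_mul_assoc, mul_smul_comm, one_mul, mul_one])
  have hsq : ∀ c ∈ D.CT, ∀ r : Q, r ∈ D.Rq → (c * r.1) * (c * r.1) = c * c := fun c hc r hr => by
    rw [mul_assoc, ← mul_assoc r.1 c, ← hcomm c hc r hr, mul_assoc c r.1 r.1,
      show r.1 * r.1 = 1 from congrArg Subtype.val (D.Rq_sq hr), mul_one]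
  have hsame : ∀ c ∈ D.CT, ∀ d ∈ D.CT, ∀ (hc : c ∈ D.M) (hd : d ∈ D.M),
      D.ρ ⟨c, hc⟩ = D.ρ ⟨d, hd⟩ → c * c = d * d := by
    intro c hc d hd hcm hdm e
    obtain ⟨r, hr, hre⟩ := D.CT_mem_Q (c := c⁻¹ * d) (mul_mem (inv_mem hc) hd) (mul_mem (inv_mem hcm) hdm) (by
      rw [show (⟨c⁻¹ * d, _⟩ : D.M) = (⟨c, hcm⟩ : D.M)⁻¹ * ⟨d, hdm⟩ from rfl, map_mul, map_inv, e, inv_mul_cancel])
    rw [show d = c * r.1 by rw [hre]; group, hsq c hc r hr]
  have hEsq : ∀ e ∈ E0 (F := F), e * e = 1 := fun e he => by rw [← pow_two]; exact E0_elem.2 e he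
  -- squares are central
  have hcen : ∀ c ∈ D.CT, (c : G) * (c : G) = 1 ∨ (c : G) * (c : G) = z := by
    intro c hc
    have hcm := D.CT_le hc
    obtain ⟨hm', he⟩ := (D.mem_CT.1 hc).1
    obtain ⟨r, hr, hre⟩ := D.CT_mem_Q (mul_mem hc hc) (mul_mem hcm hcm) (by
      rw [show (⟨c * c, _⟩ : D.M) = (⟨c, hcm⟩ : D.M) * ⟨c, hcm⟩ from rfl, map_mul]
      exact hEsq _ he)
    have hc' := D.CT_conj (m := ξ) (fun e he => by rw [hξc e, mul_inv_cancel_right]; exact he) hc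
    have e := hsame _ hc' c hc (D.CT_le hc') hcm (by
      rw [show (⟨(ξ : Subgroup.centralizer ({z} : Set G)) * c * (ξ : Subgroup.centralizer ({z} : Set G))⁻¹, _⟩ : D.M) =
        ξ * ⟨c, hcm⟩ * ξ⁻¹ from rfl, map_mul, map_mul, map_inv, hξc, mul_inv_cancel_right])
    have e1 : cj (ξ : Subgroup.centralizer ({z} : Set G)) r = r := Subtype.ext (by
      show (ξ : Subgroup.centralizer ({z} : Set G)) * r.1 * (ξ : Subgroup.centralizer ({z} : Set G))⁻¹ = r.1
      rw [hre]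
      refine Eq.trans ?_ e
      group)
    have e2 := congrArg D.v e1
    rw [D.v_conj, hξ, hγm, Matrix.smul_mulVec, Matrix.one_mulVec] at e2
    have e3 : ((om : F) - 1) • D.v r = 0 := by rw [sub_smul, one_smul, e2, sub_self]
    have e4 := (D.v_eq_zero r).1 ((smul_eq_zero.1 e3).resolve_left (sub_ne_zero.2 om_ne_one))
    rwa [show (c : G) * (c : G) = gv r from (congrArg Subtype.val hre).symm]
  -- all squares agree outside `Q`
  have hall : ∀ c ∈ D.CT, ∀ d ∈ D.CT, ∀ (hc : c ∈ D.M) (hd : d ∈ D.M),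
      D.ρ ⟨c, hc⟩ ≠ 1 → D.ρ ⟨d, hd⟩ ≠ 1 → c * c = d * d := by
    intro c hc d hd hcm hdm hc1 hd1
    obtain ⟨w, hw, hwe, hwn⟩ := exists_normaliser (D.mem_CT.1 hc).1.2 (D.mem_CT.1 hd).1.2 hc1 hd1
    obtain ⟨m, rfl⟩ := D.exists_rho hw
    have hc' := D.CT_conj (m := m) hwn hc
    have e := hsame _ hc' d hd (D.CT_le hc') hdm (by
      rw [show (⟨(m : Subgroup.centralizer ({z} : Set G)) * c * (m : Subgroup.centralizer ({z} : Set G))⁻¹, _⟩ : D.M) =
        m * ⟨c, hcm⟩ * m⁻¹ from rfl, map_mul, map_mul, map_inv]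
      exact hwe)
    rw [← e, show (m : Subgroup.centralizer ({z} : Set G)) * c * (m : Subgroup.centralizer ({z} : Set G))⁻¹ *
      ((m : Subgroup.centralizer ({z} : Set G)) * c * (m : Subgroup.centralizer ({z} : Set G))⁻¹) =
      (m : Subgroup.centralizer ({z} : Set G)) * (c * c) * (m : Subgroup.centralizer ({z} : Set G))⁻¹ by group]
    refine Subtype.ext ?_
    show (c : G) * (c : G) = ((m : Subgroup.centralizer ({z} : Set G)) : G) * ((c : G) * (c : G)) *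
      ((m : Subgroup.centralizer ({z} : Set G)) : G)⁻¹
    rcases hcen c hc with h | h <;> rw [h]
    · group
    · rw [Subgroup.mem_centralizer_singleton_iff.1 (m : Subgroup.centralizer ({z} : Set G)).2, mul_inv_cancel_right]
  have hone : ∀ c ∈ D.CT, c * c = 1 := by
    intro c hc
    by_cases hcQ : D.ρ ⟨c, D.CT_le hc⟩ = 1
    · obtain ⟨r, hr, rfl⟩ := D.CT_mem_Q hc _ hcQ
      exact congrArg Subtype.val (D.Rq_sq hr)
    by_contra hcne
    -- every element outside `Q` squares to `z`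
    have hz : ∀ d ∈ D.CT, (∀ hd : d ∈ D.M, D.ρ ⟨d, hd⟩ ≠ 1) → (d : G) * (d : G) = z := fun d hd hd1 =>
      (hcen d hd).resolve_left fun e =>
        hcne ((hall c hc d hd (D.CT_le hc) (D.CT_le hd) hcQ (hd1 _)).trans (Subtype.ext e))
    obtain ⟨e1, he1, e2, he2, h12, hc1, hc2⟩ : ∃ e1 ∈ E0 (F := F), ∃ e2 ∈ E0 (F := F), e2 ≠ e1 ∧
        e1 ∉ ({1, D.ρ ⟨c, D.CT_le hc⟩} : Set (SU6 F)) ∧
        e2 ∉ ({1, D.ρ ⟨c, D.CT_le hc⟩, D.ρ ⟨c, D.CT_le hc⟩ * e1} : Set (SU6 F)) := by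
      set a := D.ρ ⟨c, D.CT_le hc⟩
      have hS : ∀ S : Finset (SU6 F), S.card < 16 → ∃ e ∈ E0 (F := F), e ∉ S := by
        intro S hS
        by_contra hno
        push Not at hno
        have : Nat.card (E0 (F := F)) ≤ S.card := by
          rw [← Nat.card_eq_finsetCard S]
          exact Nat.card_le_card_of_injective (fun e => (⟨e.1, hno e.1 e.2⟩ : S)) fun x y h =>
            Subtype.ext (congrArg (fun t : S => (t : SU6 F)) h)
        rw [card_E0] at this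
        omega
      obtain ⟨e1, he1, h1⟩ := hS {1, a} (lt_of_le_of_lt Finset.card_le_two (by norm_num))
      obtain ⟨e2, he2, h2⟩ := hS {1, a, a * e1, e1} (lt_of_le_of_lt Finset.card_le_four (by norm_num))
      simp only [Finset.mem_insert, Finset.mem_singleton, not_or] at h1 h2
      exact ⟨e1, he1, e2, he2, h2.2.2.2, by simp [h1.1, h1.2], by simp [h2.1, h2.2.1, h2.2.2.1]⟩
    simp only [Set.mem_insert_iff, Set.mem_singleton_iff, not_or] at hc1 hc2
    obtain ⟨m1, hm1, hc1'⟩ := D.exists_lift_CT he1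
    obtain ⟨m2, hm2, hc2'⟩ := D.exists_lift_CT he2
    set a := D.ρ ⟨c, D.CT_le hc⟩ with hadef
    have haE : a ∈ E0 := (D.mem_CT.1 hc).1.2
    have hainv : a⁻¹ = a := inv_eq_of_mul_eq_one_right (hEsq a haE)
    have he1inv : e1⁻¹ = e1 := inv_eq_of_mul_eq_one_right (hEsq e1 he1)
    let x : G := (c : G)
    let u : G := ((m1 : Subgroup.centralizer ({z} : Set G)) : G)
    let w : G := ((m2 : Subgroup.centralizer ({z} : Set G)) : G)
    have hx : x * x = z := hz c hc fun _ => hcQ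
    have anti : ∀ d ∈ D.CT, (∀ hd : d ∈ D.M, D.ρ ⟨d, hd⟩ ≠ 1) →
        (∀ hd : c * d ∈ D.M, D.ρ ⟨c * d, hd⟩ ≠ 1) → x * (d : G) * x⁻¹ = (d : G) * z := by
      intro d hd hd1 hcd1
      have h1 := hz d hd hd1
      have h2 : x * (d : G) * (x * (d : G)) = z := hz (c * d) (mul_mem hc hd) hcd1
      have hdz : (d : G) * z = z * (d : G) := Subgroup.mem_centralizer_singleton_iff.1 d.2
      have hxi : x⁻¹ = x * z := inv_eq_of_mul_eq_one_right (by rw [← mul_assoc, hx, D.sing.xx])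
      have hdi : (d : G)⁻¹ = (d : G) * z := inv_eq_of_mul_eq_one_right (by rw [← mul_assoc, h1, D.sing.xx])
      have h3 : x * (d : G) * x = z * (d : G)⁻¹ := by rw [eq_mul_inv_iff_mul_eq]; simpa [mul_assoc] using h2
      rw [hxi, ← mul_assoc, h3, hdi, ← mul_assoc, ← hdz, mul_assoc (d : G), D.sing.xx, mul_one]
    have r1 : ∀ hd, D.ρ ⟨(m1 : Subgroup.centralizer ({z} : Set G)), hd⟩ = e1 := fun _ => hm1
    have r2 : ∀ hd, D.ρ ⟨(m2 : Subgroup.centralizer ({z} : Set G)), hd⟩ = e2 := fun _ => hm2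
    have hmulρ : ∀ (p q : Subgroup.centralizer ({z} : Set G)) (hp : p ∈ D.M) (hq : q ∈ D.M) (hpq : p * q ∈ D.M),
        D.ρ ⟨p * q, hpq⟩ = D.ρ ⟨p, hp⟩ * D.ρ ⟨q, hq⟩ := fun p q hp hq _ => by rw [← map_mul]; rfl
    have n12 : e1 * e2 ≠ 1 := fun e => h12 (by rw [← inv_eq_of_mul_eq_one_right e, he1inv])
    have a1 := anti _ hc1' (fun hd => by rw [r1]; exact hc1.1) (fun hd => by
      rw [hmulρ c _ (D.CT_le hc) m1.2 hd, r1, ← hadef]
      exact fun e => hc1.2 (by rw [← inv_eq_of_mul_eq_one_right e, hainv]))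
    have a2 := anti _ hc2' (fun hd => by rw [r2]; exact hc2.1) (fun hd => by
      rw [hmulρ c _ (D.CT_le hc) m2.2 hd, r2, ← hadef]
      exact fun e => hc2.2.1 (by rw [← inv_eq_of_mul_eq_one_right e, hainv]))
    have a3 := anti _ (mul_mem hc1' hc2') (fun hd => by rw [hmulρ _ _ m1.2 m2.2 hd, r1, r2]; exact n12)
      (fun hd => by
        rw [hmulρ c _ (D.CT_le hc) (mul_mem m1.2 m2.2) hd, hmulρ _ _ m1.2 m2.2, r1, r2, ← hadef]
        intro e
        refine hc2.2.2 ?_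
        have e' : e1 * e2 = a := by rw [← inv_eq_of_mul_eq_one_right e, hainv]
        have hcommE : a * e1 = e1 * a := congrArg Subtype.val (E0_elem.1.1.1 ⟨a, haE⟩ ⟨e1, he1⟩)
        rw [hcommE, ← e', ← mul_assoc, hEsq e1 he1, one_mul])
    refine D.sing.xne ?_
    have e3 : x * (u * w) * x⁻¹ = u * w * z := a3
    rw [show x * (u * w) * x⁻¹ = (x * u * x⁻¹) * (x * w * x⁻¹) by group, show x * u * x⁻¹ = u * z from a1,
      show x * w * x⁻¹ = w * z from a2] at e3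
    have hwz : w * z = z * w := Subgroup.mem_centralizer_singleton_iff.1 (m2 : Subgroup.centralizer ({z} : Set G)).2
    rw [mul_assoc u z, ← mul_assoc z w z, ← hwz, mul_assoc w z z, D.sing.xx, mul_one] at e3
    exact (left_eq_mul.1 e3)
  refine ⟨⟨⟨fun a b => Subtype.ext ?_⟩⟩, fun a ha => by rw [pow_two]; exact hone a ha⟩
  show a.1 * b.1 = b.1 * a.1
  calc a.1 * b.1 = (a.1 * b.1)⁻¹ := (inv_eq_of_mul_eq_one_right (hone _ (mul_mem a.2 b.2))).symm
    _ = b.1 * a.1 := by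
      rw [_root_.mul_inv_rev, inv_eq_of_mul_eq_one_right (hone _ a.2), inv_eq_of_mul_eq_one_right (hone _ b.2)]

end Model

end Cfsg.Agent.H8.LFT
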