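import Cfsg.Agent.H8.LFT.TopGroup
import Cfsg.Agent.H8.LFT.FuseCent

/-!
# The elementary abelian subgroup of order 2^11 is the only one of its size in a Sylow subgroup
-/

set_option autoImplicit false
set_option linter.unusedSectionVars false
set_option maxRecDepth 20000

namespace Cfsg.Agent.H8.LFT

open Matrix Cfsg.Agent.H8.U62 Cfsg.Agent.H8.U62.Setup

variable {F : Type} [Setup F]

/-- Every two-subgroup of the first subgroup is conjugate into the chosen Sylow subgroup. -/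
theorem exists_conj_into_sylP {P : Subgroup (SU6 F)} (hP : P ≤ sub 0) (hp : IsPGroup 2 P) :
    ∃ w ∈ sub (F := F) 0, ∀ p ∈ P, w * p * w⁻¹ ∈ sylP (F := F) := by
  classical
  haveI : Fact (Nat.Prime 2) := ⟨Nat.prime_two⟩
  let S0' : Subgroup (sub (F := F) 0) := (sylP (F := F)).subgroupOf (sub 0)
  have hc' : Nat.card S0' = 2 ^ 7 := by
    rw [Nat.card_congr (Subgroup.subgroupOfEquivOfLe sylP_le).toEquiv, card_sylP]
    norm_num
  have hndvd : ¬ 2 ∣ S0'.index := by
    have h := S0'.card_mul_index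
    rw [hc', card_sub] at h
    rw [show S0'.index = 76545 by norm_num at h; omega]
    norm_num
  let S' : Sylow 2 (sub (F := F) 0) := (IsPGroup.of_card hc').toSylow hndvd
  obtain ⟨T, hT⟩ := (hp.comap_of_injective (sub (F := F) 0).subtype (Subgroup.subtype_injective _)).exists_le_sylow
  obtain ⟨c, hc2⟩ := MulAction.exists_smul_eq (sub (F := F) 0) T S'
  refine ⟨c.1, c.2, fun x hx => ?_⟩
  have h : c * ⟨x, hP hx⟩ * c⁻¹ ∈ (S' : Subgroup (sub (F := F) 0)) := by
    rw [← hc2, Sylow.coe_subgroup_smul]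
    exact Subgroup.smul_mem_pointwise_smul _ (MulAut.conj c) _
      (hT (show (⟨x, hP hx⟩ : sub (F := F) 0) ∈ P.comap (sub (F := F) 0).subtype from hx))
  exact h

variable {G : Type*} [Group G] [Finite G] {z : G} {Q : Subgroup (Subgroup.centralizer ({z} : Set G))} [Q.Normal]

namespace Model

variable (D : Model z Q F)

theorem elem_comm {H : Type*} [Group H] {B : Subgroup H} (h : Cfsg.IsElementaryAbelian 2 B) {a b : H} (ha : a ∈ B)
    (hb : b ∈ B) : a * b = b * a :=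
  congrArg Subtype.val (h.1.1.1 ⟨a, ha⟩ ⟨b, hb⟩)

theorem elem_sq {H : Type*} [Group H] {B : Subgroup H} (h : Cfsg.IsElementaryAbelian 2 B) {a : H} (ha : a ∈ B) :
    a * a = 1 := by
  rw [← pow_two]; exact h.2 a ha

/-- The classes of the part in `Q`. -/
def vQ (B : Subgroup (Subgroup.centralizer ({z} : Set G))) : Set (Fin 6 → F) := D.v '' {q : Q | q.1 ∈ B}

theorem two_mul_ncard_vQ {B : Subgroup (Subgroup.centralizer ({z} : Set G))} :
    Nat.card ↥(B ⊓ Q) ≤ 2 * (D.vQ B).ncard := by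
  classical
  have hinj : Function.Injective (fun a : {q : Q | q.1 ∈ B} => ((⟨D.v a.1, a.1, a.2, rfl⟩ : D.vQ B),
      decide (gv ((D.lift (D.v a.1))⁻¹ * a.1) = z))) := by
    rintro ⟨a, ha⟩ ⟨b, hb⟩ e
    obtain ⟨e1, e2⟩ := Prod.ext_iff.1 e
    have e1' : D.v a = D.v b := congrArg Subtype.val e1
    simp only [e1'] at e2
    refine Subtype.ext ?_
    have hz : ∀ c : Q, D.v c = D.v b → gv ((D.lift (D.v b))⁻¹ * c) = 1 ∨ gv ((D.lift (D.v b))⁻¹ * c) = z :=
      fun c hc => (D.v_eq_zero _).1 (by rw [D.v_mul, D.v_inv, D.v_lift, hc, add_self])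
    refine mul_left_cancel (a := (D.lift (D.v b))⁻¹) (gv_injective ?_)
    by_cases hh : gv ((D.lift (D.v b))⁻¹ * b) = z
    · simp only [hh, decide_true] at e2
      rw [hh]
      exact of_decide_eq_true e2
    · simp only [hh, decide_false] at e2
      rw [(hz a e1').resolve_right (of_decide_eq_false e2), (hz b rfl).resolve_right hh]
  have h := Nat.card_le_card_of_injective _ hinj
  have hc : Nat.card {q : Q | q.1 ∈ B} = Nat.card ↥(B ⊓ Q) :=
    Nat.card_congr
      { toFun := fun q => ⟨q.1.1, q.2, q.1.2⟩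
        invFun := fun x => ⟨⟨x.1, x.2.2⟩, x.2.1⟩
        left_inv := fun _ => rfl
        right_inv := fun _ => rfl }
  rw [hc, Nat.card_prod, Nat.card_coe_set_eq, show Nat.card Bool = 2 by simp] at h
  omega

theorem vQ_fix {B : Subgroup (Subgroup.centralizer ({z} : Set G))} (hel : Cfsg.IsElementaryAbelian 2 B)
    {a : Subgroup.centralizer ({z} : Set G)} (ha : a ∈ B) {w : Fin 6 → F} (hw : w ∈ D.vQ B) : D.L a w = w := by
  obtain ⟨q, hq, rfl⟩ := hw
  rw [D.L_v]
  refine congrArg D.v (Subtype.ext ?_)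
  show a * q.1 * a⁻¹ = q.1
  rw [elem_comm hel ha hq, mul_inv_cancel_right]

include D in
theorem card_inf_Q_le {B : Subgroup (Subgroup.centralizer ({z} : Set G))} (hel : Cfsg.IsElementaryAbelian 2 B)
    (hz : ∀ c : Q, gv c = z → c.1 ∈ B) : Nat.card ↥(B ⊓ Q) ≤ 2 ^ 7 := by
  let R : Subgroup G := (B ⊓ Q).map (Subgroup.centralizer ({z} : Set G)).subtype
  obtain ⟨c, hc⟩ := D.exists_zQ
  have hle : R ≤ EE Q := Subgroup.map_mono inf_le_right
  have h := D.sing.card_mul R hle ⟨c.1, ⟨hz c hc, c.2⟩, hc⟩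
  have hRR : R ≤ EE Q ⊓ Subgroup.centralizer (R : Set G) := by
    rintro _ ⟨a, ha, rfl⟩
    refine ⟨hle ⟨a, ha, rfl⟩, Subgroup.mem_centralizer_iff.2 ?_⟩
    rintro _ ⟨b, hb, rfl⟩
    exact congrArg Subtype.val (elem_comm hel hb.1 ha.1)
  have h1 := Subgroup.card_le_of_le hRR
  have hR : Nat.card R = Nat.card ↥(B ⊓ Q) := Subgroup.card_map_of_injective (Subgroup.subtype_injective _)
  rw [Subgroup.card_map_of_injective (K := Q) (Subgroup.subtype_injective _), D.card_Q] at h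
  rw [← hR]
  by_contra hlt
  have h2 := Nat.mul_le_mul (Nat.not_le.1 hlt).le ((Nat.not_le.1 hlt).le.trans h1)
  have h3 : 2 ^ 7 * (2 ^ 7 + 1) ≤ Nat.card R * Nat.card ↥(EE Q ⊓ Subgroup.centralizer (R : Set G)) :=
    Nat.mul_le_mul (Nat.not_le.1 hlt).le ((Nat.succ_le_of_lt (Nat.not_le.1 hlt)).trans h1)
  rw [h] at h3
  norm_num at h3

/-- The counts for the inner part. -/
theorem card_inner {B : Subgroup (Subgroup.centralizer ({z} : Set G))} (hel : Cfsg.IsElementaryAbelian 2 B) :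
    Nat.card ↥(B ⊓ D.M) = Nat.card ↥(B ⊓ Q) * Nat.card ((B.subgroupOf D.M).map D.ρ) ∧
    Nat.card ((B.subgroupOf D.M).map D.ρ) ≤ 16 ∧
    Cfsg.IsElementaryAbelian 2 ((B.subgroupOf D.M).map D.ρ) := by
  let BM := B.subgroupOf D.M
  have hBMe : Cfsg.IsElementaryAbelian 2 BM := elem_comap hel _ (Subgroup.subtype_injective _)
  have hE : Cfsg.IsElementaryAbelian 2 (BM.map D.ρ) := elem_map hBMe _
  refine ⟨?_, card_elementary_le (by rintro _ ⟨m, -, rfl⟩; exact D.ρ_range ▸ ⟨m, rfl⟩) hE, hE⟩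
  have h := (D.ρ.comp BM.subtype).ker.card_mul_index
  rw [Subgroup.index_ker, MonoidHom.range_comp, Subgroup.range_subtype] at h
  have hk : Nat.card (D.ρ.comp BM.subtype).ker = Nat.card ↥(B ⊓ Q) :=
    Nat.card_congr
      { toFun := fun a => ⟨a.1.1.1, a.1.2, (D.ρ_ker _).1 a.2⟩
        invFun := fun a => ⟨⟨⟨a.1, D.le a.2.2⟩, a.2.1⟩, (D.ρ_ker _).2 a.2.2⟩
        left_inv := fun _ => rfl
        right_inv := fun _ => rfl }
  have hM : Nat.card BM = Nat.card ↥(B ⊓ D.M) :=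
    Nat.card_congr
      { toFun := fun a => ⟨a.1.1, a.2, a.1.2⟩
        invFun := fun a => ⟨⟨a.1, a.2.2⟩, a.2.1⟩
        left_inv := fun _ => rfl
        right_inv := fun _ => rfl }
  rw [hk, hM] at h
  exact h.symm

/-- A large elementary abelian subgroup is inner. -/
theorem le_M_of_large (g : G) (s : Q) (hgs : g * z * g⁻¹ = gv s) (hne : gv s ≠ z)
    {B : Subgroup (Subgroup.centralizer ({z} : Set G))} (hel : Cfsg.IsElementaryAbelian 2 B)
    (hz : ∀ c : Q, gv c = z → c.1 ∈ B) (hB : 2 ^ 11 ≤ Nat.card B) : B ≤ D.M := by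
  classical
  intro x hx
  by_contra hxM
  have h2 : Nat.card B ≤ 2 * Nat.card ↥(B ⊓ D.M) := by
    refine H18.card_le_two_mul fun a ha b hb ha1 hb1 => ⟨B.mul_mem (B.inv_mem ha) hb, ?_⟩
    have ha' : a ∉ D.M := fun h => ha1 ⟨ha, h⟩
    have hb' : b ∉ D.M := fun h => hb1 ⟨hb, h⟩
    refine (Subgroup.mul_mem_iff_of_index_two D.index).2 ?_
    simp [ha', hb']
  obtain ⟨hc, hE16, -⟩ := D.card_inner hel
  have hQ64 : 64 ≤ Nat.card ↥(B ⊓ Q) := by
    have := Nat.mul_le_mul_left (Nat.card ↥(B ⊓ Q)) hE16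
    rw [← hc] at this
    norm_num at hB
    omega
  have hW : 32 ≤ (D.vQ B).ncard := by
    have := D.two_mul_ncard_vQ (B := B)
    omega
  have hsemi : ∀ w, D.L x ((om : F) • w) = ((om : F) * om) • D.L x w := by
    obtain ⟨l, hl, hl'⟩ := D.exists_sclar x
    rcases hl with rfl | rfl
    · exact absurd ((D.mem_M_iff_lin g s hgs hne x).2 hl') hxM
    · exact hl'
  have hinj : Function.Injective (fun p : D.vQ B × D.vQ B => (p.1.1 + (om : F) • p.2.1 : Fin 6 → F)) := by
    rintro ⟨⟨u, hu⟩, ⟨w, hw⟩⟩ ⟨⟨u', hu'⟩, ⟨w', hw'⟩⟩ e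
    have e' : u + (om : F) • w = u' + (om : F) • w' := e
    have e2 := congrArg (D.L x) e'
    rw [D.L_add, D.L_add, hsemi, hsemi, D.vQ_fix hel hx hu, D.vQ_fix hel hx hw, D.vQ_fix hel hx hu',
      D.vQ_fix hel hx hw'] at e2
    have hw' : w = w' := by
      funext j
      have a1 := congrFun e' j
      have a2 := congrFun e2 j
      simp only [Pi.add_apply, Pi.smul_apply, smul_eq_mul] at a1 a2
      linear_combination a2 - a1 - (w j - w' j) * hom (F := F)
    subst hw'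
    have hu'' : u = u' := add_right_cancel e'
    subst hu''
    rfl
  have hMQ : B ⊓ D.M ≤ B ⊓ Q := by
    rintro a ⟨haB, haM⟩
    refine ⟨haB, (D.ρ_ker ⟨a, haM⟩).1 ?_⟩
    by_contra hne1
    have hsub : D.ρ ⟨a, haM⟩ ∈ sub (F := F) 0 := D.ρ_range ▸ ⟨_, rfl⟩
    have hsq : D.ρ ⟨a, haM⟩ * D.ρ ⟨a, haM⟩ = 1 := by
      rw [← map_mul, show (⟨a, haM⟩ : D.M) * ⟨a, haM⟩ = 1 from Subtype.ext (elem_sq hel haB), map_one]
    have hfix := ncard_fix_le hsub hsq hne1
    have hmem : ∀ p : D.vQ B × D.vQ B,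
        (p.1.1 + (om : F) • p.2.1) ∈ {y : Fin 6 → F | D.ρ ⟨a, haM⟩ • y = y} := fun p => by
      show D.ρ ⟨a, haM⟩ • _ = _
      rw [smul_def, ← D.L_M ⟨a, haM⟩, D.L_add, (D.mem_M_iff_lin g s hgs hne a).1 haM, D.vQ_fix hel haB p.1.2,
        D.vQ_fix hel haB p.2.2]
    have h := Nat.card_le_card_of_injective
      (fun p : D.vQ B × D.vQ B => (⟨_, hmem p⟩ : {y : Fin 6 → F | D.ρ ⟨a, haM⟩ • y = y}))
      fun p p' e => hinj (congrArg Subtype.val e)
    rw [Nat.card_prod, Nat.card_coe_set_eq, Nat.card_coe_set_eq] at h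
    have := Nat.mul_le_mul hW hW
    omega
  have h3 := Subgroup.card_le_of_le hMQ
  have h4 := D.card_inf_Q_le hel hz
  omega

theorem card_of_large (g : G) (s : Q) (hgs : g * z * g⁻¹ = gv s) (hne : gv s ≠ z)
    {B : Subgroup (Subgroup.centralizer ({z} : Set G))} (hel : Cfsg.IsElementaryAbelian 2 B)
    (hz : ∀ c : Q, gv c = z → c.1 ∈ B) (hB : 2 ^ 11 ≤ Nat.card B) :
    B ≤ D.M ∧ Nat.card B = 2 ^ 11 ∧ Nat.card ↥(B ⊓ Q) = 2 ^ 7 ∧
      Nat.card ((B.subgroupOf D.M).map D.ρ) = 16 := by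
  have hM := D.le_M_of_large g s hgs hne hel hz hB
  obtain ⟨hc, hE, -⟩ := D.card_inner hel
  rw [inf_eq_left.2 hM] at hc
  have h7 := D.card_inf_Q_le hel hz
  have e1 : Nat.card ↥(B ⊓ Q) = 128 := by
    by_contra hne'
    have := Nat.mul_le_mul (show Nat.card ↥(B ⊓ Q) ≤ 127 by omega) hE
    omega
  rw [e1] at hc
  exact ⟨hM, by omega, by omega, by omega⟩

/-- In a Sylow subgroup containing it, the chosen subgroup is the only large one through `z`. -/
theorem eq_CT (g : G) (s : Q) (hgs : g * z * g⁻¹ = gv s) (hne : gv s ≠ z)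
    {T : Sylow 2 (Subgroup.centralizer ({z} : Set G))} (hT : D.CT ≤ (T : Subgroup _))
    {B : Subgroup (Subgroup.centralizer ({z} : Set G))} (hBT : B ≤ (T : Subgroup _))
    (hel : Cfsg.IsElementaryAbelian 2 B) (hz : ∀ c : Q, gv c = z → c.1 ∈ B) (hB : 2 ^ 11 ≤ Nat.card B) :
    B = D.CT := by
  classical
  haveI : Fact (Nat.Prime 2) := ⟨Nat.prime_two⟩
  obtain ⟨hBM, hB11, hB7, hE16⟩ := D.card_of_large g s hgs hne hel hz hB
  set E := (B.subgroupOf D.M).map D.ρ with hEdef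
  let P : Subgroup (SU6 F) := ((T : Subgroup _).subgroupOf D.M).map D.ρ
  have hPs : P ≤ sub 0 := by rintro _ ⟨m, -, rfl⟩; exact D.ρ_range ▸ ⟨m, rfl⟩
  have hPp : IsPGroup 2 P := (T.2.comap_of_injective _ (Subgroup.subtype_injective _)).map _
  obtain ⟨w, -, hw⟩ := exists_conj_into_sylP hPs hPp
  have hEP : E ≤ P := Subgroup.map_mono fun m hm => hBT hm
  have hE0P : E0 ≤ P := fun e he => by
    obtain ⟨m, hm, hmc⟩ := D.exists_lift_CT he
    exact ⟨m, hT hmc, hm⟩
  let f : SU6 F →* SU6 F := (MulAut.conj w).toMonoidHom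
  have hf : Function.Injective f := (MulAut.conj w).injective
  have huniq : ∀ K : Subgroup (SU6 F), K ≤ P → Cfsg.IsElementaryAbelian 2 K → Nat.card K = 16 →
      ∀ W : Set (Fin 6 → F), 64 ≤ W.ncard → (∀ k ∈ K, ∀ y ∈ W, k • y = y) → K.map f = E0 := by
    intro K hK hKe hKc W hW hfix
    refine unique_in_syl ?_ (elem_map hKe _) (by rw [Subgroup.card_map_of_injective hf, hKc]) ?_
    · rintro _ ⟨k, hk, rfl⟩; exact hw k (hK hk)
    · refine le_trans (hW.trans_eq (Set.ncard_image_of_injective W (MulAction.injective w)).symm)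
        (Set.ncard_le_ncard ?_ (Set.toFinite _))
      rintro _ ⟨y, hy, rfl⟩ _ ⟨k, hk, rfl⟩
      show (w * k * w⁻¹) • (w • y) = w • y
      rw [smul_smul, inv_mul_cancel_right, mul_smul, hfix k hk y hy]
  have hW : 64 ≤ (D.vQ B).ncard := by
    have := D.two_mul_ncard_vQ (B := B)
    omega
  have h1 := huniq E hEP (D.card_inner hel).2.2 hE16 _ hW (by
    rintro _ ⟨m, hm, rfl⟩ y hy
    rw [smul_def, ← D.L_M]
    exact D.vQ_fix hel hm hy)
  have h2 := huniq E0 hE0P E0_elem card_E0 {y | InW y} ncard_inW.ge fun k hk y hy => inW_iff.1 hy k hk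
  have hEE0 : E = E0 := Subgroup.map_injective hf (h1.trans h2.symm)
  -- the part in `Q`
  have hQR : B ⊓ Q ≤ D.Rq.map Q.subtype := by
    rintro a ⟨haB, haQ⟩
    refine ⟨⟨a, haQ⟩, inW_iff.2 fun e he => ?_, rfl⟩
    rw [← hEE0] at he
    obtain ⟨m, hm, rfl⟩ := he
    rw [smul_def, ← D.L_M]
    exact D.vQ_fix hel hm ⟨⟨a, haQ⟩, haB, rfl⟩
  have hQeq : B ⊓ Q = D.Rq.map Q.subtype := Subgroup.eq_of_le_of_card_ge hQR (by
    rw [Subgroup.card_map_of_injective (Subgroup.subtype_injective _), D.card_Rq, hB7])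
  refine Subgroup.eq_of_le_of_card_ge (fun b hb => D.mem_CT.2 ⟨⟨hBM hb, ?_⟩, fun r hr => ?_⟩)
    (by rw [D.card_CT.1, hB11])
  · rw [← hEE0]; exact ⟨_, hb, rfl⟩
  · obtain ⟨q, hq, rfl⟩ := D.mem_RG.1 hr
    have hqB : q.1 ∈ B ⊓ Q := hQeq ▸ ⟨q, hq, rfl⟩
    exact congrArg Subtype.val (elem_comm hel hqB.1 hb)

/-- Adjoining the central involution. -/
def addZ {B : Subgroup (Subgroup.centralizer ({z} : Set G))} (c : Subgroup.centralizer ({z} : Set G))
    (hc : c * c = 1) (hcomm : ∀ x : Subgroup.centralizer ({z} : Set G), x * c = c * x) :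
    Subgroup (Subgroup.centralizer ({z} : Set G)) where
  carrier := {x | x ∈ B ∨ x * c ∈ B}
  one_mem' := Or.inl B.one_mem
  mul_mem' := by
    rintro a b (ha | ha) (hb | hb)
    · exact Or.inl (B.mul_mem ha hb)
    · exact Or.inr (by rw [mul_assoc]; exact B.mul_mem ha hb)
    · refine Or.inr ?_
      rw [mul_assoc, hcomm b, ← mul_assoc]; exact B.mul_mem ha hb
    · refine Or.inl ?_
      have := B.mul_mem ha hb
      rwa [mul_assoc, ← mul_assoc c b c, ← hcomm b, mul_assoc b c c, hc, mul_one] at this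
  inv_mem' := by
    rintro a (ha | ha)
    · exact Or.inl (B.inv_mem ha)
    · refine Or.inr ?_
      have := B.inv_mem ha
      rwa [_root_.mul_inv_rev, inv_eq_of_mul_eq_one_right hc, ← hcomm] at this

theorem eq_CT' (g : G) (s : Q) (hgs : g * z * g⁻¹ = gv s) (hne : gv s ≠ z)
    {T : Sylow 2 (Subgroup.centralizer ({z} : Set G))} (hT : D.CT ≤ (T : Subgroup _))
    {B : Subgroup (Subgroup.centralizer ({z} : Set G))} (hBT : B ≤ (T : Subgroup _))
    (hel : Cfsg.IsElementaryAbelian 2 B) (hB : 2 ^ 11 ≤ Nat.card B) : B = D.CT := by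
  obtain ⟨zq, hzq⟩ := D.exists_zQ
  have hcomm : ∀ x : Subgroup.centralizer ({z} : Set G), x * zq.1 = zq.1 * x := fun x => Subtype.ext (by
    show (x : G) * gv zq = gv zq * (x : G)
    rw [hzq]; exact Subgroup.mem_centralizer_singleton_iff.1 x.2)
  have hc : zq.1 * zq.1 = 1 := Subtype.ext (by
    show gv zq * gv zq = 1
    rw [hzq, D.sing.xx])
  let B' := addZ (B := B) zq.1 hc hcomm
  have hle : B ≤ B' := fun x hx => Or.inl hx
  have hzB' : ∀ c : Q, gv c = z → c.1 ∈ B' := fun c hcz => Or.inr (by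
    rw [show c = zq from gv_injective (hcz.trans hzq.symm), hc]; exact B.one_mem)
  have hzT : zq.1 ∈ (T : Subgroup _) := hT (D.mem_CT_Q.2 (by
    rw [D.mem_Rq, (D.v_eq_zero zq).2 (Or.inr hzq)]; exact InW.zero))
  have hel' : Cfsg.IsElementaryAbelian 2 B' := by
    have key : ∀ a ∈ B', ∃ b ∈ B, a = b ∨ a = b * zq.1 := by
      rintro a (ha | ha)
      · exact ⟨a, ha, Or.inl rfl⟩
      · exact ⟨_, ha, Or.inr (by rw [mul_assoc, hc, mul_one])⟩
    refine ⟨⟨⟨fun a b => Subtype.ext ?_⟩⟩, fun a ha => ?_⟩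
    · obtain ⟨a', ha', ea⟩ := key a.1 a.2
      obtain ⟨b', hb', eb⟩ := key b.1 b.2
      have h : Commute a' b' := elem_comm hel ha' hb'
      show Commute a.1 b.1
      rcases ea with ea | ea <;> rcases eb with eb | eb <;> rw [ea, eb]
      · exact h
      · exact h.mul_right (hcomm a')
      · exact h.mul_left (hcomm b').symm
      · exact (h.mul_right (hcomm a')).mul_left ((show Commute zq.1 b' from (hcomm b').symm).mul_right (Commute.refl _))
    · obtain ⟨a', ha', ea⟩ := key a ha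
      rcases ea with rfl | rfl
      · exact hel.2 a ha'
      · rw [(show Commute a' zq.1 from hcomm a').mul_pow, hel.2 a' ha', one_mul, pow_two, hc]
  have hB'T : B' ≤ (T : Subgroup _) := by
    rintro x (hx | hx)
    · exact hBT hx
    · have := mul_mem (hBT hx) hzT
      rwa [mul_assoc, hc, mul_one] at this
  have e := D.eq_CT g s hgs hne hT hB'T hel' hzB' (hB.trans (Subgroup.card_le_of_le hle))
  exact Subgroup.eq_of_le_of_card_ge (e ▸ hle) (by rw [D.card_CT.1]; exact hB)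

include D in
/-- In every Sylow subgroup of the centralizer there is exactly one large elementary abelian subgroup. -/
theorem exists_max (g : G) (s : Q) (hgs : g * z * g⁻¹ = gv s) (hne : gv s ≠ z)
    (T : Sylow 2 (Subgroup.centralizer ({z} : Set G))) :
    ∃ A : Subgroup (Subgroup.centralizer ({z} : Set G)), A ≤ (T : Subgroup _) ∧ Cfsg.IsElementaryAbelian 2 A ∧
      Nat.card A = 2 ^ 11 ∧ Nat.card ↥(A ⊓ Q) = 2 ^ 7 ∧ Nat.card (A.map (QuotientGroup.mk' Q)) = 16 ∧
      ∀ B : Subgroup (Subgroup.centralizer ({z} : Set G)), B ≤ (T : Subgroup _) →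
        Cfsg.IsElementaryAbelian 2 B → 2 ^ 11 ≤ Nat.card B → B = A := by
  haveI : Fact (Nat.Prime 2) := ⟨Nat.prime_two⟩
  obtain ⟨c1, c7, c16⟩ := D.card_CT
  obtain ⟨T0, hT0⟩ := (IsPGroup.of_card c1).exists_le_sylow
  obtain ⟨h, rfl⟩ := MulAction.exists_smul_eq (Subgroup.centralizer ({z} : Set G)) T0 T
  let f := (MulAut.conj h).toMonoidHom
  have hf : Function.Injective f := (MulAut.conj h).injective
  have hTeq : ((h • T0 : Sylow 2 _) : Subgroup (Subgroup.centralizer ({z} : Set G))) = (T0 : Subgroup _).map f := by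
    rw [Sylow.coe_subgroup_smul]; rfl
  have hQf : Q.map f = Q := by
    refine le_antisymm ?_ fun x hx => ⟨h⁻¹ * x * h, ?_, ?_⟩
    · rintro _ ⟨x, hx, rfl⟩; exact (inferInstance : Q.Normal).conj_mem x hx h
    · simpa using (inferInstance : Q.Normal).conj_mem x hx h⁻¹
    · show h * (h⁻¹ * x * h) * h⁻¹ = x; group
  refine ⟨D.CT.map f, hTeq ▸ Subgroup.map_mono hT0, elem_map D.CT_elem f,
    by rw [Subgroup.card_map_of_injective hf, c1], ?_, ?_, fun B hB hBe hBc => ?_⟩
  · rw [show D.CT.map f ⊓ Q = (D.CT ⊓ Q).map f by rw [Subgroup.map_inf_eq _ _ _ hf, hQf],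
      Subgroup.card_map_of_injective hf, c7]
  · rw [Subgroup.map_map, show (QuotientGroup.mk' Q).comp f =
      ((MulAut.conj (QuotientGroup.mk' Q h)).toMonoidHom).comp (QuotientGroup.mk' Q) from
        MonoidHom.ext fun x => by simp [f], ← Subgroup.map_map,
      Subgroup.card_map_of_injective (MulAut.conj _).injective, c16]
  · have hBr : B ≤ f.range := fun x _ => (MulAut.conj h).surjective x
    have e := D.eq_CT' g s hgs hne hT0 (B := B.comap f) (fun x hx => by
        have := hB hx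
        rw [hTeq] at this
        obtain ⟨y, hy, e⟩ := this
        rwa [← hf e]) (elem_comap hBe f hf)
      (by rw [← Subgroup.card_map_of_injective hf (K := B.comap f), Subgroup.map_comap_eq_self hBr]; exact hBc)
    rw [← e, Subgroup.map_comap_eq_self hBr]

end Model

/-- The statement about Sylow subgroups of the centralizer. -/
theorem sylow_unique_max (z : G) (Q : Subgroup (Subgroup.centralizer ({z} : Set G))) [Q.Normal]
    (hF : Cfsg.IsOfLargeFischerTypeAt z Q) (T : Sylow 2 ↥(Subgroup.centralizer ({z} : Set G))) :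
    ∃ A : Subgroup ↥(T : Subgroup (Subgroup.centralizer ({z} : Set G))),
      Cfsg.maxElementaryAbelianSubgroups 2 ↥(T : Subgroup (Subgroup.centralizer ({z} : Set G))) = {A} ∧
      Nat.card A = 2 ^ 11 ∧
      Nat.card ↥(A.map (T : Subgroup (Subgroup.centralizer ({z} : Set G))).subtype ⊓ Q) = 2 ^ 7 ∧
      Nat.card ↥((A.map (T : Subgroup (Subgroup.centralizer ({z} : Set G))).subtype).map (QuotientGroup.mk' Q)) = 16 := by
  obtain ⟨D⟩ := exists_model hF
  obtain ⟨g0, ⟨hq, hmem⟩, hne0⟩ := hF.1.2.2.2.2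
  let s0 : Q := ⟨⟨g0 * z * g0⁻¹, hq⟩, hmem⟩
  obtain ⟨A, hAT, hAe, hA11, hA7, hA16, hmax⟩ := D.exists_max g0 s0 rfl hne0 T
  set S := (T : Subgroup (Subgroup.centralizer ({z} : Set G)))
  have hmap : (A.subgroupOf S).map S.subtype = A := Subgroup.map_subgroupOf_eq_of_le hAT
  have hc : Nat.card (A.subgroupOf S) = 2 ^ 11 := by
    rw [Nat.card_congr (Subgroup.subgroupOfEquivOfLe hAT).toEquiv, hA11]
  have hinj := Subgroup.subtype_injective S
  refine ⟨A.subgroupOf S, Set.eq_singleton_iff_unique_mem.2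
    ⟨⟨elem_comap hAe _ hinj, fun B hB => ?_⟩, fun B hB => ?_⟩, hc, by rw [hmap]; exact hA7,
    by rw [hmap]; exact hA16⟩
  · rw [hc]
    by_contra hlt
    have := hmax (B.map S.subtype) (Subgroup.map_subtype_le B) (elem_map hB _)
      (by rw [Subgroup.card_map_of_injective hinj]; omega)
    rw [← Subgroup.card_map_of_injective hinj (K := B), this, hA11] at hlt
    omega
  · have hle := hB.2 (A.subgroupOf S) (elem_comap hAe _ hinj)
    rw [hc] at hle
    have := hmax (B.map S.subtype) (Subgroup.map_subtype_le B) (elem_map hB.1 _)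
      (by rw [Subgroup.card_map_of_injective hinj]; exact hle)
    rw [← this, Subgroup.subgroupOf, Subgroup.comap_map_eq_self_of_injective hinj]

end Cfsg.Agent.H8.LFT
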